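import Cfsg.Agent.Aschbacher.InvariantForms

/-! Invariant forms of a group realised over a subfield are rational up to a scalar. -/

set_option autoImplicit false
set_option linter.unusedSectionVars false

namespace CfsgLib.AschPrime

open Matrix Module
open scoped MatrixGroups

variable {ι : Type} [Fintype ι] [DecidableEq ι] {F : Type*} [Field F]

/-- The entries of the Gram matrix of an invariant form on a rational structure are proportional over
the subfield. -/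
theorem gram_ratio_mem [Nonempty ι] {σ : F →+* F} {f : (ι → F) → (ι → F) → F} {F₀ : Subfield F}
    (hσ : ∀ x ∈ F₀, σ x ∈ F₀) {P : Subgroup (GL ι F)}
    (hP : Cfsg.Geo.ActsAbsolutelyIrreducibly (Cfsg.Geo.matrixSet P))
    (hf : Aschbacher.IsSesquiForm σ f) (hnd : Cfsg.Geo.IsNondegenerateForm f)
    (hfix : Cfsg.Geo.FixesForm (Cfsg.Geo.matrixSet P) f) {B : GL ι F}
    (hB : ∀ s ∈ Cfsg.Geo.matrixSet P, ∀ i j, (B.val * s * (B⁻¹ : GL ι F).val) i j ∈ F₀)
    {i j : ι} (hij : f ((B⁻¹ : GL ι F).val *ᵥ Pi.single i 1) ((B⁻¹ : GL ι F).val *ᵥ Pi.single j 1) ≠ 0)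
    (a b : ι) :
    f ((B⁻¹ : GL ι F).val *ᵥ Pi.single a 1) ((B⁻¹ : GL ι F).val *ᵥ Pi.single b 1) /
      f ((B⁻¹ : GL ι F).val *ᵥ Pi.single i 1) ((B⁻¹ : GL ι F).val *ᵥ Pi.single j 1) ∈ F₀ := by
  set f₁ : (ι → F) → (ι → F) → F := fun u v => f ((B⁻¹ : GL ι F).val *ᵥ u) ((B⁻¹ : GL ι F).val *ᵥ v) with hf₁
  have hs₁ : Aschbacher.IsSesquiForm σ f₁ :=
    ⟨fun x y v => by simp [f₁, mulVec_add, hf.add_left], fun c x v => by simp [f₁, mulVec_smul, hf.smul_left],
     fun v x y => by simp [f₁, mulVec_add, hf.add_right], fun c v x => by simp [f₁, mulVec_smul, hf.smul_right]⟩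
  set G := Cfsg.Geo.gramMatrix f₁ with hG
  set g := f ((B⁻¹ : GL ι F).val *ᵥ Pi.single i 1) ((B⁻¹ : GL ι F).val *ᵥ Pi.single j 1) with hg
  obtain ⟨d, hd⟩ := Module.Projective.exists_dual_eq_one F₀ (one_ne_zero (α := F))
  let π : F →+ F := (F₀.subtype : F₀ →+* F).toAddMonoidHom.comp d.toAddMonoidHom
  have hπ : ∀ x, π x ∈ F₀ := fun x => (d x).2
  have hπ1 : π 1 = 1 := by simp [π, hd]
  have hπr : ∀ x y : F, y ∈ F₀ → π (x * y) = π x * y := by
    intro x y hy
    have : x * y = (⟨y, hy⟩ : F₀) • x := by rw [mul_comm]; rfl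
    show ((d (x * y) : F₀) : F) = (d x : F) * y
    rw [this, map_smul]
    exact mul_comm _ _
  let G' : Matrix ι ι F := fun a b => π (g⁻¹ * G a b)
  let f' : (ι → F) → (ι → F) → F := fun u v =>
    (B.val *ᵥ u) ⬝ᵥ (G' *ᵥ fun b => σ ((B.val *ᵥ v) b))
  have hf' : Aschbacher.IsSesquiForm σ f' := by
    refine ⟨fun x y v => ?_, fun c x v => ?_, fun v x y => ?_, fun c v x => ?_⟩
    · simp [f', mulVec_add, add_dotProduct]
    · simp [f', mulVec_smul, smul_dotProduct]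
    · simp only [f', mulVec_add, Pi.add_apply, map_add]
      rw [show (fun b => σ ((B.val *ᵥ x) b) + σ ((B.val *ᵥ y) b)) =
        (fun b => σ ((B.val *ᵥ x) b)) + fun b => σ ((B.val *ᵥ y) b) from rfl, mulVec_add, dotProduct_add]
    · simp only [f', mulVec_smul, Pi.smul_apply, smul_eq_mul, map_mul]
      rw [show (fun b => σ c * σ ((B.val *ᵥ x) b)) = σ c • fun b => σ ((B.val *ᵥ x) b) from rfl,
        mulVec_smul, dotProduct_smul, smul_eq_mul]
  have hfix' : Cfsg.Geo.FixesForm (Cfsg.Geo.matrixSet P) f' := by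
    intro s hs u v
    set S := B.val * s * (B⁻¹ : GL ι F).val with hS
    have hSrat := hB s hs
    have hSfix : Sᵀ * (G * S.map σ) = G := by
      refine Aschbacher.gramMatrix_of_fixes hs₁ fun x y => ?_
      have := hfix s hs ((B⁻¹ : GL ι F).val *ᵥ x) ((B⁻¹ : GL ι F).val *ᵥ y)
      simpa [f₁, hS, mulVec_mulVec, ← mul_assoc] using this
    have hS' : Sᵀ * (G' * S.map σ) = G' := by
      ext a b
      have e := congrArg π (congrArg (g⁻¹ * ·) (congrFun (congrFun hSfix a) b))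
      simp only [Matrix.mul_apply, Finset.mul_sum, map_sum] at e ⊢
      refine Eq.trans ?_ e
      refine Finset.sum_congr rfl fun k _ => Finset.sum_congr rfl fun l _ => ?_
      have hr : Sᵀ a k * (S.map σ) l b ∈ F₀ := F₀.mul_mem (hSrat k a) (hσ _ (hSrat l b))
      calc Sᵀ a k * (G' k l * (S.map σ) l b) = π (g⁻¹ * G k l) * (Sᵀ a k * (S.map σ) l b) := by
            simp only [G']; ring
        _ = π (g⁻¹ * G k l * (Sᵀ a k * (S.map σ) l b)) := (hπr _ _ hr).symm
        _ = π (g⁻¹ * (Sᵀ a k * (G k l * (S.map σ) l b))) := congrArg π (by ring)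
    have hBs : ∀ w, B.val *ᵥ (s *ᵥ w) = S *ᵥ (B.val *ᵥ w) := fun w => by
      simp [hS, mulVec_mulVec, mul_assoc]
    have hmap : ∀ w : ι → F, (fun b => σ ((S *ᵥ w) b)) = S.map σ *ᵥ fun b => σ (w b) := fun w => by
      funext b; exact RingHom.map_mulVec σ S w b
    have key : ∀ x y : ι → F, (S *ᵥ x) ⬝ᵥ (G' *ᵥ (S.map σ *ᵥ y)) = x ⬝ᵥ (G' *ᵥ y) := fun x y => by
      rw [mulVec_mulVec, ← vecMul_transpose, ← dotProduct_mulVec, mulVec_mulVec, hS']
    show (B.val *ᵥ (s *ᵥ u)) ⬝ᵥ (G' *ᵥ fun b => σ ((B.val *ᵥ (s *ᵥ v)) b)) =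
      (B.val *ᵥ u) ⬝ᵥ (G' *ᵥ fun b => σ ((B.val *ᵥ v) b))
    rw [hBs, hBs, hmap]
    exact key _ _
  obtain ⟨c, hc⟩ := Aschbacher.exists_eq_mul_of_fixes hP hf hf' hnd hfix hfix'
  have hentry : ∀ a b, G' a b = c * G a b := by
    intro a b
    have := hc ((B⁻¹ : GL ι F).val *ᵥ Pi.single a 1) ((B⁻¹ : GL ι F).val *ᵥ Pi.single b 1)
    simp only [f', mulVec_mulVec, Units.mul_inv, one_mulVec] at this
    have hσ1 : (fun x => σ ((Pi.single b (1 : F) : ι → F) x)) = Pi.single b 1 := by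
      funext x; simp only [Pi.single_apply]; split <;> simp
    rw [hσ1, mulVec_single_one, single_one_dotProduct] at this
    exact this
  have hc1 : c = g⁻¹ := by
    refine eq_inv_of_mul_eq_one_left ?_
    have hgG : G i j = g := rfl
    rw [← hgG, ← hentry, show G' i j = π (g⁻¹ * G i j) from rfl, hgG, inv_mul_cancel₀ hij, hπ1]
  show G a b / g ∈ F₀
  rw [div_eq_inv_mul, ← hc1, ← hentry]
  exact hπ _

/-- Conjugating by a scalar multiple does not change a subfield group. -/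
lemma subfieldSubgroup_mul_scalar (F₀ : Subfield F) (P : GL ι F) {z : GL ι F}
    (hz : z ∈ Cfsg.Geo.scalars ι F) :
    Cfsg.Geo.subfieldSubgroup F₀ (P * z) = Cfsg.Geo.subfieldSubgroup F₀ P := by
  obtain ⟨c, hc⟩ := (Cfsg.Geo.mem_scalars_iff z).1 hz
  have hcomm : ∀ x : GL ι F, z * x = x * z := fun x => Units.ext (by simp [hc])
  have : (MulAut.conj (P * z)).toMonoidHom = (MulAut.conj P).toMonoidHom := by
    refine MonoidHom.ext fun x => ?_
    show P * z * x * (P * z)⁻¹ = P * x * P⁻¹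
    rw [_root_.mul_inv_rev, mul_assoc P z x, hcomm, mul_assoc, mul_assoc, mul_inv_cancel_left]
    simp [mul_assoc]
  rw [Cfsg.Geo.subfieldSubgroup, Cfsg.Geo.subfieldSubgroup, this]

end CfsgLib.AschPrime
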