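import Cfsg.Agent.AschPrime.UnitaryBasic
import Cfsg.Agent.Aschbacher.InvariantForms

/-! An absolutely irreducible group equivalent to its twist by an involution of the field is realised over
the fixed field. -/

set_option autoImplicit false
set_option linter.unusedSectionVars false

namespace CfsgLib.AschPrime

open Cfsg.Geo Module
open scoped Matrix MatrixGroups

variable {F : Type*} [Field F] [Fintype F] {q : ℕ} {ι : Type} [Fintype ι] [DecidableEq ι]
variable (hF : Fintype.card F = q ^ 2)
include hF

/-- The field fixed by `x ↦ x ^ q`. -/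
def fixedField : Subfield F := RingHom.eqLocusField (qFrob hF : F ≃+* F).toRingHom (RingHom.id F)

lemma mem_fixedField {x : F} : x ∈ fixedField hF ↔ x ^ q = x := Iff.rfl

/-- Galois descent for an absolutely irreducible set of matrices intertwined with its twist. -/
theorem realisableOver_fixed_of_twist [Nonempty ι] {S : Set (Matrix ι ι F)}
    (hP : ActsAbsolutelyIrreducibly S) (N : Matrix ι ι F) (hN : IsUnit N.det)
    (htwist : ∀ s ∈ S, N * s.map (qFrob hF : F ≃+* F).toRingHom = s * N) :
    RealisableOver (fixedField hF) S := by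
  classical
  set σ := (qFrob hF : F ≃+* F).toRingHom with hσdef
  have hmm : ∀ X Y : Matrix ι ι F, (X * Y).map σ = X.map σ * Y.map σ := fun X Y => Matrix.map_mul
  have hcomm : ∀ s ∈ S, (N * N.map σ) * s = s * (N * N.map σ) := by
    intro s hs
    have h := congrArg (fun X : Matrix ι ι F => X.map σ) (htwist s hs)
    simp only [hmm] at h
    have hss : (s.map σ).map σ = s := by ext a b; exact q_pow_pow hF (s a b)
    rw [hss] at h
    rw [Matrix.mul_assoc, h, ← Matrix.mul_assoc, htwist s hs, Matrix.mul_assoc]
  obtain ⟨c, hc⟩ := hP.2 _ hcomm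
  have hdi : (N).det ≠ 0 := by
    exact hN.ne_zero
  have hc0 : c ≠ 0 := by
    rintro rfl
    rw [zero_smul] at hc
    have := congrArg Matrix.det hc
    rw [Matrix.det_mul, Matrix.det_zero, mul_eq_zero] at this
    rcases this with h | h
    · exact hdi h
    · have h' : σ (N).det = 0 := by rw [RingHom.map_det]; exact h
      exact hdi ((map_eq_zero σ).1 h')
  -- the scalar is fixed
  have hcfix : c ^ q = c := by
    have hu : IsUnit N.det := isUnit_iff_ne_zero.2 hdi
    have h1 : N * N.map σ * N = (c • (1 : Matrix ι ι F)) * N := by rw [hc]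
    have h2 := congrArg (fun X : Matrix ι ι F => X.map σ) hc
    simp only [hmm] at h2
    have hss : (N.map σ).map σ = N := by ext a b; exact q_pow_pow hF (N a b)
    rw [hss] at h2
    have h3 : (c • (1 : Matrix ι ι F)).map σ = c ^ q • (1 : Matrix ι ι F) := by
      ext a b
      simp only [Matrix.map_apply, Matrix.smul_apply, Matrix.one_apply, smul_eq_mul, mul_ite, mul_one, mul_zero]
      split
      · rfl
      · exact map_zero σ
    rw [h3] at h2
    rw [Matrix.mul_assoc, h2, Matrix.smul_mul, Matrix.mul_smul, Matrix.one_mul, Matrix.mul_one] at h1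
    obtain ⟨a, b, hab⟩ : ∃ a b, N a b ≠ 0 := by
      by_contra h
      push Not at h
      exact hdi (by rw [show N = 0 from Matrix.ext h, Matrix.det_zero])
    exact mul_right_cancel₀ hab (by simpa using congrFun (congrFun h1 a) b)
  obtain ⟨μ, hμ⟩ := exists_norm_eq hF (a := c⁻¹) (by rw [inv_pow, hcfix])
  have hμμ : μ * μ ^ q * c = 1 := by rw [← pow_succ', hμ, inv_mul_cancel₀ hc0]
  -- the semilinear involution
  let J : (ι → F) → (ι → F) := fun v => μ • (N *ᵥ fun k => σ (v k))
  have hJadd : ∀ x y, J (x + y) = J x + J y := by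
    intro x y
    simp only [J, Pi.add_apply, map_add]
    rw [show (fun k => σ (x k) + σ (y k)) = (fun k => σ (x k)) + fun k => σ (y k) from rfl, Matrix.mulVec_add,
      smul_add]
  have hJsmul : ∀ (a : F) x, J (a • x) = a ^ q • J x := by
    intro a x
    simp only [J, Pi.smul_apply, smul_eq_mul, map_mul]
    rw [show (fun k => σ a * σ (x k)) = σ a • fun k => σ (x k) from rfl, Matrix.mulVec_smul, smul_comm]
    rfl
  have hJJ : ∀ x, J (J x) = x := by
    intro x
    have e : (fun k => σ (J x k)) = μ ^ q • (N.map σ *ᵥ fun k => x k) := by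
      funext k
      simp only [J, Pi.smul_apply, smul_eq_mul, map_mul, RingHom.map_mulVec]
      congr 1
      exact congrFun (congrArg (fun w => N.map σ *ᵥ w) (funext fun l => q_pow_pow hF (x l))) k
    show μ • (N *ᵥ fun k => σ (J x k)) = x
    rw [e, Matrix.mulVec_smul, Matrix.mulVec_mulVec, hc, Matrix.smul_mulVec, Matrix.one_mulVec, smul_smul,
      smul_smul, hμμ, one_smul]
  have hJs : ∀ s ∈ S, ∀ x, J (s *ᵥ x) = s *ᵥ J x := by
    intro s hs x
    simp only [J, Matrix.mulVec_smul]
    rw [show (fun k => σ ((s *ᵥ x) k)) = s.map σ *ᵥ fun k => σ (x k) from funext fun k => RingHom.map_mulVec σ s x k,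
      Matrix.mulVec_mulVec, htwist s hs, ← Matrix.mulVec_mulVec]
  obtain ⟨t, ht⟩ := exists_pow_ne_self hF
  have hspan : ⊤ ≤ Submodule.span F {v | J v = v} := by
    intro v _
    have h1 : v + J v ∈ Submodule.span F {v | J v = v} :=
      Submodule.subset_span (show J (v + J v) = v + J v by rw [hJadd, hJJ, add_comm])
    have h2 : t • v + J (t • v) ∈ Submodule.span F {v | J v = v} :=
      Submodule.subset_span (show J (t • v + J (t • v)) = t • v + J (t • v) by rw [hJadd, hJJ, add_comm])
    have h3 := Submodule.sub_mem _ h2 (Submodule.smul_mem _ (t ^ q) h1)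
    rw [hJsmul, smul_add, add_sub_add_right_eq_sub, ← sub_smul] at h3
    exact (Submodule.smul_mem_iff _ (sub_ne_zero.2 (Ne.symm ht))).1 h3
  let b₀ := Basis.ofSpan hspan
  have hfinrank := Module.finrank_eq_nat_card_basis b₀
  rw [Module.finrank_pi] at hfinrank
  have : Finite ((linearIndepOn_empty F id).extend (Set.empty_subset {v : ι → F | J v = v})) :=
    Nat.finite_of_card_ne_zero (hfinrank ▸ Fintype.card_ne_zero)
  let b := b₀.reindex ((Finite.equivFinOfCardEq hfinrank.symm).trans (Fintype.equivFin ι).symm)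
  have hb : ∀ k, J (b k) = b k := fun k => by
    rw [Basis.reindex_apply]
    exact Basis.ofSpan_subset hspan ⟨_, rfl⟩
  let X : Matrix ι ι F := (Pi.basisFun F ι).toMatrix b
  let Y : Matrix ι ι F := b.toMatrix (Pi.basisFun F ι)
  let B : GL ι F := ⟨Y, X, Basis.toMatrix_mul_toMatrix_flip _ _, Basis.toMatrix_mul_toMatrix_flip _ _⟩
  have hYv : ∀ v, Y *ᵥ v = fun k => b.repr v k := fun v => by
    funext k
    have h := congrArg (fun w => b.repr w k) (pi_eq_sum_univ' v)
    simp only [map_sum, map_smul, Finsupp.coe_finsetSum, Finset.sum_apply, Finsupp.smul_apply, smul_eq_mul] at h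
    rw [h, Matrix.mulVec, dotProduct]
    refine Finset.sum_congr rfl fun l _ => ?_
    simp [Y, Basis.toMatrix_apply, mul_comm]
  refine ⟨B, fun s hs a k => ?_⟩
  have hcol : (B.val * s * (B⁻¹ : GL ι F).val) a k = b.repr (s *ᵥ b k) a := by
    have hXk : X *ᵥ Pi.single k 1 = b k := by
      rw [Matrix.mulVec_single_one]; funext l; simp [X, Basis.toMatrix_apply]
    have h : (B.val * s * (B⁻¹ : GL ι F).val) *ᵥ Pi.single k 1 = Y *ᵥ (s *ᵥ b k) := by
      rw [← Matrix.mulVec_mulVec, ← Matrix.mulVec_mulVec]
      exact congrArg (fun w => Y *ᵥ (s *ᵥ w)) hXk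
    have := congrFun h a
    rwa [Matrix.mulVec_single_one, hYv] at this
  rw [hcol, mem_fixedField]
  set w := s *ᵥ b k
  have hJw : J w = w := by rw [show J w = s *ᵥ J (b k) from hJs s hs _, hb]
  have hsum : J w = ∑ l, (b.repr w l) ^ q • b l := by
    conv_lhs => rw [← b.sum_repr w]
    have : ∀ S : Finset ι, J (∑ l ∈ S, b.repr w l • b l) = ∑ l ∈ S, (b.repr w l) ^ q • b l := by
      intro S
      induction S using Finset.induction with
      | empty =>
        have := hJsmul 0 0
        simpa [zero_pow (q_pos hF).ne'] using this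
      | insert a S ha ih => rw [Finset.sum_insert ha, Finset.sum_insert ha, hJadd, hJsmul, hb, ih]
    exact this _
  have := congrArg (fun v => b.repr v a) (hJw.symm.trans hsum)
  simp only [b.repr_sum_self] at this
  exact this.symm

end CfsgLib.AschPrime
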