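import Cfsg.Agent.AschPrime.UnitaryFrameField

/-! The special unitary group normalises no absolutely irreducible group of class two. -/

set_option autoImplicit false
set_option linter.unusedSectionVars false

namespace CfsgLib.AschPrime

open Cfsg.Geo Module
open scoped Matrix MatrixGroups

variable {F : Type*} [Field F] {n : ℕ}

lemma val_pow_prime_eq_one [Nonempty (Fin n)] {p : ℕ} [Fact p.Prime] [CharP F p] {g : GL (Fin n) F}
    (hsq : ((g : Matrix (Fin n) (Fin n) F) - 1) * ((g : Matrix (Fin n) (Fin n) F) - 1) = 0) :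
    g ^ p = 1 := by
  refine Units.ext ?_
  rw [Units.val_pow_eq_pow_val, Units.val_one]
  have hNp : ((g : Matrix (Fin n) (Fin n) F) - 1) ^ p = 0 := by
    obtain ⟨m, hm⟩ : ∃ m, p = 2 + m := ⟨p - 2, by have := (Fact.out : p.Prime).two_le; omega⟩
    rw [hm, pow_add, sq, hsq, zero_mul]
  have h := add_pow_char_of_commute (R := Matrix (Fin n) (Fin n) F) (p := p)
    (Commute.one_right ((g : Matrix (Fin n) (Fin n) F) - 1))
  rwa [sub_add_cancel, hNp, one_pow, zero_add] at h

/-- In an absolutely irreducible group whose commutators are scalar, an element with a large fixed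
space is scalar. -/
lemma mem_scalars_of_fix_large (hn : 5 ≤ n) {R : Subgroup (GL (Fin n) F)}
    (hirr : ActsAbsolutelyIrreducibly (matrixSet R))
    (hcl2 : ∀ x ∈ R, ∀ y ∈ R, x * y * x⁻¹ * y⁻¹ ∈ scalars (Fin n) F)
    {y : GL (Fin n) F} (hy : y ∈ R) {W : Submodule F (Fin n → F)} (hW : n ≤ finrank F W + 2)
    (hfix : ∀ w ∈ W, y.val *ᵥ w = w) : y ∈ scalars (Fin n) F := by
  by_contra hns
  obtain ⟨z, hz, hzy⟩ : ∃ z ∈ R, z * y ≠ y * z := by
    by_contra h
    push Not at h
    obtain ⟨c, hc⟩ := hirr.2 y.val (by rintro _ ⟨z, hz, rfl⟩; exact congrArg Units.val (h z hz).symm)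
    refine hns ((mem_scalars_iff y).2 ⟨Units.mk0 c fun h0 => ?_, hc⟩)
    obtain ⟨w, hw, hw0⟩ := Submodule.exists_mem_ne_zero_of_ne_bot (p := W) fun hb => by
      rw [hb, finrank_bot] at hW; omega
    have := hfix w hw
    rw [hc, h0, zero_smul, Matrix.zero_mulVec] at this
    exact hw0 this.symm
  obtain ⟨ζ, hζ⟩ := (mem_scalars_iff _).1 (hcl2 y hy z hz)
  have hyz : y.val * z.val = (ζ : F) • (z.val * y.val) := by
    have e : y * z = y * z * y⁻¹ * z⁻¹ * (z * y) := by simp [mul_assoc]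
    have e' := congrArg Units.val e
    rw [Units.val_mul, Units.val_mul _ (z * y), hζ, Matrix.smul_mul, Matrix.one_mul, Units.val_mul] at e'
    exact e'
  have hζ1 : (ζ : F) ≠ 1 := fun h => hzy (Units.ext (by rw [Units.val_mul, Units.val_mul, hyz, h, one_smul]))
  set W' := W.map (Matrix.toLin' z.val)
  have hdim : finrank F W' = finrank F W :=
    (Submodule.equivMapOfInjective _ (fun a b h => by
      have := congrArg (fun v => (z⁻¹ : GL (Fin n) F).val *ᵥ v) h
      simpa [Matrix.mulVec_mulVec] using this) W).finrank_eq.symm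
  have hdis : W ⊓ W' = ⊥ := by
    rw [Submodule.eq_bot_iff]
    rintro v ⟨hv, w, hw, rfl⟩
    have h1 := hfix _ hv
    rw [Matrix.toLin'_apply, Matrix.mulVec_mulVec, hyz, Matrix.smul_mulVec, ← Matrix.mulVec_mulVec, hfix w hw] at h1
    rw [Matrix.toLin'_apply]
    have h2 : ((ζ : F) - 1) • (z.val *ᵥ w) = 0 := by rw [sub_smul, one_smul, h1, sub_self]
    exact (smul_eq_zero.1 h2).resolve_left (sub_ne_zero.2 hζ1)
  have h1 := Submodule.finrank_sup_add_finrank_inf_eq W W'
  rw [hdis, finrank_bot, hdim] at h1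
  have h2 := Submodule.finrank_le (W ⊔ W')
  rw [finrank_fin_fun] at h2
  omega

/-- A transvection normalising such a group centralises it modulo scalars when the dimension is at
least five or the characteristic is large. -/
lemma comm_scalar_of_normalises (hn : 3 ≤ n) {R : Subgroup (GL (Fin n) F)} [Finite R]
    (hirr : ActsAbsolutelyIrreducibly (matrixSet R))
    (hcl2 : ∀ x ∈ R, ∀ y ∈ R, x * y * x⁻¹ * y⁻¹ ∈ scalars (Fin n) F)
    {φ : Module.Dual F (Fin n → F)} {T : GL (Fin n) F}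
    (hT : ∀ x, φ x = 0 → T.val *ᵥ x = x) (hTn : T ∈ subgroupNormalizer R)
    {p : ℕ} (hp : p.Prime) (hTp : T ^ p = 1)
    (hsize : 5 ≤ n ∨ (Subgroup.center R).index < p) :
    ∀ x ∈ R, ∃ W : Submodule F (Fin n → F), n ≤ finrank F W + 2 ∧ T * x * T⁻¹ * x⁻¹ ∈ scalars (Fin n) F ∧
      ∀ w ∈ W, (T * x * T⁻¹ * x⁻¹).val *ᵥ w = w := by
  classical
  intro x hx
  let Φ : (Fin n → F) →ₗ[F] F × F := φ.prod (φ ∘ₗ Matrix.toLin' (x⁻¹ : GL (Fin n) F).val)
  have hW : n ≤ finrank F (LinearMap.ker Φ) + 2 := by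
    have h1 := LinearMap.finrank_range_add_finrank_ker Φ
    have h2 := Submodule.finrank_le (LinearMap.range Φ)
    rw [finrank_fin_fun] at h1
    rw [Module.finrank_prod, Module.finrank_self] at h2
    omega
  have hfixW : ∀ w ∈ LinearMap.ker Φ, (T * x * T⁻¹ * x⁻¹).val *ᵥ w = w := by
    intro w hw
    have hw1 : φ w = 0 := congrArg Prod.fst (LinearMap.mem_ker.1 hw)
    have hw2 : φ ((x⁻¹ : GL (Fin n) F).val *ᵥ w) = 0 := congrArg Prod.snd (LinearMap.mem_ker.1 hw)
    have hTi : (T⁻¹ : GL (Fin n) F).val *ᵥ ((x⁻¹ : GL (Fin n) F).val *ᵥ w) = (x⁻¹ : GL (Fin n) F).val *ᵥ w := by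
      conv_lhs => rw [← hT _ hw2, Matrix.mulVec_mulVec, ← Units.val_mul, inv_mul_cancel, Units.val_one, Matrix.one_mulVec]
    rw [Units.val_mul, Units.val_mul, Units.val_mul, ← Matrix.mulVec_mulVec, ← Matrix.mulVec_mulVec, hTi,
      ← Matrix.mulVec_mulVec, Matrix.mulVec_mulVec _ x.val, ← Units.val_mul, mul_inv_cancel, Units.val_one,
      Matrix.one_mulVec, hT w hw1]
  refine ⟨LinearMap.ker Φ, hW, ?_, hfixW⟩
  have hmem : T * x * T⁻¹ * x⁻¹ ∈ R := R.mul_mem ((Subgroup.mem_normalizer_iff.1 hTn x).1 hx) (R.inv_mem hx)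
  rcases hsize with h5 | hp9
  · exact mem_scalars_of_fix_large h5 hirr hcl2 hmem hW hfixW
  -- the action on the central quotient is trivial as the prime is too large
  have hN : ∀ g ∈ Subgroup.zpowers T, ∀ y, y ∈ R ↔ g * y * g⁻¹ ∈ R := fun g hg =>
    Subgroup.mem_normalizer_iff.1 (Subgroup.zpowers_le.2 hTn hg)
  let Q := R ⧸ Subgroup.center R
  let cj : R ≃* R :=
    { toFun := fun y => ⟨T * y * T⁻¹, (Subgroup.mem_normalizer_iff.1 hTn y).1 y.2⟩
      invFun := fun y => ⟨T⁻¹ * y * T, by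
        simpa using (hN T⁻¹ (inv_mem (Subgroup.mem_zpowers T)) y).1 y.2⟩
      left_inv := fun y => Subtype.ext (by simp [mul_assoc])
      right_inv := fun y => Subtype.ext (by simp [mul_assoc])
      map_mul' := fun a b => Subtype.ext (by simp [mul_assoc]) }
  have hcen : (Subgroup.center R).map cj.toMonoidHom = Subgroup.center R :=
    Subgroup.characteristic_iff_map_eq.1 inferInstance cj
  let π : Equiv.Perm Q := (QuotientGroup.congr _ _ cj hcen).toEquiv
  have hπpow : ∀ (k : ℕ) (y : R), (π ^ k) (y : Q) = ((cj : R → R)^[k] y : R) := by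
    intro k
    induction k with
    | zero => intro y; rfl
    | succ k ih =>
      intro y
      rw [pow_succ', Equiv.Perm.mul_apply, ih, Function.iterate_succ_apply']
      rfl
  have hcjpow : ∀ (k : ℕ) (y : R), (((cj : R → R)^[k] y : R) : GL (Fin n) F) = T ^ k * y * (T ^ k)⁻¹ := by
    intro k
    induction k with
    | zero => intro y; simp
    | succ k ih =>
      intro y
      rw [Function.iterate_succ_apply']
      show T * _ * T⁻¹ = _
      rw [ih, pow_succ']
      simp [mul_assoc]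
  have hπp : π ^ p = 1 := by
    refine Equiv.ext fun a => ?_
    induction a using QuotientGroup.induction_on with
    | _ y => rw [hπpow, show (cj : R → R)^[p] y = y from Subtype.ext (by simp [hcjpow, hTp])]; rfl
  have hord : orderOf π = 1 := by
    rcases (Nat.dvd_prime hp).1 (orderOf_dvd_of_pow_eq_one hπp) with h | h
    · exact h
    have h1 : p ∣ Nat.card (Equiv.Perm Q) := h ▸ orderOf_dvd_natCard π
    rw [Nat.card_perm, Subgroup.index] at *
    exact absurd ((hp.dvd_factorial).1 h1) (not_le.2 hp9)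
  rw [orderOf_eq_one_iff] at hord
  have hx' : π ((⟨x, hx⟩ : R) : Q) = ((⟨x, hx⟩ : R) : Q) := by rw [hord]; rfl
  have hx'' : ((cj ⟨x, hx⟩ : R) : Q) = ((⟨x, hx⟩ : R) : Q) := hx'
  rw [QuotientGroup.eq] at hx''
  have hxi := (Subgroup.center R).inv_mem hx''
  have hzc : ∀ z ∈ R, z * (x⁻¹ * (T * x * T⁻¹)) = (x⁻¹ * (T * x * T⁻¹)) * z := by
    intro z hz
    have := congrArg Subtype.val (Subgroup.mem_center_iff.1 hxi ⟨z, hz⟩)
    simpa [cj, mul_assoc] using this
  obtain ⟨c, hc⟩ := hirr.2 (x⁻¹ * (T * x * T⁻¹)).val (by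
    rintro _ ⟨z, hz, rfl⟩
    exact congrArg Units.val (hzc z hz).symm)
  have hc0 : c ≠ 0 := by
    rintro rfl
    rw [zero_smul] at hc
    have := congrArg (fun X => ((x⁻¹ * (T * x * T⁻¹))⁻¹ : GL (Fin n) F).val * X) hc
    simp only [← Units.val_mul, inv_mul_cancel, Units.val_one, Matrix.mul_zero] at this
    have := congrFun (congrFun this ⟨0, by omega⟩) ⟨0, by omega⟩
    simp at this
  have hs : x⁻¹ * (T * x * T⁻¹) ∈ scalars (Fin n) F := (mem_scalars_iff _).2 ⟨Units.mk0 c hc0, hc⟩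
  have := (scalars_normal (ι := Fin n) (F := F)).conj_mem _ hs x
  simpa [mul_assoc] using this

variable [Fintype F] {q : ℕ} (hF : Fintype.card F = q ^ 2)
include hF

/-- The special unitary group does not normalise an absolutely irreducible group of class two. -/
theorem not_le_subgroupNormalizer (hn : 3 ≤ n) {R : Subgroup (GL (Fin n) F)} [Finite R]
    (hirr : ActsAbsolutelyIrreducibly (matrixSet R))
    (hcl2 : ∀ x ∈ R, ∀ y ∈ R, x * y * x⁻¹ * y⁻¹ ∈ scalars (Fin n) F)
    (hsize : 5 ≤ n ∨ (Subgroup.center R).index < ringChar F) :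
    ¬ Cfsg.GU n F q ⊓ specialLinear (Fin n) F ≤ subgroupNormalizer R := by
  intro hle
  have : Nonempty (Fin n) := ⟨⟨0, by omega⟩⟩
  obtain ⟨c, hc0, hc⟩ := exists_trace_zero hF
  obtain ⟨v, hv0, hv⟩ := exists_isotropic hF (n := n) (by omega)
  obtain ⟨e, hpp, -⟩ := FiniteField.card F (ringChar F)
  have := Fact.mk hpp
  set T := utransv hv c with hTdef
  have hfix : ∀ x, hermDual q v x = 0 → T.val *ᵥ x = x := fun x hx => by
    rw [hTdef, utransv_mulVec, show Cfsg.hermForm n F q x v = 0 from hx]; simp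
  have hsq : (T.val - 1) * (T.val - 1) = 0 := by
    refine Matrix.ext_of_mulVec_single fun k => ?_
    have h : ∀ z, (T.val - 1) *ᵥ z = (c * Cfsg.hermForm n F q z v) • v := fun z => by
      rw [hTdef, Matrix.sub_mulVec, utransv_mulVec, Matrix.one_mulVec, add_sub_cancel_left]
    rw [← Matrix.mulVec_mulVec, h, h, herm_smul_left, hv, mul_zero, mul_zero, zero_smul, Matrix.zero_mulVec]
  have hTp : T ^ ringChar F = 1 := val_pow_prime_eq_one hsq
  have hcomm : ∀ x ∈ R, T * x = x * T := by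
    intro x hx
    obtain ⟨W, hW, hs, hfixW⟩ := comm_scalar_of_normalises hn hirr hcl2 hfix (hle (utransv_mem hF hv hc)) hpp hTp
      hsize x hx
    obtain ⟨a, ha⟩ := (mem_scalars_iff _).1 hs
    obtain ⟨w, hw, hw0⟩ := Submodule.exists_mem_ne_zero_of_ne_bot (p := W) fun hb => by
      rw [hb, finrank_bot] at hW; omega
    have h1 := hfixW w hw
    rw [ha, Matrix.smul_mulVec, Matrix.one_mulVec] at h1
    have ha1 : (a : F) = 1 := by
      have : ((a : F) - 1) • w = 0 := by rw [sub_smul, one_smul, h1, sub_self]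
      exact sub_eq_zero.1 ((smul_eq_zero.1 this).resolve_right hw0)
    have : T * x * T⁻¹ * x⁻¹ = 1 := Units.ext (by rw [ha, ha1, one_smul, Units.val_one])
    rw [mul_inv_eq_one, mul_inv_eq_iff_eq_mul] at this
    exact this
  obtain ⟨a, ha⟩ := hirr.2 T.val (by rintro _ ⟨x, hx, rfl⟩; exact congrArg Units.val (hcomm x hx))
  -- a scalar transvection is trivial
  have ha1 : a = 1 := by
    have := hfix v hv
    rw [ha, Matrix.smul_mulVec, Matrix.one_mulVec] at this
    have h2 : (a - 1) • v = 0 := by rw [sub_smul, one_smul, this, sub_self]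
    exact sub_eq_zero.1 ((smul_eq_zero.1 h2).resolve_right hv0)
  obtain ⟨z, hz⟩ : ∃ z, Cfsg.hermForm n F q z v ≠ 0 := by
    by_contra h
    push Not at h
    exact hv0 (herm_nondeg' hF h)
  have := congrArg (· *ᵥ z) ha
  simp only [hTdef, utransv_mulVec, ha1, one_smul, Matrix.one_mulVec, add_eq_left, smul_eq_zero, mul_eq_zero] at this
  tauto

end CfsgLib.AschPrime
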