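import Cfsg.Agent.AschPrime.UnitaryBasic
import Mathlib.LinearAlgebra.Matrix.NonsingularInverse

/-! Two isometries with cyclic vectors, the same recurrence and the same inner products are conjugate
in the unitary group. -/

set_option autoImplicit false
set_option linter.unusedSectionVars false

namespace CfsgLib.AschPrime

open Cfsg.Geo
open scoped Matrix MatrixGroups

variable {F : Type*} [Field F] [Fintype F] {q n : ℕ}
variable (hF : Fintype.card F = q ^ 2)
include hF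

lemma herm_mulVec_sum (M : Matrix (Fin n) (Fin n) F) (c d : Fin n → F) :
    Cfsg.hermForm n F q (M *ᵥ c) (M *ᵥ d) =
      ∑ i, ∑ j, (c i * d j ^ q) * Cfsg.hermForm n F q (fun l => M l i) (fun l => M l j) := by
  simp only [Cfsg.hermForm, Matrix.mulVec, dotProduct, q_sum_pow hF, mul_pow, Finset.sum_mul_sum]
  rw [Finset.sum_comm]
  refine Finset.sum_congr rfl fun i _ => ?_
  rw [Finset.sum_comm]
  simp only [Finset.mul_sum]
  exact Finset.sum_congr rfl fun j _ => Finset.sum_congr rfl fun l _ => by ring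

lemma herm_pow_shift {a : GL (Fin n) F} (ha : a ∈ Cfsg.GU n F q) (v : Fin n → F) (i j : ℕ) (h : j ≤ i) :
    Cfsg.hermForm n F q (a.val ^ i *ᵥ v) (a.val ^ j *ᵥ v) = Cfsg.hermForm n F q (a.val ^ (i - j) *ᵥ v) v := by
  conv_lhs => rw [show i = j + (i - j) by omega, pow_add, ← Matrix.mulVec_mulVec]
  exact mem_GU.1 (pow_mem ha j) _ _

/-- The recurrence read through the form. -/
lemma herm_recurrence {a : GL (Fin n) F} {v : Fin n → F} {c : Fin n → F}
    (hr : a.val ^ n *ᵥ v = ∑ i, c i • (a.val ^ (i : ℕ) *ᵥ v)) (u : Fin n → F) :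
    Cfsg.hermForm n F q (a.val ^ n *ᵥ v) u =
      ∑ i, c i * Cfsg.hermForm n F q (a.val ^ (i : ℕ) *ᵥ v) u := by
  rw [hr, ← hermDual_apply, map_sum]
  simp [map_smul]

theorem exists_conj_of_gram {a b : GL (Fin n) F} (ha : a ∈ Cfsg.GU n F q) (hb : b ∈ Cfsg.GU n F q)
    {v w : Fin n → F} (hv : LinearIndependent F fun i : Fin n => a.val ^ (i : ℕ) *ᵥ v) {c : Fin n → F}
    (hra : a.val ^ n *ᵥ v = ∑ i, c i • (a.val ^ (i : ℕ) *ᵥ v))
    (hrb : b.val ^ n *ᵥ w = ∑ i, c i • (b.val ^ (i : ℕ) *ᵥ w))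
    (hT : ∀ i : Fin n, Cfsg.hermForm n F q (a.val ^ (i : ℕ) *ᵥ v) v = Cfsg.hermForm n F q (b.val ^ (i : ℕ) *ᵥ w) w) :
    ∃ g : GL (Fin n) F, g ∈ Cfsg.GU n F q ∧ g * a * g⁻¹ = b := by
  classical
  set V : Matrix (Fin n) (Fin n) F := Matrix.of fun l i => (a.val ^ (i : ℕ) *ᵥ v) l with hVdef
  set W : Matrix (Fin n) (Fin n) F := Matrix.of fun l i => (b.val ^ (i : ℕ) *ᵥ w) l with hWdef
  have hVcol : ∀ i, (fun l => V l i) = a.val ^ (i : ℕ) *ᵥ v := fun i => rfl
  have hWcol : ∀ i, (fun l => W l i) = b.val ^ (i : ℕ) *ᵥ w := fun i => rfl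
  have hG : ∀ i j, Cfsg.hermForm n F q (fun l => V l i) (fun l => V l j) =
      Cfsg.hermForm n F q (fun l => W l i) (fun l => W l j) := by
    intro i j
    rw [hVcol, hVcol, hWcol, hWcol]
    rcases le_total (j : ℕ) (i : ℕ) with h | h
    · rw [herm_pow_shift hF ha v _ _ h, herm_pow_shift hF hb w _ _ h]
      exact hT ⟨(i : ℕ) - j, by omega⟩
    · rw [herm_symm hF, herm_pow_shift hF ha v _ _ h, herm_symm hF (b.val ^ (i : ℕ) *ᵥ w),
        herm_pow_shift hF hb w _ _ h]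
      exact congrArg (· ^ q) (hT ⟨(j : ℕ) - i, by omega⟩)
  have hform : ∀ x y, Cfsg.hermForm n F q (V *ᵥ x) (V *ᵥ y) = Cfsg.hermForm n F q (W *ᵥ x) (W *ᵥ y) := by
    intro x y
    simp only [herm_mulVec_sum hF, hG]
  have hVu : IsUnit V := Matrix.linearIndependent_cols_iff_isUnit.1 hv
  have hWu : IsUnit W := by
    refine Matrix.mulVec_injective_iff_isUnit.1 fun x y hxy => ?_
    have h0 : W *ᵥ (x - y) = 0 := by rw [Matrix.mulVec_sub, hxy, sub_self]
    have h1 : V *ᵥ (x - y) = 0 := by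
      refine herm_nondeg hF fun z => ?_
      obtain ⟨z', rfl⟩ := Matrix.mulVec_surjective_iff_isUnit.2 hVu z
      rw [hform, h0, herm_zero_left]
    exact sub_eq_zero.1 (Matrix.mulVec_injective_iff_isUnit.2 hVu (h1.trans (Matrix.mulVec_zero V).symm))
  obtain ⟨Vu, hVu'⟩ := hVu
  obtain ⟨Wu, hWu'⟩ := hWu
  refine ⟨Wu * Vu⁻¹, mem_GU.2 fun x y => ?_, ?_⟩
  · have hx : ∀ z, (Wu * Vu⁻¹ : GL (Fin n) F).val *ᵥ z = W *ᵥ ((Vu⁻¹ : GL (Fin n) F).val *ᵥ z) := fun z => by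
      rw [Units.val_mul, ← hWu', Matrix.mulVec_mulVec]
    have hz : ∀ z, V *ᵥ ((Vu⁻¹ : GL (Fin n) F).val *ᵥ z) = z := fun z => by
      rw [← hVu', Matrix.mulVec_mulVec, Units.mul_inv, Matrix.one_mulVec]
    rw [hx, hx, ← hform, hz, hz]
  · obtain ⟨C, hCa, hCb⟩ : ∃ C : Matrix (Fin n) (Fin n) F, a.val * V = V * C ∧ b.val * W = W * C := by
      refine ⟨Matrix.of fun l i => if (i : ℕ) + 1 = n then c l else if (l : ℕ) = i + 1 then 1 else 0, ?_, ?_⟩
      all_goals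
        ext l i
        rw [Matrix.mul_apply, Matrix.mul_apply]
      · show (a.val *ᵥ fun j => V j i) l = _
        rw [hVcol, Matrix.mulVec_mulVec, ← pow_succ']
        by_cases hi : (i : ℕ) + 1 = n
        · rw [hi, hra]
          simp [hi, hVdef, Matrix.mulVec, dotProduct, Finset.sum_apply, mul_comm]
        · have e : ∀ x : Fin n, (x : ℕ) = (i : ℕ) + 1 ↔ x = ⟨(i : ℕ) + 1, by omega⟩ := fun x => by simp [Fin.ext_iff]
          simp [hi, hVdef, e]
      · show (b.val *ᵥ fun j => W j i) l = _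
        rw [hWcol, Matrix.mulVec_mulVec, ← pow_succ']
        by_cases hi : (i : ℕ) + 1 = n
        · rw [hi, hrb]
          simp [hi, hWdef, Matrix.mulVec, dotProduct, Finset.sum_apply, mul_comm]
        · have e : ∀ x : Fin n, (x : ℕ) = (i : ℕ) + 1 ↔ x = ⟨(i : ℕ) + 1, by omega⟩ := fun x => by simp [Fin.ext_iff]
          simp [hi, hWdef, e]
    have e1 : (Vu⁻¹ : GL (Fin n) F).val * a.val = C * (Vu⁻¹ : GL (Fin n) F).val := by
      calc (Vu⁻¹ : GL (Fin n) F).val * a.val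
          = (Vu⁻¹ : GL (Fin n) F).val * (a.val * V) * (Vu⁻¹ : GL (Fin n) F).val := by
            rw [← hVu', Matrix.mul_assoc, Matrix.mul_assoc, Units.mul_inv, Matrix.mul_one]
        _ = _ := by rw [hCa, ← hVu', ← Matrix.mul_assoc, Units.inv_mul, Matrix.one_mul]
    rw [mul_inv_eq_iff_eq_mul]
    refine Units.ext ?_
    simp only [Units.val_mul]
    rw [hWu', Matrix.mul_assoc, e1, ← Matrix.mul_assoc, ← hCb, Matrix.mul_assoc]

end CfsgLib.AschPrime
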