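import Cfsg.Agent.AschPrime.UnitaryFrameField

/-! A degree `n` field of matrices closed under adjoints contains a cyclic group of isometries
of every prime order dividing `q ^ n + 1`; such a group generates the field when `q ^ 2` has order `n`
modulo that prime. -/

set_option autoImplicit false
set_option linter.unusedSectionVars false

namespace CfsgLib.AschPrime

open Cfsg.Geo Module
open scoped Matrix MatrixGroups

variable {F : Type*} [Field F] [Fintype F] {q n : ℕ}
variable (hF : Fintype.card F = q ^ 2)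
include hF

theorem exists_cycle (hn : 0 < n) {K : Subalgebra F (Matrix (Fin n) (Fin n) F)}
    (hK : IsFieldSubalgebra n K) (hadj : IsAdjointClosedFor (Cfsg.hermForm n F q) K)
    {r : ℕ} (hr : r.Prime) (hdvd : r ∣ q ^ n + 1) :
    ∃ a : GL (Fin n) F, a ∈ Cfsg.GU n F q ∧ a.val ∈ K ∧ a ^ r = 1 ∧
      a ≠ 1 ∧
      (∀ x ∈ K, (∀ u v, Cfsg.hermForm n F q (x *ᵥ u) (x *ᵥ v) = Cfsg.hermForm n F q u v) →
        x ^ (q ^ n + 1) = 1) := by
  classical
  have : Nonempty (Fin n) := ⟨⟨0, hn⟩⟩
  have hfield : IsField K := by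
    refine ⟨⟨0, 1, fun h => ?_⟩, fun a b => Subtype.ext (hK.comm a a.2 b b.2), fun {a} ha => ?_⟩
    · simpa using congrFun (congrFun (congrArg Subtype.val h) ⟨0, hn⟩) ⟨0, hn⟩
    · obtain ⟨y, hy, hy'⟩ := hK.inv a a.2 fun h => ha (Subtype.ext h)
      exact ⟨⟨y, hy⟩, Subtype.ext hy'⟩
  letI : Field K := hfield.toField
  have : Fintype K := Fintype.ofFinite _
  have hcard : Fintype.card K = q ^ (2 * n) := by
    rw [Module.card_eq_pow_finrank (K := F), hF, hK.finrank_eq, ← pow_mul]
  obtain ⟨p, k, hp, hchar, hqk⟩ := exists_char_pow hF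
  have := Fact.mk hp
  have hcharK : CharP K p := charP_of_injective_algebraMap (algebraMap F K).injective p
  letI : Algebra (ZMod p) K := ZMod.algebra K p
  set N := finrank (ZMod p) K with hNdef
  have hN : Fintype.card K = p ^ N := by rw [Module.card_eq_pow_finrank (K := ZMod p), ZMod.card]
  -- adjoints form a ring automorphism
  choose σ hσK hσ using fun x : K => hadj x x.2
  have huniq : ∀ M M' : Matrix (Fin n) (Fin n) F,
      (∀ u v, Cfsg.hermForm n F q u (M *ᵥ v) = Cfsg.hermForm n F q u (M' *ᵥ v)) → M = M' := by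
    intro M M' h
    refine Matrix.ext_of_mulVec_single fun i => sub_eq_zero.1 (herm_nondeg' hF fun u => ?_)
    have h1 := herm_add_right hF (M *ᵥ Pi.single i 1 - M' *ᵥ Pi.single i 1) (M' *ᵥ Pi.single i 1) u
    rw [sub_add_cancel, h] at h1
    exact left_eq_add.1 (h1.trans (add_comm _ _))
  let s : K → K := fun x => ⟨σ x, hσK x⟩
  have hs : ∀ (x : K) u v, Cfsg.hermForm n F q (x.1 *ᵥ u) v = Cfsg.hermForm n F q u ((s x).1 *ᵥ v) := hσ
  let S : K →+* K :=
    { toFun := s
      map_one' := Subtype.ext (huniq _ _ fun u v => by rw [← hs]; simp)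
      map_mul' := fun x y => Subtype.ext (huniq _ _ fun u v => by
        rw [← hs, show x * y = y * x from mul_comm x y]
        show Cfsg.hermForm n F q ((y.1 * x.1) *ᵥ u) v = _
        rw [← Matrix.mulVec_mulVec, hs, hs]
        show _ = Cfsg.hermForm n F q u (((s x).1 * (s y).1) *ᵥ v)
        rw [← Matrix.mulVec_mulVec])
      map_zero' := Subtype.ext (huniq _ _ fun u v => by
        rw [← hs]
        simp [herm_zero_right hF, herm_zero_left])
      map_add' := fun x y => Subtype.ext (huniq _ _ fun u v => by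
        rw [← hs]
        show Cfsg.hermForm n F q ((x.1 + y.1) *ᵥ u) v = Cfsg.hermForm n F q u (((s x).1 + (s y).1) *ᵥ v)
        rw [Matrix.add_mulVec, Matrix.add_mulVec, herm_add_left, herm_add_right hF, hs, hs]) }
  have hinv : ∀ x, S (S x) = x := fun x => Subtype.ext (huniq _ _ fun u v => by
    show Cfsg.hermForm n F q u ((s (s x)).1 *ᵥ v) = _
    rw [← hs, herm_symm hF, ← hs, ← herm_symm hF])
  -- it is a power of the Frobenius map
  obtain ⟨⟨e, he⟩, heS⟩ := (FiniteField.bijective_frobeniusAlgHom_pow (ZMod p) K).2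
    (AlgHom.mk' S fun c x => by
      rw [Algebra.smul_def, Algebra.smul_def, map_mul]
      congr 1
      exact RingHom.congr_fun (Subsingleton.elim (S.comp (algebraMap (ZMod p) K)) (algebraMap (ZMod p) K)) c)
  have hpow : ∀ x, S x = x ^ p ^ e := by
    intro x
    have h := DFunLike.congr_fun heS x
    simp only [AlgHom.coe_pow, FiniteField.coe_frobeniusAlgHom, pow_iterate, ZMod.card] at h
    exact h.symm
  obtain ⟨t, ht⟩ := exists_pow_ne_self hF
  have he0 : e ≠ 0 := by
    intro h0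
    refine ht ?_
    set x : K := ⟨t • (1 : Matrix (Fin n) (Fin n) F), K.smul_mem K.one_mem t⟩
    have h1 : (s x).1 = x.1 := by rw [show s x = S x from rfl, hpow, h0, pow_zero, pow_one]
    obtain ⟨v, w, hvw⟩ : ∃ v w, Cfsg.hermForm n F q v w ≠ 0 := by
      by_contra h
      push Not at h
      have h2 := congrFun (herm_nondeg hF (h (fun _ => 1))) ⟨0, hn⟩
      exact one_ne_zero h2
    have h2 := hs x v w
    rw [h1] at h2
    simp only [x, Matrix.smul_mulVec, Matrix.one_mulVec, herm_smul_left, herm_smul_right hF] at h2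
    exact (mul_right_cancel₀ hvw h2).symm
  have hqN : q ^ (2 * n) = p ^ N := hcard.symm.trans hN
  obtain ⟨g, hg⟩ := IsCyclic.exists_ofOrder_eq_natCard (α := Kˣ)
  have hgord : orderOf g = p ^ N - 1 := by
    rw [hg, Nat.card_eq_fintype_card, Fintype.card_units, hN]
  have hpN : 2 * e = N := by
    have hfix : g ^ p ^ (2 * e) = g := Units.ext (by
      rw [Units.val_pow_eq_pow_val, two_mul, pow_add, pow_mul, ← hpow, ← hpow, hinv])
    have hperiod : g ^ p ^ N = g := Units.ext (by rw [Units.val_pow_eq_pow_val, ← hN, FiniteField.pow_card])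
    have key : ∀ d, 0 < d → d < N → g ^ p ^ d ≠ g := by
      intro d hd hdN hgd
      have h1 : 1 < p ^ d := Nat.one_lt_pow hd.ne' hp.one_lt
      have h2 : g ^ (p ^ d - 1) = 1 := by
        have h3 : g ^ (p ^ d - 1) * g = g := by
          rw [← pow_succ, show p ^ d - 1 + 1 = p ^ d by omega]
          simpa using hgd
        exact mul_eq_right.1 h3
      have h3 := Nat.le_of_dvd (by omega) (hgord ▸ orderOf_dvd_of_pow_eq_one h2)
      have h4 := Nat.pow_lt_pow_right hp.one_lt hdN
      omega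
    rcases lt_trichotomy (2 * e) N with h | h | h
    · exact absurd hfix (key _ (by omega) h)
    · exact h
    · refine absurd ?_ (key (2 * e - N) (by omega) (by omega))
      rwa [show 2 * e = N + (2 * e - N) by omega, pow_add, pow_mul, hperiod] at hfix
  have hpe : p ^ e = q ^ n := by
    refine Nat.pow_left_injective two_ne_zero ?_
    show (p ^ e) ^ 2 = (q ^ n) ^ 2
    rw [← pow_mul, ← pow_mul, mul_comm e, hpN, ← hqN, mul_comm]
  -- the element of order `r`
  have hqn : 1 < q ^ n := Nat.one_lt_pow hn.ne' (one_lt_q hF)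
  have hsq : p ^ N - 1 = (q ^ n - 1) * (q ^ n + 1) := by
    rw [← hqN, mul_comm 2 n, pow_mul, mul_comm, ← Nat.sq_sub_sq, one_pow]
  obtain ⟨c, hc⟩ := hdvd
  set u : Kˣ := g ^ ((q ^ n - 1) * c) with hu
  have hur : u ^ r = 1 := by
    rw [hu, ← pow_mul, mul_assoc, mul_comm c, ← hc, ← hsq, ← hgord, pow_orderOf_eq_one]
  have hu1 : u ≠ 1 := by
    intro h
    have h1 := Nat.le_of_dvd (Nat.mul_pos (by omega) (Nat.pos_of_ne_zero (by rintro rfl; simp at hc)))
      (orderOf_dvd_of_pow_eq_one (hu ▸ h))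
    rw [hgord, hsq, hc, mul_comm r] at h1
    have h2 : (q ^ n - 1) * c * r ≤ (q ^ n - 1) * c * 1 := by rw [mul_one, mul_assoc]; exact h1
    have := Nat.le_of_mul_le_mul_left h2 (Nat.mul_pos (by omega) (Nat.pos_of_ne_zero (by rintro rfl; simp at hc)))
    exact absurd this (not_le.2 hr.one_lt)
  have := Fact.mk hr
  have hou : orderOf u = r := orderOf_eq_prime hur hu1
  set x : K := (u : K) with hx
  have hxr : x ^ r = 1 := by rw [hx, ← Units.val_pow_eq_pow_val, hur, Units.val_one]
  have hxu : S x * x = 1 := by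
    rw [hpow, hpe, ← pow_succ, hc, pow_mul, hxr, one_pow]
  have hxord : orderOf x = r := by rw [hx, orderOf_units, hou]
  -- isometry
  have hiso : ∀ v w, Cfsg.hermForm n F q (x.1 *ᵥ v) (x.1 *ᵥ w) = Cfsg.hermForm n F q v w := by
    intro v w
    rw [hs, Matrix.mulVec_mulVec]
    show Cfsg.hermForm n F q v ((S x * x : K).1 *ᵥ w) = _
    rw [hxu]
    simp
  let a : GL (Fin n) F :=
    ⟨x.1, (x ^ (r - 1) : K).1, by
      show (x * x ^ (r - 1) : K).1 = 1
      rw [← pow_succ', Nat.sub_add_cancel hr.one_le, hxr]; rfl,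
     by
      show (x ^ (r - 1) * x : K).1 = 1
      rw [← pow_succ, Nat.sub_add_cancel hr.one_le, hxr]; rfl⟩
  have ha : ∀ i : ℕ, a.val ^ i = (x ^ i : K).1 := fun i => rfl
  refine ⟨a, mem_GU.2 hiso, x.2, Units.ext ?_, fun h => hu1 (Units.ext (Subtype.ext (congrArg Units.val h))), fun y hy hyu => ?_⟩
  · rw [Units.val_pow_eq_pow_val, ha, hxr]; rfl
  · have h1 : S ⟨y, hy⟩ * ⟨y, hy⟩ = 1 := Subtype.ext (huniq _ _ fun v w => by
      show Cfsg.hermForm n F q v (((s ⟨y, hy⟩).1 * y) *ᵥ w) = _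
      rw [← Matrix.mulVec_mulVec, ← hs, hyu]
      simp)
    rw [hpow, hpe, ← pow_succ] at h1
    exact congrArg Subtype.val h1

/-- A non-trivial element of order `r` of the field generates it. -/
theorem cycle_props (hn : 0 < n) {K : Subalgebra F (Matrix (Fin n) (Fin n) F)}
    (hK : IsFieldSubalgebra n K) {r : ℕ} (hr : r.Prime) (hdvd : r ∣ q ^ n + 1)
    (hord : ∀ j, 0 < j → j < n → q ^ (2 * j) % r ≠ 1) {a : GL (Fin n) F} (haK : a.val ∈ K) (har : a ^ r = 1)
    (ha1 : a ≠ 1) :
      (∑ i ∈ Finset.range r, a.val ^ i = 0) ∧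
      (∀ v : Fin n → F, v ≠ 0 → LinearIndependent F fun i : Fin n => a.val ^ (i : ℕ) *ᵥ v) ∧
      (∀ k ∈ K, ∃ c : Fin n → F, k = ∑ i, c i • a.val ^ (i : ℕ)) ∧
      (∀ x ∈ K, x ^ r = 1 → ∃ i, i < r ∧ x = a.val ^ i) := by
  classical
  have : Nonempty (Fin n) := ⟨⟨0, hn⟩⟩
  have hfield : IsField K := by
    refine ⟨⟨0, 1, fun h => ?_⟩, fun a b => Subtype.ext (hK.comm a a.2 b b.2), fun {a} ha => ?_⟩
    · simpa using congrFun (congrFun (congrArg Subtype.val h) ⟨0, hn⟩) ⟨0, hn⟩
    · obtain ⟨y, hy, hy'⟩ := hK.inv a a.2 fun h => ha (Subtype.ext h)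
      exact ⟨⟨y, hy⟩, Subtype.ext hy'⟩
  letI : Field K := hfield.toField
  have : Fintype K := Fintype.ofFinite _
  have hcard : Fintype.card K = q ^ (2 * n) := by
    rw [Module.card_eq_pow_finrank (K := F), hF, hK.finrank_eq, ← pow_mul]
  obtain ⟨p, k, hp, hchar, hqk⟩ := exists_char_pow hF
  have := Fact.mk hp
  have hcharK : CharP K p := charP_of_injective_algebraMap (algebraMap F K).injective p
  set x : K := ⟨a.val, haK⟩ with hx
  have ha : ∀ i : ℕ, a.val ^ i = (x ^ i : K).1 := fun i => rfl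
  have hxr : x ^ r = 1 := Subtype.ext (by
    show a.val ^ r = 1
    rw [← Units.val_pow_eq_pow_val, har, Units.val_one])
  have hx1 : x ≠ 1 := fun h => ha1 (Units.ext (congrArg Subtype.val h))
  have := Fact.mk hr
  obtain ⟨u, hu⟩ : IsUnit x := (isUnit_pow_iff hr.ne_zero).1 (hxr ▸ isUnit_one)
  have hur : u ^ r = 1 := Units.ext (by rw [Units.val_pow_eq_pow_val, hu, hxr, Units.val_one])
  have hu1 : u ≠ 1 := fun h => hx1 (by rw [← hu, h, Units.val_one])
  have hou : orderOf u = r := orderOf_eq_prime hur hu1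
  have hxord : orderOf x = r := by rw [← hu, orderOf_units, hou]
  obtain ⟨c, hc⟩ := hdvd
  have hinj : Function.Injective fun j : Fin n => x ^ (q ^ (2 * (j : ℕ))) := by
    intro i j h
    by_contra hne
    simp only at h
    rcases Nat.lt_or_gt_of_ne (fun hv => hne (Fin.ext hv)) with hlt | hlt
    all_goals
      replace h : u ^ q ^ (2 * (i : ℕ)) = u ^ q ^ (2 * (j : ℕ)) :=
        Units.ext (by simpa only [Units.val_pow_eq_pow_val, hu] using h)
      rw [pow_eq_pow_iff_modEq, hou] at h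
    · rw [show 2 * (j : ℕ) = 2 * (i : ℕ) + 2 * ((j : ℕ) - i) by omega, pow_add] at h
      refine hord ((j : ℕ) - i) (by omega) (by omega) ?_
      have h5 : Nat.Coprime r (q ^ (2 * (i : ℕ))) := by
        refine Nat.Coprime.pow_right _ ((hr.coprime_iff_not_dvd).2 fun hd => ?_)
        have h6 : r ∣ q ^ n + 1 := ⟨c, hc⟩
        exact hr.one_lt.ne' (Nat.dvd_one.1 ((Nat.dvd_add_right (dvd_pow hd hn.ne')).1 h6))
      have h7 := Nat.ModEq.cancel_left_of_coprime h5 (show _ * 1 ≡ _ * _ [MOD r] by simpa using h)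
      exact (show _ % r = 1 % r from h7.symm).trans (Nat.mod_eq_of_lt hr.one_lt)
    · rw [show 2 * (i : ℕ) = 2 * (j : ℕ) + 2 * ((i : ℕ) - j) by omega, pow_add] at h
      refine hord ((i : ℕ) - j) (by omega) (by omega) ?_
      have h5 : Nat.Coprime r (q ^ (2 * (j : ℕ))) := by
        refine Nat.Coprime.pow_right _ ((hr.coprime_iff_not_dvd).2 fun hd => ?_)
        have h6 : r ∣ q ^ n + 1 := ⟨c, hc⟩
        exact hr.one_lt.ne' (Nat.dvd_one.1 ((Nat.dvd_add_right (dvd_pow hd hn.ne')).1 h6))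
      have h7 := Nat.ModEq.cancel_left_of_coprime h5 (show _ * _ ≡ _ * 1 [MOD r] by simpa using h)
      exact (show _ % r = 1 % r from h7).trans (Nat.mod_eq_of_lt hr.one_lt)
  have hli : LinearIndependent F fun i : Fin n => x ^ (i : ℕ) := by
    rw [Fintype.linearIndependent_iff]
    intro co hco
    have h0 : (fun i => algebraMap F K (co i)) = 0 := by
      refine Matrix.eq_zero_of_forall_index_sum_mul_pow_eq_zero hinj fun j => ?_
      have := congrArg (fun y : K => y ^ q ^ (2 * (j : ℕ))) hco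
      simp only [zero_pow (pow_ne_zero _ (q_pos hF).ne')] at this
      rw [← this, hqk, ← pow_mul, sum_pow_char_pow]
      refine Finset.sum_congr rfl fun i _ => ?_
      rw [Algebra.smul_def, mul_pow, ← map_pow, ← pow_mul x, ← pow_mul x, mul_comm (p ^ _) (i : ℕ)]
      congr 2
      rw [pow_mul p, ← hqk, pow_mul q, ← hF, FiniteField.pow_card_pow]
    intro i
    exact (algebraMap F K).injective (by rw [map_zero]; exact congrFun h0 i)
  refine ⟨?_, fun v hv => ?_, fun y hy => ?_, fun y hy hyr => ?_⟩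
  · have h1 : ∑ i ∈ Finset.range r, x ^ i = 0 := by
      have := geom_sum_mul x r
      rw [hxr, sub_self] at this
      exact (mul_eq_zero.1 this).resolve_right (sub_ne_zero.2 hx1)
    have := congrArg Subtype.val h1
    simp only [AddSubmonoidClass.coe_finsetSum, ZeroMemClass.coe_zero] at this
    simpa [ha] using this
  · rw [Fintype.linearIndependent_iff]
    intro co hco
    refine Fintype.linearIndependent_iff.1 hli co ?_
    by_contra h
    obtain ⟨y, -, hy⟩ := hK.inv _ (∑ i, co i • x ^ (i : ℕ) : K).2 fun h' => h (Subtype.ext h')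
    refine hv ?_
    rw [← Matrix.one_mulVec v, ← mul_eq_one_comm.1 hy, ← Matrix.mulVec_mulVec]
    have h0 : ((∑ i, co i • x ^ (i : ℕ) : K) : Matrix (Fin n) (Fin n) F) *ᵥ v = 0 := by
      rw [← hco]
      simp [Matrix.sum_mulVec, Matrix.smul_mulVec, ha]
    rw [h0, Matrix.mulVec_zero]
  · have hsp : ⊤ ≤ Submodule.span F (Set.range fun i : Fin n => x ^ (i : ℕ)) :=
      (hli.span_eq_top_of_card_eq_finrank (by rw [Fintype.card_fin, hK.finrank_eq])).ge
    obtain ⟨co, hco⟩ := (Submodule.mem_span_range_iff_exists_fun F).1 (hsp (Submodule.mem_top (x := (⟨y, hy⟩ : K))))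
    refine ⟨co, ?_⟩
    have := congrArg Subtype.val hco.symm
    simp only [AddSubmonoidClass.coe_finsetSum] at this
    simpa [ha] using this
  · have hprim : IsPrimitiveRoot x r := hxord ▸ IsPrimitiveRoot.orderOf x
    have := NeZero.mk hr.ne_zero
    obtain ⟨i, hi, hxi⟩ := hprim.eq_pow_of_pow_eq_one (ξ := (⟨y, hy⟩ : K)) (Subtype.ext (by simpa using hyr))
    exact ⟨i, hi, by rw [ha, hxi]⟩

end CfsgLib.AschPrime
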