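import Cfsg.Agent.AschPrime.QuadTable

/-! The stabiliser of a finite set of lines, and the resulting obstruction to maximality. -/

set_option autoImplicit false
set_option linter.unusedSectionVars false

namespace CfsgLib.AschPrime

open Cfsg.Geo
open scoped Matrix MatrixGroups

variable {ι : Type} [Fintype ι] [DecidableEq ι] {F : Type*} [Field F] [Fintype F]

/-- The matrices mapping each vector of the family to a multiple of another one. -/
noncomputable def lineStab {κ : Type*} (S : κ → ι → F) : Subgroup (GL ι F) where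
  carrier := {g | ∀ i, ∃ (j : κ) (c : F), g.val *ᵥ S i = c • S j}
  mul_mem' {a b} ha hb := fun i => by
    obtain ⟨j, c, hj⟩ := hb i
    obtain ⟨k, d, hk⟩ := ha j
    exact ⟨k, c * d, by rw [Units.val_mul, ← Matrix.mulVec_mulVec, hj, Matrix.mulVec_smul, hk, smul_smul]⟩
  one_mem' := fun i => ⟨i, 1, by simp⟩
  inv_mem' {a} ha := by
    have hpow : ∀ m : ℕ, ∀ i, ∃ (j : κ) (c : F), (a ^ m).val *ᵥ S i = c • S j := by
      intro m
      induction m with
      | zero => exact fun i => ⟨i, 1, by simp⟩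
      | succ m ih =>
        intro i
        obtain ⟨j, c, hj⟩ := ih i
        obtain ⟨k, d, hk⟩ := ha j
        exact ⟨k, c * d, by rw [pow_succ', Units.val_mul, ← Matrix.mulVec_mulVec, hj, Matrix.mulVec_smul, hk, smul_smul]⟩
    have e : a⁻¹ = a ^ (orderOf a - 1) := by
      refine inv_eq_of_mul_eq_one_right ?_
      rw [← pow_succ', Nat.sub_add_cancel (orderOf_pos a), pow_orderOf_eq_one]
    rw [e]
    exact hpow _

lemma mem_lineStab {κ : Type*} {S : κ → ι → F} {g : GL ι F} :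
    g ∈ lineStab S ↔ ∀ i, ∃ (j : κ) (c : F), g.val *ᵥ S i = c • S j := Iff.rfl

/-- An intermediate subgroup, up to conjugation inside an overgroup normalising `K`, contradicts maximality. -/
lemma not_maximal_of_overgroup {G : Type*} [Group G] {K H M : Subgroup G} (hH : IsMaximalIn K H) {g : G}
    (hg : ∀ x, g * x * g⁻¹ ∈ K ↔ x ∈ K) (hle : ∀ x ∈ H, g * x * g⁻¹ ∈ M)
    {w : G} (hwK : w ∈ K) (hwM : w ∈ M) (hwH : g⁻¹ * w * g ∉ H) {t : G} (htK : t ∈ K) (htM : t ∉ M) : False := by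
  have hmem : ∀ x, x ∈ M.comap (MulAut.conj g).toMonoidHom ↔ g * x * g⁻¹ ∈ M := fun x => Iff.rfl
  have hK : ∀ y ∈ K, g⁻¹ * y * g ∈ K := fun y hy => (hg _).1 (by simpa [mul_assoc] using hy)
  rcases hH.2 (M.comap (MulAut.conj g).toMonoidHom ⊓ K) (le_inf (fun x hx => (hmem x).2 (hle x hx)) hH.1.le)
    inf_le_right with h | h
  · exact hwH (h ▸ ⟨(hmem _).2 (by simpa [mul_assoc] using hwM), hK w hwK⟩)
  · have h1 : g⁻¹ * t * g ∈ M.comap (MulAut.conj g).toMonoidHom ⊓ K := h.symm ▸ hK t htK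
    exact htM (by simpa [hmem, mul_assoc] using h1.1)

namespace QTable.Rep

variable {T : QTable} (R : T.Rep F)

/-- A checked code gives an element of the special unitary group. -/
lemma exists_SU_of_code {n : ℕ} {A : Fin n → Fin n → ℕ} (h : T.IsUnitaryCode A) (hd : T.det A = 1) :
    ∃ g : GL (Fin n) F, g.val = R.mat A ∧ g ∈ Cfsg.GU n F T.p ⊓ specialLinear (Fin n) F := by
  have hdet : (R.mat A).det = 1 := by rw [R.det_mat, hd, R.φ_one]
  refine ⟨Matrix.GeneralLinearGroup.mkOfDetNeZero (R.mat A) (by rw [hdet]; exact one_ne_zero), rfl,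
    R.mem_GU_of_code rfl h, MonoidHom.mem_ker.2 (Units.ext ?_)⟩
  exact hdet

lemma mem_lineStab_of_code {n m : ℕ} {g : GL (Fin n) F} {A : Fin n → Fin n → ℕ} (hA : g.val = R.mat A)
    {S : Fin m → Fin n → ℕ} (π : Fin m → Fin m) (c : Fin m → ℕ)
    (h : ∀ k i, T.mv A (S k) i = T.mul (c k) (S (π k) i)) : g ∈ lineStab fun k => R.vec (S k) := by
  refine fun k => ⟨π k, R.φ (c k), ?_⟩
  rw [hA, ← R.vec_mv]
  funext i
  simp [QTable.Rep.vec, h, R.φ_mul]

lemma not_mem_lineStab_of_code {n m : ℕ} {g : GL (Fin n) F} {A : Fin n → Fin n → ℕ} (hA : g.val = R.mat A)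
    {S : Fin m → Fin n → ℕ} (k : Fin m) (hbound : ∀ x, x ∈ List.ofFn (T.mv A (S k)) → x < T.p ^ 2)
    (h : ∀ l, ∀ c < T.p ^ 2, ∃ i, T.mv A (S k) i ≠ T.mul c (S l i) ∧ T.mul c (S l i) < T.p ^ 2) :
    g ∉ lineStab fun k => R.vec (S k) := by
  intro hg
  obtain ⟨l, c, hc⟩ := hg k
  obtain ⟨x, hx, rfl⟩ := R.φ_surjective c
  obtain ⟨i, hne, hlt⟩ := h l x hx
  refine hne (R.φ_injective (hbound _ (List.mem_ofFn.2 ⟨i, rfl⟩)) hlt ?_)
  have := congrFun hc i
  rw [hA, ← R.vec_mv] at this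
  simpa [QTable.Rep.vec, R.φ_mul] using this

end QTable.Rep

end CfsgLib.AschPrime
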