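import Cfsg.Agent.AschPrime.UnitaryBasic

/-! A maximal subgroup of the special unitary group that fixes a proper non-zero subspace is the stabiliser
of a totally isotropic or of a small non-degenerate subspace. -/

set_option autoImplicit false
set_option linter.unusedSectionVars false

namespace CfsgLib.AschPrime

open Cfsg.Geo Module
open scoped Matrix MatrixGroups

variable {F : Type*} [Field F] [Fintype F] {q n : ℕ}

omit [Fintype F] in
/-- Turning containment in a proper member into equality. -/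
lemma eq_inf_of_isMaximalIn {G : Type*} [Group G] {K H M : Subgroup G} (hH : IsMaximalIn K H)
    (hM : H ≤ M) (hne : ¬ K ≤ M) : H = M ⊓ K := by
  rcases hH.2 (M ⊓ K) (le_inf hM hH.1.le) inf_le_right with h | h
  · exact h.symm
  · exact absurd (inf_eq_right.1 h) hne

variable (hF : Fintype.card F = q ^ 2)
include hF

lemma transv_not_mem {W : Submodule F (Fin n → F)} {v w : Fin n → F}
    (hv : Cfsg.hermForm n F q v v = 0) {c : F} (hc : c ≠ 0) (hvW : v ∉ W) (hw : w ∈ W)
    (hwv : Cfsg.hermForm n F q w v ≠ 0) : utransv hv c ∉ subspaceStabilizer W :=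
  TransvGL.transv_not_mem_subspaceStabilizer _ hvW hw (by simp [hc, hwv])

/-- The special unitary group fixes no proper non-zero subspace that is totally isotropic or non-degenerate. -/
theorem not_le_subspaceStabilizer {W : Submodule F (Fin n → F)} (h0 : W ≠ ⊥) (htop : W ≠ ⊤)
    (hW : IsTotallySingularFor (Cfsg.hermForm n F q) W ∨ IsNondegenerateOn (Cfsg.hermForm n F q) W) :
    ¬ Cfsg.GU n F q ⊓ specialLinear (Fin n) F ≤ subspaceStabilizer W := by
  intro hle
  obtain ⟨c, hc0, hc⟩ := exists_trace_zero hF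
  suffices ∃ v, Cfsg.hermForm n F q v v = 0 ∧ v ∉ W ∧ ∃ w ∈ W, Cfsg.hermForm n F q w v ≠ 0 by
    obtain ⟨v, hv, hvW, w, hw, hwv⟩ := this
    exact transv_not_mem hF hv hc0 hvW hw hwv (hle (utransv_mem hF hv hc))
  rcases hW with hW | hW
  · obtain ⟨w, hw, hw0⟩ := Submodule.exists_mem_ne_zero_of_ne_bot h0
    obtain ⟨y, hy⟩ : ∃ y, Cfsg.hermForm n F q w y ≠ 0 := by
      by_contra h
      push Not at h
      exact hw0 (herm_nondeg hF h)
    obtain ⟨x, hwx⟩ : ∃ x, Cfsg.hermForm n F q w x = 1 := by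
      refine ⟨((Cfsg.hermForm n F q w y)⁻¹) ^ q • y, ?_⟩
      rw [herm_smul_right hF, q_pow_pow hF, inv_mul_cancel₀ hy]
    obtain ⟨b, hb⟩ := exists_trace_eq hF (a := -Cfsg.hermForm n F q x x)
      (by rw [q_neg_pow hF, herm_self_fixed hF])
    have hxw : Cfsg.hermForm n F q x w = 1 := by rw [herm_symm hF, hwx, one_pow]
    have hv : Cfsg.hermForm n F q (x + b • w) (x + b • w) = 0 := by
      simp only [herm_add_left, herm_add_right hF, herm_smul_left, herm_smul_right hF, hwx, hxw, hW w hw w hw]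
      linear_combination hb
    have hwv : Cfsg.hermForm n F q w (x + b • w) = 1 := by
      rw [herm_add_right hF, herm_smul_right hF, hwx, hW w hw w hw, mul_zero, add_zero]
    exact ⟨x + b • w, hv, fun h => one_ne_zero (hwv ▸ hW w hw _ h), w, hw, hwv ▸ one_ne_zero⟩
  · obtain ⟨a, ha, haa⟩ := exists_anisotropic hF hW h0
    have hp0 : hperp q W ≠ ⊥ := fun h => htop (by rw [← sup_hperp_of_nondeg hF hW, h, sup_bot_eq])
    obtain ⟨b, hb, hbb⟩ := exists_anisotropic hF (hperp_nondeg hF hW) hp0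
    have hab : Cfsg.hermForm n F q a b = 0 := (mem_hperp' hF).1 hb a ha
    obtain ⟨t, ht, hv⟩ := exists_isotropic_combination hF hab haa hbb
    refine ⟨a + t • b, hv, fun h => ?_, a, ha, ?_⟩
    · rw [W.add_mem_iff_right ha, W.smul_mem_iff ht] at h
      exact hbb (mem_hperp.1 hb b h)
    · rw [herm_add_right hF, herm_smul_right hF, hab, mul_zero, add_zero]
      exact haa

/-- The reducible case of the reduction. -/
theorem maximal_reducible (hn : Odd n) {H : Subgroup (GL (Fin n) F)}
    (hH : IsMaximalIn (Cfsg.GU n F q ⊓ specialLinear (Fin n) F) H) {W : Submodule F (Fin n → F)}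
    (h0 : W ≠ ⊥) (htop : W ≠ ⊤) (hinv : H ≤ subspaceStabilizer W) :
    (∃ W : Submodule F (Fin n → F), W ≠ ⊥ ∧ IsTotallySingularFor (Cfsg.hermForm n F q) W ∧
      H = subspaceStabilizer W ⊓ (Cfsg.GU n F q ⊓ specialLinear (Fin n) F)) ∨
    (∃ W : Submodule F (Fin n → F), W ≠ ⊥ ∧ IsNondegenerateOn (Cfsg.hermForm n F q) W ∧
      2 * finrank F W < n ∧ H = subspaceStabilizer W ⊓ (Cfsg.GU n F q ⊓ specialLinear (Fin n) F)) := by
  have hperpinv : H ≤ subspaceStabilizer (hperp q W) := fun g hg =>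
    subspaceStabilizer_le_hperp hF (hH.1.le hg).1 (hinv hg)
  by_cases hrad : W ⊓ hperp q W = ⊥
  · have hnd := isNondegenerateOn_of_inf_eq_bot hF hrad
    have hdim := finrank_hperp hF W
    right
    rcases Nat.lt_or_ge (2 * finrank F W) n with hlt | hge
    · exact ⟨W, h0, hnd, hlt, eq_inf_of_isMaximalIn hH hinv
        (not_le_subspaceStabilizer hF h0 htop (Or.inr hnd))⟩
    · have hp0 : hperp q W ≠ ⊥ := fun h => htop (by rw [← sup_hperp_of_nondeg hF hnd, h, sup_bot_eq])
      have hptop : hperp q W ≠ ⊤ := fun h => h0 (by rw [← hrad, h, inf_top_eq])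
      have hlt : 2 * finrank F (hperp q W) < n := by
        obtain ⟨m, hm⟩ := hn
        omega
      exact ⟨hperp q W, hp0, hperp_nondeg hF hnd, hlt, eq_inf_of_isMaximalIn hH hperpinv
        (not_le_subspaceStabilizer hF hp0 hptop (Or.inr (hperp_nondeg hF hnd)))⟩
  · left
    have hts : IsTotallySingularFor (Cfsg.hermForm n F q) (W ⊓ hperp q W) :=
      fun u hu v hv => mem_hperp.1 hu.2 v hv.1
    have hinv' : H ≤ subspaceStabilizer (W ⊓ hperp q W) := fun g hg v =>
      and_congr (hinv hg v) (hperpinv hg v)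
    exact ⟨_, hrad, hts, eq_inf_of_isMaximalIn hH hinv' (not_le_subspaceStabilizer hF hrad
      (fun h => htop (top_le_iff.1 (h ▸ inf_le_left))) (Or.inl hts))⟩

end CfsgLib.AschPrime
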