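import Cfsg.Agent.AschPrime.FieldCycle
import Cfsg.Agent.AschPrime.CycleTransport
import Cfsg.Agent.AschPrime.LineStab
import Cfsg.Agent.AschPrime.FiveTwoData
import Cfsg.Agent.AschPrime.UnitarySubspace

/-! Over four elements the normaliser of a degree five field in the special unitary group is not maximal. -/

set_option autoImplicit false
set_option linter.unusedSectionVars false
set_option maxRecDepth 100000
set_option maxHeartbeats 1000000

namespace CfsgLib.AschPrime.FiveTwo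

open Cfsg.Geo Polynomial
open scoped Matrix MatrixGroups
open Fin.NatCast

variable {F : Type*} [Field F] [Fintype F]

lemma exists_rep (hF : Fintype.card F = 2 ^ 2) : Nonempty (tbl.Rep F) := by
  obtain ⟨p, k, hp, hchar, hpk⟩ := exists_char_pow hF
  have := Fact.mk hp
  obtain rfl : p = 2 := by
    have h := dvd_pow_self p (show k ≠ 0 by rintro rfl; simp at hpk)
    rw [← hpk] at h
    exact (Nat.prime_dvd_prime_iff_eq hp Nat.prime_two).1 h
  have h2 : (2 : F) = 0 := CharP.ofNat_eq_zero F 2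
  classical
  obtain ⟨ω, -, hω⟩ : ∃ ω ∈ (Finset.univ : Finset F), ω ∉ ({0, 1} : Finset F) := by
    refine Finset.exists_mem_notMem_of_card_lt_card ?_
    rw [Finset.card_univ, hF]
    exact lt_of_le_of_lt Finset.card_le_two (by norm_num)
  simp only [Finset.mem_insert, Finset.mem_singleton, not_or] at hω
  have h3 : ω ^ 3 = 1 := by
    have h := FiniteField.pow_card_sub_one_eq_one ω hω.1
    rwa [hF] at h
  have hq : ω * ω + ω + 1 = 0 := by
    refine (mul_eq_zero.1 (show (ω - 1) * (ω * ω + ω + 1) = 0 by linear_combination h3)).resolve_left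
      (sub_ne_zero.2 hω.2)
  refine ⟨⟨Nat.prime_two, hchar, hF, ω, ?_, ?_, by decide⟩⟩
  · simp only [tbl, Nat.cast_one]; linear_combination hq - (ω + 1) * h2
  · simp only [tbl, Nat.cast_one]; linear_combination hq - h2

variable (R : tbl.Rep F)

def coefA : Fin 5 → ℕ := ![1, 3, 1, 1, 2]
def coefB : Fin 5 → ℕ := ![1, 2, 1, 1, 3]

lemma pw_succ : ∀ i : Fin 11, ∀ r c, tbl.mm (pw i) (pw 1) r c = pw (i + 1) r c := by decide

lemma pw_zero : ∀ r c, pw 0 r c = if r = c then 1 else 0 := by decide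

lemma mat_pw {a : GL (Fin 5) F} (ha : a.val = R.mat (pw 1)) (i : ℕ) :
    a.val ^ i = R.mat (pw (i : Fin 11)) := by
  induction i with
  | zero =>
    ext r c
    simp [pw_zero, Matrix.one_apply, apply_ite R.φ]
  | succ i ih =>
    rw [pow_succ, ih, ha, ← R.mat_mm, Nat.cast_succ]
    ext r c
    simp [pw_succ]

lemma relation_exponent : ∀ i : Fin 11, (∀ r, pw (5 * i) r 0 =
    tbl.lsum (List.ofFn fun j : Fin 5 => tbl.mul (coefA j) (pw ((j.castLE (by norm_num) : Fin 11) * i) r 0))) →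
    i = 1 ∨ i = 4 ∨ i = 5 ∨ i = 9 ∨ i = 3 := by decide

lemma relation_code : ∀ r c, pw 5 r c =
    tbl.lsum (List.ofFn fun j : Fin 5 => tbl.mul (coefA j) (pw (j.castLE (by norm_num)) r c)) := by decide

lemma pw_lt : ∀ i : Fin 11, ∀ r c, pw i r c < 4 := by decide

lemma gram_table : ∀ t0 : Fin 2, ∀ t1 t2 : Fin 4, (t0 = 0 ∧ t1 = 0 ∧ t2 = 0) ∨
    (tbl.herm (gramVec ⟨16 * t0 + 4 * t1 + t2, by omega⟩) (gramVec ⟨16 * t0 + 4 * t1 + t2, by omega⟩) = t0 ∧
      tbl.herm (tbl.mv (pw 1) (gramVec ⟨16 * t0 + 4 * t1 + t2, by omega⟩))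
        (gramVec ⟨16 * t0 + 4 * t1 + t2, by omega⟩) = t1 ∧
      tbl.herm (tbl.mv (pw 2) (gramVec ⟨16 * t0 + 4 * t1 + t2, by omega⟩))
        (gramVec ⟨16 * t0 + 4 * t1 + t2, by omega⟩) = t2) := by decide

/-- An isometry satisfying the quintic is conjugate to the standard one. -/
lemma exists_conj {a : GL (Fin 5) F} (ha : a ∈ Cfsg.GU 5 F 2) {a₀ : GL (Fin 5) F}
    (ha₀ : a₀.val = R.mat (pw 1)) (ha₀U : a₀ ∈ Cfsg.GU 5 F 2)
    (hv : ∀ v : Fin 5 → F, v ≠ 0 → LinearIndependent F fun i : Fin 5 => a.val ^ (i : ℕ) *ᵥ v)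
    (hrel : a.val ^ 5 = ∑ i : Fin 5, R.φ (coefA i) • a.val ^ (i : ℕ)) :
    ∃ g : GL (Fin 5) F, g ∈ Cfsg.GU 5 F 2 ∧ g * a * g⁻¹ = a₀ := by
  have hF := R.hcard
  change Fintype.card F = 2 ^ 2 at hF
  set v : Fin 5 → F := Pi.single 0 1
  have hv0 : v ≠ 0 := fun h => one_ne_zero (α := F) (by simpa [v] using congrFun h 0)
  have hli := hv v hv0
  have hra : a.val ^ 5 *ᵥ v = ∑ i : Fin 5, R.φ (coefA i) • (a.val ^ (i : ℕ) *ᵥ v) := by
    rw [hrel, Matrix.sum_mulVec]; simp [Matrix.smul_mulVec]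
  have hrel₀ : a₀.val ^ 5 = ∑ i : Fin 5, R.φ (coefA i) • a₀.val ^ (i : ℕ) := by
    ext r c
    rw [mat_pw R ha₀, Matrix.sum_apply]
    show R.φ (pw 5 r c) = _
    rw [relation_code, R.φ_lsum, List.map_ofFn, List.sum_ofFn]
    refine Finset.sum_congr rfl fun j _ => ?_
    rw [mat_pw R ha₀, Matrix.smul_apply, smul_eq_mul, QTable.Rep.mat_apply, Function.comp_apply, R.φ_mul]
    congr 3
    fin_cases j <;> rfl
  obtain ⟨t0, ht0, e0⟩ := R.φ_surjective (Cfsg.hermForm 5 F 2 v v)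
  obtain ⟨t1, ht1, e1⟩ := R.φ_surjective (Cfsg.hermForm 5 F 2 (a.val *ᵥ v) v)
  obtain ⟨t2, ht2, e2⟩ := R.φ_surjective (Cfsg.hermForm 5 F 2 (a.val ^ 2 *ᵥ v) v)
  have ht0' : t0 < 2 := by
    have h : R.φ (tbl.conj t0) = R.φ t0 := by rw [R.φ_conj, e0]; exact herm_self_fixed hF v
    have h4 : ∀ t, t < 4 → tbl.conj t < 4 ∧ (tbl.conj t = t → t < 2) := by decide
    exact (h4 t0 ht0).2 (R.φ_injective (h4 t0 ht0).1 ht0 h)
  -- the inner products of later powers follow from the recurrence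
  have hT : ∀ {b : GL (Fin 5) F} (_ : b ∈ Cfsg.GU 5 F 2) {w : Fin 5 → F}
      (_ : b.val ^ 5 *ᵥ w = ∑ i : Fin 5, R.φ (coefA i) • (b.val ^ (i : ℕ) *ᵥ w)),
      let T := fun k => Cfsg.hermForm 5 F 2 (b.val ^ k *ᵥ w) w
      T 3 = R.φ (coefA 0) * T 2 ^ 2 + R.φ (coefA 1) * T 1 ^ 2 + R.φ (coefA 2) * T 0 + R.φ (coefA 3) * T 1 +
          R.φ (coefA 4) * T 2 ∧
      T 4 = R.φ (coefA 0) * T 1 ^ 2 + R.φ (coefA 1) * T 0 + R.φ (coefA 2) * T 1 + R.φ (coefA 3) * T 2 +
          R.φ (coefA 4) * T 3 := by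
    intro b hb w hw T
    have h3 := herm_recurrence hF hw (b.val ^ 2 *ᵥ w)
    have h4 := herm_recurrence hF hw (b.val ^ 1 *ᵥ w)
    have up : ∀ i j, j ≤ i → Cfsg.hermForm 5 F 2 (b.val ^ i *ᵥ w) (b.val ^ j *ᵥ w) = T (i - j) :=
      fun i j h => herm_pow_shift hF hb w i j h
    have down : ∀ i j, i ≤ j → Cfsg.hermForm 5 F 2 (b.val ^ i *ᵥ w) (b.val ^ j *ᵥ w) = T (j - i) ^ 2 :=
      fun i j h => by rw [herm_symm hF, up j i h]
    simp only [Fin.sum_univ_five, Fin.val_zero, Fin.val_one, Fin.val_two,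
      show ((3 : Fin 5) : ℕ) = 3 from rfl, show ((4 : Fin 5) : ℕ) = 4 from rfl] at h3 h4
    rw [up 5 2 (by norm_num), down 0 2 (by norm_num), down 1 2 (by norm_num), up 2 2 le_rfl,
      up 3 2 (by norm_num), up 4 2 (by norm_num)] at h3
    rw [up 5 1 (by norm_num), down 0 1 (by norm_num), up 1 1 le_rfl, up 2 1 (by norm_num),
      up 3 1 (by norm_num), up 4 1 (by norm_num)] at h4
    exact ⟨h3, h4⟩
  rcases gram_table ⟨t0, ht0'⟩ ⟨t1, ht1⟩ ⟨t2, ht2⟩ with hz | ⟨g0, g1, g2⟩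
  · -- all products vanish, against non-degeneracy
    exfalso
    simp only [Fin.ext_iff, Fin.val_zero] at hz
    obtain ⟨z0, z1, z2⟩ := hz
    rw [z0, R.φ_zero] at e0
    rw [z1, R.φ_zero] at e1
    rw [z2, R.φ_zero] at e2
    obtain ⟨h3, h4⟩ := hT ha hra
    simp only [pow_zero, Matrix.one_mulVec, pow_one, ← e0, ← e1, ← e2] at h3
    simp only [pow_zero, Matrix.one_mulVec, pow_one, ← e0, ← e1, ← e2, h3] at h4
    have hall : ∀ i : Fin 5, Cfsg.hermForm 5 F 2 (a.val ^ (i : ℕ) *ᵥ v) v = 0 := by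
      intro i
      fin_cases i
      · simpa using e0.symm
      · simpa using e1.symm
      · exact e2.symm
      · rw [h3]; simp
      · rw [h4]; simp
    refine hv0 (herm_nondeg' hF fun y => ?_)
    have hsp := hli.span_eq_top_of_card_eq_finrank (by simp)
    have hy : y ∈ Submodule.span F (Set.range fun i : Fin 5 => a.val ^ (i : ℕ) *ᵥ v) := hsp ▸ Submodule.mem_top
    induction hy using Submodule.span_induction with
    | mem x hx => obtain ⟨i, rfl⟩ := hx; exact hall i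
    | zero => exact herm_zero_left _
    | add x z _ _ hx hz => rw [herm_add_left, hx, hz, add_zero]
    | smul c x _ hx => rw [herm_smul_left, hx, mul_zero]
  set w : Fin 5 → F := R.vec (gramVec ⟨16 * t0 + 4 * t1 + t2, by simp [tbl] at ht1 ht2; omega⟩)
  have f0 : Cfsg.hermForm 5 F 2 (a₀.val ^ 0 *ᵥ w) w = R.φ t0 := by
    rw [pow_zero, Matrix.one_mulVec]; exact (R.φ_herm _ _).symm.trans (congrArg R.φ g0)
  have f1 : Cfsg.hermForm 5 F 2 (a₀.val ^ 1 *ᵥ w) w = R.φ t1 := by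
    rw [pow_one, ha₀, ← R.vec_mv]; exact (R.φ_herm _ _).symm.trans (congrArg R.φ g1)
  have f2 : Cfsg.hermForm 5 F 2 (a₀.val ^ 2 *ᵥ w) w = R.φ t2 := by
    rw [mat_pw R ha₀, ← R.vec_mv]; exact (R.φ_herm _ _).symm.trans (congrArg R.φ g2)
  have hrb : a₀.val ^ 5 *ᵥ w = ∑ i : Fin 5, R.φ (coefA i) • (a₀.val ^ (i : ℕ) *ᵥ w) := by
    rw [hrel₀, Matrix.sum_mulVec]; simp [Matrix.smul_mulVec]
  obtain ⟨p3, p4⟩ := hT ha hra
  obtain ⟨r3, r4⟩ := hT ha₀U hrb
  have k0 : Cfsg.hermForm 5 F 2 (a.val ^ 0 *ᵥ v) v = R.φ t0 := by rw [pow_zero, Matrix.one_mulVec, e0]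
  have k1 : Cfsg.hermForm 5 F 2 (a.val ^ 1 *ᵥ v) v = R.φ t1 := by rw [pow_one, e1]
  simp only [k0, k1, ← e2] at p3
  simp only [k0, k1, ← e2, p3] at p4
  simp only [f0, f1, f2] at r3
  simp only [f0, f1, f2, r3] at r4
  refine exists_conj_of_gram hF ha ha₀U hli hra hrb fun i => ?_
  fin_cases i
  · exact k0.trans f0.symm
  · exact k1.trans f1.symm
  · exact e2.symm.trans f2.symm
  · exact p3.trans r3.symm
  · exact p4.trans r4.symm

lemma b_code : tbl.IsUnitaryCode bm ∧ tbl.det bm = 1 ∧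
    ∀ r c, tbl.mm bm (pw 1) r c = tbl.mm (pw 4) bm r c := by decide

lemma w_code : tbl.IsUnitaryCode wm ∧ tbl.det wm = 1 ∧
    (∀ r c, tbl.mm wm (pw 1) r c = tbl.mm cm wm r c) ∧ (∃ r c, tbl.mm cm (pw 1) r c ≠ tbl.mm (pw 1) cm r c) ∧
    ∀ r c, tbl.mm cm (pw 1) r c < 4 ∧ tbl.mm (pw 1) cm r c < 4 := by decide

lemma a_code : tbl.IsUnitaryCode (pw 1) ∧ tbl.det (pw 1) = 1 := by decide

lemma t_code : tbl.IsUnitaryCode tm ∧ tbl.det tm = 1 := by decide

lemma a_action : ∀ k i, tbl.mv (pw 1) (pts k) i = tbl.mul (aScal k) (pts (aPerm k) i) := by decide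

lemma b_action : ∀ k i, tbl.mv bm (pts k) i = tbl.mul (bScal k) (pts (bPerm k) i) := by decide

lemma w_action : ∀ k i, tbl.mv wm (pts k) i = tbl.mul (wScal k) (pts (wPerm k) i) := by decide

lemma t_action : (∀ x, x ∈ List.ofFn (tbl.mv tm (pts tIdx)) → x < 2 ^ 2) ∧
    ∀ l, ∀ c < 2 ^ 2, ∃ i, tbl.mv tm (pts tIdx) i ≠ tbl.mul c (pts l i) ∧ tbl.mul c (pts l i) < 2 ^ 2 := by decide

/-- The geometric product identity for the eleventh cyclotomic polynomial over four elements. -/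
lemma cyclotomic_split :
    (X ^ 5 - ∑ i : Fin 5, C (R.φ (coefA i)) * X ^ (i : ℕ)) * (X ^ 5 - ∑ i : Fin 5, C (R.φ (coefB i)) * X ^ (i : ℕ)) =
      ∑ i ∈ Finset.range 11, (X : F[X]) ^ i := by
  have hchar : CharP F 2 := R.hchar
  have h2 : (2 : F[X]) = 0 := CharP.ofNat_eq_zero _ 2
  have e2 : R.φ 2 = R.ω := by simp [QTable.Rep.φ, tbl]
  have e3 : R.φ 3 = 1 + R.ω := by simp [QTable.Rep.φ, tbl]
  have hω : (C R.ω) ^ 2 = C R.ω + 1 := by
    rw [← C_pow, R.hω]; simp [tbl]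
  simp [Fin.sum_univ_five, Finset.sum_range_succ, coefA, coefB, e2, e3]
  grind

/-- Squaring exchanges the two quintics. -/
lemma conjugate_relation :
    (X ^ 2) ^ 5 - ∑ i : Fin 5, C (R.φ (coefA i)) * (X ^ 2) ^ (i : ℕ) =
      (X ^ 5 - ∑ i : Fin 5, C (R.φ (coefB i)) * X ^ (i : ℕ)) ^ 2 := by
  have hchar : CharP F 2 := R.hchar
  have h2 : (2 : F[X]) = 0 := CharP.ofNat_eq_zero _ 2
  have e2 : R.φ 2 = R.ω := by simp [QTable.Rep.φ, tbl]
  have e3 : R.φ 3 = 1 + R.ω := by simp [QTable.Rep.φ, tbl]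
  have hω : (C R.ω) ^ 2 = C R.ω + 1 := by rw [← C_pow, R.hω]; simp [tbl]
  simp [Fin.sum_univ_five, coefA, coefB, e2, e3]
  grind

omit [Fintype F] in
lemma conj_rel {u x x' : GL (Fin 5) F} (h : u * x * u⁻¹ = x') {c : Fin 5 → F}
    (hrel : x.val ^ 5 = ∑ i : Fin 5, c i • x.val ^ (i : ℕ)) :
    x'.val ^ 5 = ∑ i : Fin 5, c i • x'.val ^ (i : ℕ) := by
  have hk : ∀ k : ℕ, x'.val ^ k = u.val * x.val ^ k * (u⁻¹ : GL (Fin 5) F).val := fun k => by
    rw [← Units.val_pow_eq_pow_val, ← Units.val_pow_eq_pow_val, ← h, conj_pow, Units.val_mul, Units.val_mul]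
  rw [hk, hrel, Finset.mul_sum, Finset.sum_mul]
  simp [hk]

/-- Over four elements the normaliser of a degree five field is never a maximal subgroup. -/
theorem field_not_maximal (hF : Fintype.card F = 2 ^ 2) {H : Subgroup (GL (Fin 5) F)}
    (hH : IsMaximalIn (Cfsg.GU 5 F 2 ⊓ specialLinear (Fin 5) F) H)
    {K : Subalgebra F (Matrix (Fin 5) (Fin 5) F)} (hK : IsFieldSubalgebra 5 K)
    (hadj : IsAdjointClosedFor (Cfsg.hermForm 5 F 2) K)
    (hHK : H = subalgebraNormalizer K ⊓ (Cfsg.GU 5 F 2 ⊓ specialLinear (Fin 5) F)) : False := by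
  obtain ⟨R⟩ := exists_rep hF
  obtain ⟨a, haU, haK, har, ha1, hnorm⟩ :=
    exists_cycle hF (by norm_num) hK hadj (r := 11) (by norm_num) (by norm_num)
  have hord : ∀ j, 0 < j → j < 5 → 2 ^ (2 * j) % 11 ≠ 1 := by intro j h1 h2; interval_cases j <;> norm_num
  have props := fun (x : GL (Fin 5) F) hxK hxr hx1 =>
    cycle_props hF (by norm_num) hK (r := 11) (by norm_num) (by norm_num) hord (a := x) hxK hxr hx1
  obtain ⟨a₀, ha₀, ha₀M⟩ := R.exists_SU_of_code a_code.1 a_code.2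
  -- choose the generator satisfying the quintic
  obtain ⟨b, hbU, hbK, hbr, hbli, hbroot, hrel⟩ : ∃ b : GL (Fin 5) F, b ∈ Cfsg.GU 5 F 2 ∧ b.val ∈ K ∧ b ^ 11 = 1 ∧
      (∀ v : Fin 5 → F, v ≠ 0 → LinearIndependent F fun i : Fin 5 => b.val ^ (i : ℕ) *ᵥ v) ∧
      (∀ x ∈ K, x ^ 11 = 1 → ∃ i : ℕ, x = b.val ^ i) ∧
      b.val ^ 5 = ∑ i : Fin 5, R.φ (coefA i) • b.val ^ (i : ℕ) := by
    obtain ⟨hsum, hli, -, hroot⟩ := props a haK har ha1
    have hprod := congrArg (aeval a.val) (cyclotomic_split R)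
    simp only [map_mul, map_sub, map_sum, map_pow, aeval_X, aeval_C, hsum, ← Algebra.smul_def] at hprod
    by_cases h1 : a.val ^ 5 - ∑ i : Fin 5, R.φ (coefA i) • a.val ^ (i : ℕ) = 0
    · exact ⟨a, haU, haK, har, hli, fun x hx hx' => (hroot x hx hx').imp fun i h => h.2, sub_eq_zero.1 h1⟩
    obtain ⟨y, -, hy⟩ := hK.inv _ (sub_mem (pow_mem haK 5) (sum_mem fun i _ => K.smul_mem (pow_mem haK _) _)) h1
    have h2 : a.val ^ 5 - ∑ i : Fin 5, R.φ (coefB i) • a.val ^ (i : ℕ) = 0 := by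
      have h := congrArg (y * ·) hprod
      rwa [← mul_assoc, mul_eq_one_comm.1 hy, one_mul, mul_zero] at h
    have ha2 : a ^ 2 ≠ 1 := fun h => ha1 (by
      calc a = a ^ 11 * ((a ^ 2) ^ 5)⁻¹ := by rw [← pow_mul, ← pow_sub _ (by norm_num)]; simp
        _ = 1 := by rw [har, h]; simp)
    have hK2 : (a ^ 2).val ∈ K := by rw [Units.val_pow_eq_pow_val]; exact pow_mem haK 2
    have hr2 : (a ^ 2) ^ 11 = 1 := by rw [← pow_mul, mul_comm, pow_mul, har, one_pow]
    obtain ⟨-, hli', -, hroot'⟩ := props (a ^ 2) hK2 hr2 ha2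
    refine ⟨a ^ 2, pow_mem haU 2, hK2, hr2, hli', fun x hx hx' => (hroot' x hx hx').imp fun i h => h.2, ?_⟩
    have hid := congrArg (aeval a.val) (conjugate_relation R)
    simp only [map_mul, map_sub, map_sum, map_pow, aeval_X, aeval_C, ← Algebra.smul_def] at hid
    rw [h2, zero_pow two_ne_zero] at hid
    rw [Units.val_pow_eq_pow_val]
    exact sub_eq_zero.1 hid
  obtain ⟨g, hgU, hg⟩ := exists_conj R hbU ha₀ ha₀M.1 hbli hrel
  obtain ⟨bb, hbb, hbbM⟩ := R.exists_SU_of_code b_code.1 b_code.2.1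
  obtain ⟨w, hw, hwM⟩ := R.exists_SU_of_code w_code.1 w_code.2.1
  obtain ⟨t, ht, htM⟩ := R.exists_SU_of_code t_code.1 t_code.2
  set M := lineStab fun k => R.vec (pts k)
  have haM : a₀ ∈ M := R.mem_lineStab_of_code ha₀ _ _ a_action
  have hbM : bb ∈ M := R.mem_lineStab_of_code hbb _ _ b_action
  -- image of the normaliser
  have hK₀ : ∀ x ∈ H, ∀ k ∈ K, x.val * k * (x⁻¹ : GL (Fin 5) F).val ∈ K := fun x hx k hk => by
    rw [hHK] at hx; exact (hx.1 k).1 hk
  have hnormx : ∀ x ∈ H, ∃ i : ℕ, (g * x * g⁻¹) * a₀ * (g * x * g⁻¹)⁻¹ = a₀ ^ i := by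
    intro x hx
    have har' : b.val ^ 11 = 1 := by rw [← Units.val_pow_eq_pow_val, hbr, Units.val_one]
    obtain ⟨i, hi⟩ := hbroot _ (hK₀ x hx _ hbK) (by
      rw [← Units.val_mul, ← Units.val_mul, ← Units.val_pow_eq_pow_val, conj_pow, Units.val_mul, Units.val_mul,
        Units.val_pow_eq_pow_val, har', Matrix.mul_one, ← Units.val_mul, mul_inv_cancel, Units.val_one])
    refine ⟨i, ?_⟩
    have hi' : x * b * x⁻¹ = b ^ i := Units.ext (by simpa using hi)
    rw [← hg]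
    calc g * x * g⁻¹ * (g * b * g⁻¹) * (g * x * g⁻¹)⁻¹ = g * (x * b * x⁻¹) * g⁻¹ := by group
      _ = g * b ^ i * g⁻¹ := by rw [hi']
      _ = (g * b * g⁻¹) ^ i := (conj_pow).symm
  have hgK : ∀ x, g * x * g⁻¹ ∈ Cfsg.GU 5 F 2 ⊓ specialLinear (Fin 5) F ↔
      x ∈ Cfsg.GU 5 F 2 ⊓ specialLinear (Fin 5) F := by
    intro x
    have hdet : g * x * g⁻¹ ∈ specialLinear (Fin 5) F ↔ x ∈ specialLinear (Fin 5) F := by
      simp [specialLinear, MonoidHom.mem_ker]
    simp only [Subgroup.mem_inf, hdet]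
    exact and_congr_left' ⟨fun h => by simpa [mul_assoc] using mul_mem (mul_mem (inv_mem hgU) h) hgU,
      fun h => mul_mem (mul_mem hgU h) (inv_mem hgU)⟩
  refine not_maximal_of_overgroup hH hgK (M := M) (fun x hx => ?_) hwM (R.mem_lineStab_of_code hw _ _ w_action) ?_
    htM (R.not_mem_lineStab_of_code ht tIdx t_action.1 t_action.2)
  · set y := g * x * g⁻¹ with hy
    obtain ⟨i, hi⟩ := hnormx x hx
    have hyM : y ∈ Cfsg.GU 5 F 2 ⊓ specialLinear (Fin 5) F := (hgK x).2 (hH.1.le hx)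
    -- the exponent is a power of four
    have hexp : (i : Fin 11) = 1 ∨ (i : Fin 11) = 4 ∨ (i : Fin 11) = 5 ∨ (i : Fin 11) = 9 ∨ (i : Fin 11) = 3 := by
      refine relation_exponent _ fun r => ?_
      have hb5 := conj_rel hi (conj_rel hg hrel)
      have hpow : ∀ k : ℕ, (a₀ ^ i).val ^ k = R.mat (pw ((i * k : ℕ) : Fin 11)) := fun k => by
        rw [Units.val_pow_eq_pow_val, ← pow_mul, mat_pw R ha₀]
      have e := congrFun (congrFun hb5 r) 0
      simp only [hpow, Matrix.sum_apply, Matrix.smul_apply, smul_eq_mul, QTable.Rep.mat_apply, ← R.φ_mul] at e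
      refine R.φ_injective (pw_lt _ _ _) ?_ ?_
      · have hall : ∀ k : Fin 11, ∀ r, tbl.lsum (List.ofFn fun j : Fin 5 =>
            tbl.mul (coefA j) (pw ((j.castLE (by norm_num) : Fin 11) * k) r 0)) < 2 ^ 2 := by decide
        exact hall _ _
      rw [R.φ_lsum, List.map_ofFn, List.sum_ofFn]
      have hidx : ∀ (k : Fin 11) (j : Fin 5), (k * ((j : ℕ) : Fin 11)) = (j.castLE (by norm_num) : Fin 11) * k := by
        decide
      have hcast : ∀ a b : ℕ, ((a * b : ℕ) : Fin 11) = (a : Fin 11) * b := fun a b =>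
        Fin.ext (by simp [Fin.val_mul, Nat.mul_mod])
      simp only [hcast, hidx] at e
      simpa [mul_comm (5 : Fin 11)] using e
    have hstep : bb * a₀ * bb⁻¹ = a₀ ^ 4 := by
      rw [mul_inv_eq_iff_eq_mul]
      refine Units.ext ?_
      rw [Units.val_mul, Units.val_mul, Units.val_pow_eq_pow_val, hbb, mat_pw R ha₀, ha₀, ← R.mat_mm, ← R.mat_mm]
      ext r c
      exact congrArg R.φ (b_code.2.2 r c)
    have hpows : ∀ m : ℕ, bb ^ m * a₀ * (bb ^ m)⁻¹ = a₀ ^ (4 ^ m) := by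
      intro m
      induction m with
      | zero => simp
      | succ m ih =>
        calc bb ^ (m + 1) * a₀ * (bb ^ (m + 1))⁻¹ = bb * (bb ^ m * a₀ * (bb ^ m)⁻¹) * bb⁻¹ := by
              rw [pow_succ']; group
          _ = bb * a₀ ^ (4 ^ m) * bb⁻¹ := by rw [ih]
          _ = a₀ ^ (4 ^ (m + 1)) := by rw [← conj_pow, hstep, ← pow_mul, pow_succ']
    obtain ⟨m, hm⟩ : ∃ m : ℕ, ((4 ^ m : ℕ) : Fin 11) = (i : Fin 11) := by
      rcases hexp with h | h | h | h | h <;> rw [h]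
      exacts [⟨0, rfl⟩, ⟨1, rfl⟩, ⟨2, rfl⟩, ⟨3, rfl⟩, ⟨4, rfl⟩]
    have hm' : a₀ ^ (4 ^ m) = a₀ ^ i := Units.ext (by
      rw [Units.val_pow_eq_pow_val, Units.val_pow_eq_pow_val, mat_pw R ha₀, mat_pw R ha₀, hm])
    -- the remaining factor centralises
    set z := (bb ^ m)⁻¹ * y
    have hzc : z * a₀ = a₀ * z := by
      have e : y * a₀ * y⁻¹ = bb ^ m * a₀ * (bb ^ m)⁻¹ := by rw [hpows, hm', hi]
      calc z * a₀ = (bb ^ m)⁻¹ * (y * a₀ * y⁻¹) * y := by simp only [z]; group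
        _ = (bb ^ m)⁻¹ * (bb ^ m * a₀ * (bb ^ m)⁻¹) * y := by rw [e]
        _ = a₀ * z := by simp only [z]; group
    have hzM : z ∈ Cfsg.GU 5 F 2 ⊓ specialLinear (Fin 5) F := mul_mem (inv_mem (pow_mem hbbM m)) hyM
    set z' := g⁻¹ * z * g
    have hz'M : z' ∈ Cfsg.GU 5 F 2 ⊓ specialLinear (Fin 5) F := (hgK _).1 (by simpa [z', mul_assoc] using hzM)
    have hz'c : Commute z' b := by
      have e : b = g⁻¹ * a₀ * g := by rw [← hg]; group
      show g⁻¹ * z * g * b = b * (g⁻¹ * z * g)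
      rw [e]
      calc g⁻¹ * z * g * (g⁻¹ * a₀ * g) = g⁻¹ * (z * a₀) * g := by group
        _ = g⁻¹ * (a₀ * z) * g := by rw [hzc]
        _ = g⁻¹ * a₀ * g * (g⁻¹ * z * g) := by group
    -- it lies in the field
    have hz'K : z'.val ∈ K := by
      set v : Fin 5 → F := Pi.single 0 1
      have hv0 : v ≠ 0 := fun h => one_ne_zero (α := F) (by simpa [v] using congrFun h 0)
      have hsp := (hbli v hv0).span_eq_top_of_card_eq_finrank (by simp)
      obtain ⟨c, hc⟩ := (Submodule.mem_span_range_iff_exists_fun F).1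
        (hsp ▸ Submodule.mem_top : z'.val *ᵥ v ∈ Submodule.span F (Set.range fun i : Fin 5 => b.val ^ (i : ℕ) *ᵥ v))
      set k := ∑ i, c i • b.val ^ (i : ℕ) with hk
      have hkv : k *ᵥ v = z'.val *ᵥ v := by rw [hk, Matrix.sum_mulVec, ← hc]; simp [Matrix.smul_mulVec]
      have hkmem : k ∈ K := sum_mem fun i _ => K.smul_mem (pow_mem hbK _) _
      suffices z'.val = k by rwa [this]
      refine Matrix.ext_of_mulVec_single fun j => ?_
      obtain ⟨d, hd⟩ := (Submodule.mem_span_range_iff_exists_fun F).1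
        (hsp ▸ Submodule.mem_top : Pi.single j (1 : F) ∈ Submodule.span F (Set.range fun i : Fin 5 => b.val ^ (i : ℕ) *ᵥ v))
      rw [← hd, Matrix.mulVec_sum, Matrix.mulVec_sum]
      refine Finset.sum_congr rfl fun i _ => ?_
      rw [Matrix.mulVec_smul, Matrix.mulVec_smul, Matrix.mulVec_mulVec, Matrix.mulVec_mulVec,
        hK.comm k hkmem _ (pow_mem hbK _), ← Units.val_pow_eq_pow_val, ← Units.val_mul, (hz'c.pow_right _).eq,
        Units.val_mul, ← Matrix.mulVec_mulVec, ← Matrix.mulVec_mulVec, hkv]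
    have h33 : z' ^ 33 = 1 := Units.ext (by
      rw [Units.val_pow_eq_pow_val]
      exact hnorm _ hz'K fun u v => mem_GU.1 hz'M.1 u v)
    -- its eleventh power is a scalar of determinant one
    set u : Matrix (Fin 5) (Fin 5) F := z'.val ^ 11 with hu
    have huK : u ∈ K := pow_mem hz'K 11
    have hu3 : u ^ 3 = 1 := by
      rw [hu, ← pow_mul, ← Units.val_pow_eq_pow_val, h33, Units.val_one]
    have hscal : ∃ c : F, c ^ 3 = 1 ∧ u = c • 1 := by
      have hchar : CharP F 2 := R.hchar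
      have h2 : (2 : F[X]) = 0 := CharP.ofNat_eq_zero _ 2
      have hω : (C R.ω) ^ 2 = C R.ω + 1 := by rw [← C_pow, R.hω]; simp [tbl]
      have hid : (X - C (1 : F)) * (X - C R.ω) * (X - C (R.ω + 1)) = (X : F[X]) ^ 3 - 1 := by
        simp only [C_add, C_1]; grind
      have h := congrArg (aeval u) hid
      simp only [map_mul, map_sub, map_pow, map_one, aeval_X, aeval_C, hu3, sub_self, Algebra.algebraMap_eq_smul_one] at h
      have hroot : ∀ c : F, u - c • 1 = 0 ∨ ∃ y, y * (u - c • 1) = 1 := fun c => by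
        by_cases h0 : u - c • 1 = 0
        · exact Or.inl h0
        · obtain ⟨y, -, hy⟩ := hK.inv _ (sub_mem huK (K.smul_mem K.one_mem c)) h0
          exact Or.inr ⟨y, mul_eq_one_comm.1 hy⟩
      have hr1 : (R.ω : F) ^ 3 = 1 := by
        have h' := R.hω
        simp only [tbl, Nat.cast_one] at h'
        have h2' : (2 : F) = 0 := CharP.ofNat_eq_zero _ 2
        grind
      have hr2 : (R.ω + 1 : F) ^ 3 = 1 := by
        have h' := R.hω
        simp only [tbl, Nat.cast_one] at h'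
        have h2' : (2 : F) = 0 := CharP.ofNat_eq_zero _ 2
        grind
      rcases hroot 1 with h1 | ⟨y, hy⟩
      · exact ⟨1, one_pow 3, sub_eq_zero.1 h1⟩
      rw [one_smul] at hy
      have h1 := congrArg (y * ·) h
      rw [Matrix.mul_assoc, ← Matrix.mul_assoc y, hy, Matrix.one_mul, Matrix.mul_zero] at h1
      rcases hroot R.ω with h2 | ⟨y', hy'⟩
      · exact ⟨_, hr1, sub_eq_zero.1 h2⟩
      have h3 := congrArg (y' * ·) h1
      rw [← Matrix.mul_assoc, hy', Matrix.one_mul, Matrix.mul_zero] at h3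
      exact ⟨_, hr2, sub_eq_zero.1 h3⟩
    obtain ⟨c, hc3, huc⟩ := hscal
    have hdet : u.det = 1 := by
      rw [hu, Matrix.det_pow, show z'.val.det = 1 from congrArg Units.val (MonoidHom.mem_ker.1 hz'M.2), one_pow]
    have hc1 : c = 1 := by
      rw [huc, Matrix.det_smul, Matrix.det_one, Fintype.card_fin, mul_one] at hdet
      calc c = c ^ 5 * c ^ 5 * (c ^ 3)⁻¹ * (c ^ 3)⁻¹ * (c ^ 3)⁻¹ := by
            rw [hc3]; simp [← pow_add]
            calc c = c * (c ^ 3) ^ 3 := by rw [hc3, one_pow, mul_one]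
              _ = c ^ 10 := by ring
        _ = 1 := by rw [hdet, hc3]; simp
    obtain ⟨j, hj⟩ := hbroot _ hz'K (by rw [← hu, huc, hc1, one_smul])
    have hzj : z = a₀ ^ j := by
      have e : z' = b ^ j := Units.ext (by simpa using hj)
      calc z = g * z' * g⁻¹ := by simp only [z']; group
        _ = a₀ ^ j := by rw [e, ← conj_pow, hg]
    have : y = bb ^ m * a₀ ^ j := by rw [← hzj]; simp only [z]; group
    rw [this]
    exact mul_mem (pow_mem hbM m) (pow_mem haM j)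
  · intro hwH
    obtain ⟨i, hi⟩ := hnormx _ hwH
    rw [show g * (g⁻¹ * w * g) * g⁻¹ = w by group] at hi
    have hwc : (w * a₀ * w⁻¹).val = R.mat cm := by
      have e : w.val * a₀.val = R.mat cm * w.val := by
        rw [hw, ha₀, ← R.mat_mm, ← R.mat_mm]
        ext r c
        exact congrArg R.φ (w_code.2.2.1 r c)
      rw [Units.val_mul, Units.val_mul, e, Matrix.mul_assoc, ← Units.val_mul, mul_inv_cancel, Units.val_one,
        Matrix.mul_one]
    obtain ⟨r, c, hrc⟩ := w_code.2.2.2.1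
    refine hrc (R.φ_injective (w_code.2.2.2.2 r c).1 (w_code.2.2.2.2 r c).2 ?_)
    have e : R.mat (tbl.mm cm (pw 1)) = R.mat (tbl.mm (pw 1) cm) := by
      rw [R.mat_mm, R.mat_mm, ← hwc, hi, ← ha₀, ← Units.val_mul, ← Units.val_mul, ← pow_succ, ← pow_succ']
    exact congrFun (congrFun e r) c

end CfsgLib.AschPrime.FiveTwo
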