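import Cfsg.Agent.AschPrime.OrthSubfield
import Cfsg.Agent.OrthGeo.QuadOdd
import Cfsg.Agent.Aschbacher.Clifford
import Cfsg.Agent.Aschbacher.FormsField

/-! Each case of the structure theorem in odd prime dimension, read inside Omega, odd characteristic. -/

set_option autoImplicit false
set_option linter.unusedSectionVars false

namespace CfsgLib.AschPrime

open Cfsg.Geo Module OrthGeo
open scoped Matrix MatrixGroups

variable {ι : Type} [Fintype ι] [DecidableEq ι] {F : Type*} [Field F] [Fintype F] {Q : (ι → F) → F}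

omit [Fintype ι] [DecidableEq ι] [Fintype F] in
lemma orth_eq_inf {G : Type*} [Group G] {K H M : Subgroup G} (hH : IsMaximalIn K H)
    (hM : H ≤ M) (hne : ¬ K ≤ M) : H = M ⊓ K := by
  rcases hH.2 (M ⊓ K) (le_inf hM hH.1.le) inf_le_right with h | h
  · exact h.symm
  · exact absurd (inf_eq_right.1 h) hne

variable (hQ : IsNondegenerateQuadraticForm Q) (h2 : (2 : F) ≠ 0)
include hQ h2

/-- Reducible case. -/
theorem orth_reducible (hn : Odd (Fintype.card ι)) (hn7 : 7 ≤ Fintype.card ι) {H : Subgroup (GL ι F)}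
    (hH : IsMaximalIn (omegaGL Q) H) {W : Submodule F (ι → F)}
    (h0 : W ≠ ⊥) (htop : W ≠ ⊤) (hinv : H ≤ subspaceStabilizer W) :
    (∃ W : Submodule F (ι → F), W ≠ ⊥ ∧ IsTotallySingularQuad Q W ∧
      H = subspaceStabilizer W ⊓ omegaGL Q) ∨
    (∃ W : Submodule F (ι → F), W ≠ ⊥ ∧ Even (finrank F W) ∧ IsNondegenerateOn (QuadraticMap.polar Q) W ∧
      ¬ (Fintype.card F = 3 ∧ finrank F W = 2 ∧ IsPlusTypeOn Q W) ∧
      H = subspaceStabilizer W ⊓ omegaGL Q) := by
  have hHI : H ≤ Cfsg.isometryGroup F Q := hH.1.le.trans omegaGL_le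
  by_cases hrad : W ⊓ perp hQ W = ⊥
  · right
    have hnd := orth_nondeg_of_inf_eq_bot hQ hrad
    have hperp : H ≤ subspaceStabilizer (perp hQ W) := fun g hg => stabilizer_perp hQ (hHI hg) (hinv hg)
    have hdim := finrank_perp_add hQ W
    obtain ⟨V, hV0, hVtop, hVev, hVnd, hVinv⟩ : ∃ V : Submodule F (ι → F), V ≠ ⊥ ∧ V ≠ ⊤ ∧ Even (finrank F V) ∧
        IsNondegenerateOn (QuadraticMap.polar Q) V ∧ H ≤ subspaceStabilizer V := by
      rcases Nat.even_or_odd (finrank F W) with he | ho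
      · exact ⟨W, h0, htop, he, hnd, hinv⟩
      · refine ⟨perp hQ W, fun h => htop ?_, fun h => h0 ?_, ?_, orth_perp_nondeg hQ hnd, hperp⟩
        · rw [← orth_sup_eq_top hQ hnd, h, sup_bot_eq]
        · rw [← hrad, h, inf_top_eq]
        · obtain ⟨a, ha⟩ := ho
          obtain ⟨c, hc⟩ := hn
          exact ⟨c - a, by omega⟩
    refine ⟨V, hV0, hVev, hVnd, ?_, orth_eq_inf hH hVinv
      (omega_not_le_subspaceStabilizer hQ (by omega) hV0 hVtop (Or.inr hVnd))⟩
    rintro ⟨h3, hd2, hplus⟩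
    obtain ⟨K, hK1, hK2⟩ := plus_plane_not_maximal hQ hn7 h3.le V hd2 hVnd hplus
    have hle : H ≤ subspaceStabilizer V ⊓ omegaGL Q := le_inf hVinv hH.1.le
    rcases hH.2 K (hle.trans hK1.le) hK2.le with h | h
    · exact absurd (h ▸ hle) (not_le_of_gt hK1)
    · exact hK2.ne h
  · left
    have hperp : H ≤ subspaceStabilizer (perp hQ W) := fun g hg => stabilizer_perp hQ (hHI hg) (hinv hg)
    have hts : IsTotallySingularQuad Q (W ⊓ perp hQ W) := by
      rintro v ⟨hv, hv'⟩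
      have h := (mem_perp hQ).1 hv' v hv
      rw [b_self hQ] at h
      exact (mul_eq_zero.1 h).resolve_left h2
    have hinv' : H ≤ subspaceStabilizer (W ⊓ perp hQ W) := fun g hg v => and_congr (hinv hg v) (hperp hg v)
    exact ⟨_, hrad, hts, orth_eq_inf hH hinv' (omega_not_le_subspaceStabilizer hQ (by omega) hrad
      (fun h => htop (top_le_iff.1 (h ▸ inf_le_left))) (Or.inl hts))⟩

/-- The extension-field case does not occur. -/
theorem orth_field_false (hn : Odd (Fintype.card ι)) (hn2 : 2 ≤ Fintype.card ι) {A : Subgroup (GL ι F)}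
    (hA : A ≤ Cfsg.isometryGroup F Q)
    (hK : IsFieldSubalgebra (Fintype.card ι) (Aschbacher.commutant A))
    (hAK : ∀ x ∈ A, x.val ∈ Aschbacher.commutant A) : False := by
  have : Nonempty ι := Fintype.card_pos_iff.1 (by omega)
  have hf : Aschbacher.Forms.RForm (RingHom.id F) 1 (QuadraticMap.polar Q) :=
    Aschbacher.Forms.rform_of_symmetric ⟨hQ.polar_bilinear, fun u v => QuadraticMap.polar_comm Q u v, hQ.nondegenerate⟩
  have hclosed : Aschbacher.Forms.Closed (QuadraticMap.polar Q) (Aschbacher.commutant A) := by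
    intro X hX
    set M := gramMatrix (QuadraticMap.polar Q)
    have hMu : IsUnit M.det := isUnit_iff_ne_zero.2 (Aschbacher.det_gramMatrix_ne_zero hf.sesq hQ.nondegenerate)
    have hadj : ∀ u v, QuadraticMap.polar Q (X *ᵥ u) v = QuadraticMap.polar Q u ((M⁻¹ * Xᵀ * M) *ᵥ v) := by
      intro u v
      rw [hf.sesq.eq_dot, hf.sesq.eq_dot]
      show (X *ᵥ u) ⬝ᵥ (M *ᵥ v) = u ⬝ᵥ (M *ᵥ ((M⁻¹ * Xᵀ * M) *ᵥ v))
      rw [Matrix.mulVec_mulVec, ← Matrix.mul_assoc, ← Matrix.mul_assoc, Matrix.mul_nonsing_inv M hMu, Matrix.one_mul,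
        ← Matrix.mulVec_mulVec, ← Matrix.vecMul_transpose, ← Matrix.dotProduct_mulVec]
    refine ⟨M⁻¹ * Xᵀ * M, Aschbacher.mem_commutant.2 fun a ha => ?_, hadj⟩
    refine Matrix.ext_of_mulVec_single fun i => hf.ext_right fun y => ?_
    obtain ⟨w, rfl⟩ : ∃ w, a.val *ᵥ w = y := ⟨_, mulVec_inv_cancel a y⟩
    set x : ι → F := Pi.single i 1
    calc QuadraticMap.polar Q (a.val *ᵥ w) ((a.val * (M⁻¹ * Xᵀ * M)) *ᵥ x)
        = QuadraticMap.polar Q w ((M⁻¹ * Xᵀ * M) *ᵥ x) := by
          rw [← Matrix.mulVec_mulVec]; exact isometry_b hQ (hA ha) _ _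
      _ = QuadraticMap.polar Q (X *ᵥ w) x := (hadj _ _).symm
      _ = QuadraticMap.polar Q (a.val *ᵥ (X *ᵥ w)) (a.val *ᵥ x) := (isometry_b hQ (hA ha) _ _).symm
      _ = QuadraticMap.polar Q (X *ᵥ (a.val *ᵥ w)) (a.val *ᵥ x) := by
          rw [Matrix.mulVec_mulVec, Aschbacher.mem_commutant.1 hX a ha, ← Matrix.mulVec_mulVec]
      _ = QuadraticMap.polar Q (a.val *ᵥ w) (((M⁻¹ * Xᵀ * M) * a.val) *ᵥ x) := by
          rw [hadj, ← Matrix.mulVec_mulVec (M := M⁻¹ * Xᵀ * M)]
  have hself := Aschbacher.Forms.selfAdjoint_of_odd hf hn hK hclosed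
  -- every member is `1` or `-1`
  have hsc : ∀ x ∈ A, ∀ M : Matrix ι ι F, x.val * M = M * x.val := by
    intro x hx M
    have hsq : x.val * x.val = 1 := by
      refine Matrix.ext_of_mulVec_single fun i => hf.ext_right fun y => ?_
      rw [← Matrix.mulVec_mulVec, ← hself _ (hAK x hx), Matrix.one_mulVec]
      exact isometry_b hQ (hA hx) _ _
    have hprod : (x.val - 1) * (x.val + 1) = 0 := by rw [sub_mul, mul_add, mul_one, one_mul, hsq]; abel
    by_cases h1 : x.val - 1 = 0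
    · rw [sub_eq_zero.1 h1, Matrix.one_mul, Matrix.mul_one]
    · obtain ⟨y, -, hy⟩ := hK.inv _ (sub_mem (hAK x hx) (one_mem _)) h1
      have h : x.val + 1 = 0 := by
        have e : y * (x.val - 1) * (x.val + 1) = 0 := by rw [Matrix.mul_assoc, hprod, Matrix.mul_zero]
        rwa [mul_eq_one_comm.1 hy, Matrix.one_mul] at e
      rw [eq_neg_of_add_eq_zero_left h]; simp
  have htop : Aschbacher.commutant A = ⊤ := eq_top_iff.2 fun M _ => Aschbacher.mem_commutant.2 fun x hx => hsc x hx M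
  have h := hK.finrank_eq
  rw [htop, (Subalgebra.topEquiv (R := F) (A := Matrix ι ι F)).toLinearEquiv.finrank_eq,
    Module.finrank_matrix, Module.finrank_self, mul_one] at h
  nlinarith

/-- The class-two case does not occur. -/
theorem orth_heisenberg_false (hn : Odd (Fintype.card ι)) {R : Subgroup (GL ι F)}
    (hR : R ≤ Cfsg.isometryGroup F Q) {r : ℕ} (hr : r.Prime) (hr2 : r ≠ 2)
    (hirr : ActsAbsolutelyIrreducibly (matrixSet R)) (hZ : Nat.card (Subgroup.center R) = r) : False := by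
  have : Nonempty ι := Fintype.card_pos_iff.1 hn.pos
  have := Fact.mk hr
  have hfin : Finite (Subgroup.center R) := Nat.finite_of_card_ne_zero (hZ ▸ hr.ne_zero)
  obtain ⟨z, hz⟩ := exists_prime_orderOf_dvd_card' (G := Subgroup.center R) r (by rw [hZ])
  obtain ⟨c, hc⟩ := hirr.2 (z.1.1).val (by
    rintro _ ⟨x, hx, rfl⟩
    exact congrArg Units.val (congrArg Subtype.val (Subgroup.mem_center_iff.1 z.2 ⟨x, hx⟩)).symm)
  obtain ⟨v, x, hvx⟩ := Aschbacher.IsNondegenerateForm.exists_ne hn.pos hQ.nondegenerate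
  have hb := isometry_b hQ (hR z.1.2) v x
  simp only [hc, Matrix.smul_mulVec, Matrix.one_mulVec, map_smul, LinearMap.smul_apply, smul_eq_mul,
    bform_apply] at hb
  have hcc : c * c = 1 := mul_right_cancel₀ hvx (by linear_combination hb)
  have h1 : z ^ 2 = 1 := by
    refine Subtype.ext (Subtype.ext (Units.ext ?_))
    show (z.1.1).val ^ 2 = 1
    rw [hc, sq, Matrix.smul_mul, Matrix.one_mul, smul_smul, hcc, one_smul]
  have := orderOf_dvd_of_pow_eq_one h1
  rw [hz] at this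
  exact hr2 ((Nat.prime_dvd_prime_iff_eq hr Nat.prime_two).1 this)

/-- Subfield case. -/
theorem orth_subfield_case (hn : Odd (Fintype.card ι)) (hn5 : 5 ≤ Fintype.card ι)
    (hdef : ∀ (F₀ : Subfield F) (a b : ι), gramMatrix (QuadraticMap.polar Q) a b ∈ F₀) {H P : Subgroup (GL ι F)}
    (hH : IsMaximalIn (omegaGL Q) H) (hP : P ≤ H)
    (hnorm : ∀ h ∈ H, ∀ x ∈ P, h * x * h⁻¹ ∈ P) (hirr : ActsAbsolutelyIrreducibly (matrixSet P))
    {F₀ : Subfield F} (h0 : F₀ ≠ ⊤) (hreal : RealisableOver F₀ (matrixSet P)) :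
    ∃ (F₀ : Subfield F) (r : ℕ) (P : GL ι F), r.Prime ∧ Fintype.card F = Nat.card F₀ ^ r ∧
      IsQuadFormRationalStructure Q F₀ P ∧ H = subfieldSubgroup F₀ P ⊓ omegaGL Q := by
  have : Nonempty ι := Fintype.card_pos_iff.1 (by omega)
  obtain ⟨B, hB⟩ := hreal
  obtain ⟨F₁, r, hle, hr, hcard, htop⟩ := Aschbacher.exists_subfield_prime_index h0
  have hB1 : ∀ s ∈ matrixSet P, ∀ i j, (B.val * s * (B⁻¹ : GL ι F).val) i j ∈ F₁ := fun s hs i j => hle (hB s hs i j)
  obtain ⟨P', hrat, heq⟩ := exists_quad_rational hQ h2 hn hdef hr hcard hirr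
    (hP.trans (hH.1.le.trans omegaGL_le)) hB1
  exact ⟨F₁, r, P', hr, hcard, hrat, orth_eq_inf hH
    (heq ▸ Aschbacher.le_subfieldSubgroup_of_realisable hirr hnorm hB1)
    (omega_not_le_subfieldSubgroup hQ h2 hn5 htop _)⟩

/-- The socle case. -/
theorem orth_core_case (hn : Odd (Fintype.card ι)) (hn5 : 5 ≤ Fintype.card ι)
    (hdef : ∀ (F₀ : Subfield F) (a b : ι), gramMatrix (QuadraticMap.polar Q) a b ∈ F₀) {H P : Subgroup (GL ι F)}
    (hH : IsMaximalIn (omegaGL Q) H) (hP : P ≤ H)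
    (hnorm : ∀ h ∈ H, ∀ x ∈ P, h * x * h⁻¹ ∈ P) (hperf : ⁅P, P⁆ = P)
    (hsimple : IsSimpleGroup (P ⧸ (scalars ι F).subgroupOf P))
    (hna : ¬ IsMulCommutative (P ⧸ (scalars ι F).subgroupOf P))
    (hcent : ∀ h ∈ H, (∀ x ∈ P, h * x * h⁻¹ * x⁻¹ ∈ scalars ι F) → h ∈ scalars ι F)
    (hirr : ActsAbsolutelyIrreducibly (matrixSet P)) :
    (∃ (F₀ : Subfield F) (r : ℕ) (P : GL ι F), r.Prime ∧ Fintype.card F = Nat.card F₀ ^ r ∧
      IsQuadFormRationalStructure Q F₀ P ∧ H = subfieldSubgroup F₀ P ⊓ omegaGL Q) ∨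
    InOrthogonalResidualClass H := by
  classical
  have : Nonempty ι := Fintype.card_pos_iff.1 (by omega)
  by_cases hreal : ∃ F₀ : Subfield F, F₀ ≠ ⊤ ∧ RealisableOver F₀ (matrixSet P)
  · obtain ⟨F₀, h0, hr⟩ := hreal
    exact Or.inl (orth_subfield_case hQ h2 hn hn5 hdef hH hP hnorm hirr h0 hr)
  push Not at hreal
  refine Or.inr ⟨P, ⟨hP, hnorm, hperf, hsimple, hna, hcent, hirr, hreal⟩, ?_⟩
  rintro ⟨σ, f, hf, hfix⟩
  -- the involution is a power map
  obtain ⟨t, ht⟩ : ∃ t, σ t ≠ t := by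
    by_contra h
    push Not at h
    exact hf.ne_refl (RingEquiv.ext h)
  let L : Subfield F := RingHom.eqLocusField σ.toRingHom (RingHom.id F)
  have hL : ∀ x, x ∈ L ↔ σ x = x := fun x => Iff.rfl
  have hd : t - σ t ≠ 0 := sub_ne_zero.2 (Ne.symm ht)
  have hfixb : ∀ y, σ ((y - σ y) / (t - σ t)) = (y - σ y) / (t - σ t) := fun y => by
    rw [map_div₀, map_sub, map_sub, hf.involutive, hf.involutive, ← neg_sub y, ← neg_sub t, neg_div_neg_eq]
  let co : F → L × L := fun y =>
    (⟨y - (y - σ y) / (t - σ t) * t, (hL _).2 (by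
        rw [map_sub, map_mul, hfixb]
        linear_combination div_mul_cancel₀ (y - σ y) hd)⟩, ⟨_, (hL _).2 (hfixb y)⟩)
  have hbij : Function.Bijective co := by
    refine ⟨fun x y h => ?_, fun ⟨a, b⟩ => ⟨a + b * t, ?_⟩⟩
    · simp only [co, Prod.mk.injEq, Subtype.mk.injEq] at h
      obtain ⟨h1, h2⟩ := h
      rw [← h2] at h1
      exact sub_left_injective h1
    · have ha := (hL _).1 a.2
      have hb := (hL _).1 b.2
      have e : ((a : F) + b * t - σ ((a : F) + b * t)) / (t - σ t) = b := by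
        rw [map_add, map_mul, ha, hb, div_eq_iff hd]; ring
      simp only [co, Prod.ext_iff, Subtype.ext_iff, e]
      exact ⟨by ring, trivial⟩
  have hF : Fintype.card F = Nat.card L ^ 2 := by
    rw [← Nat.card_eq_fintype_card, Nat.card_eq_of_bijective co hbij, Nat.card_prod, sq]
  have : Fintype L := Fintype.ofFinite _
  have hpowL : ∀ x ∈ L, x ^ Nat.card L = x := fun x hx => by
    have h := FiniteField.pow_card (⟨x, hx⟩ : L)
    rw [← Nat.card_eq_fintype_card] at h
    exact congrArg Subtype.val h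
  have hσ : ∀ x, σ x = x ^ Nat.card L := by
    intro x
    -- both are roots of the minimal polynomial over the fixed field
    have hs : x + σ x ∈ L := (hL _).2 (by rw [map_add, hf.involutive, add_comm])
    have hp : x * σ x ∈ L := (hL _).2 (by rw [map_mul, hf.involutive, mul_comm])
    have hroot : x ^ Nat.card L * x ^ Nat.card L - (x + σ x) * x ^ Nat.card L + x * σ x = 0 := by
      have h := congrArg (qFrob hF) (show x * x - (x + σ x) * x + x * σ x = 0 by ring)
      simp only [map_add, map_sub, map_mul, map_zero] at h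
      simp only [qFrob_apply] at h
      rw [← mul_pow x (σ x), hpowL _ hp] at h
      rw [show x ^ Nat.card L + σ x ^ Nat.card L = x + σ x by rw [← q_add_pow hF, hpowL _ hs]] at h
      exact h
    rcases mul_eq_zero.1 (show (x ^ Nat.card L - x) * (x ^ Nat.card L - σ x) = 0 by linear_combination hroot) with h | h
    · -- a fixed power map forces membership in the fixed field
      have hxq := sub_eq_zero.1 h
      by_contra hne
      have hb := hfixb x
      set b := (x - σ x) / (t - σ t) with hbdef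
      have hbL : b ∈ L := (hL _).2 hb
      have haL : x - b * t ∈ L := (co x).1.2
      have hb0 : b ≠ 0 := div_ne_zero (sub_ne_zero.2 fun h' => hne (by rw [← h', hxq])) hd
      have htq : t ^ Nat.card L = t := by
        have e : x = (x - b * t) + b * t := by ring
        rw [e, q_add_pow hF, mul_pow, hpowL _ haL, hpowL _ hbL, add_right_inj] at hxq
        exact mul_left_cancel₀ hb0 hxq
      obtain ⟨y, hy⟩ := exists_pow_ne_self hF
      refine hy ?_
      have e : y = ((co y).1 : F) + ((co y).2 : F) * t := by simp [co]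
      rw [e, q_add_pow hF, mul_pow, hpowL _ (co y).1.2, hpowL _ (co y).2.2, htq]
    · exact (sub_eq_zero.1 h).symm
  refine hreal (fixedField hF) (fun h => ht ?_) ?_
  · rw [hσ t]; exact (mem_fixedField hF).1 (h ▸ Subfield.mem_top t)
  set G := gramMatrix f
  set M := gramMatrix (QuadraticMap.polar Q)
  have hsb := Aschbacher.IsSesquiForm.of_bilinear hQ.polar_bilinear
  have hsf := Aschbacher.IsSesquiForm.of_unitary hf
  have hMu : IsUnit M.det := isUnit_iff_ne_zero.2 (Aschbacher.det_gramMatrix_ne_zero hsb hQ.nondegenerate)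
  have hGu : IsUnit G.det := isUnit_iff_ne_zero.2 (Aschbacher.det_gramMatrix_ne_zero hsf hf.nondegenerate)
  refine realisableOver_fixed_of_twist hF hirr (M⁻¹ * G) ?_ ?_
  · rw [Matrix.det_mul]; exact (Matrix.isUnit_nonsing_inv_det _ hMu).mul hGu
  rintro _ ⟨g, hg, rfl⟩
  have hgI : g ∈ Cfsg.isometryGroup F Q := (hP.trans (hH.1.le.trans omegaGL_le)) hg
  have h1 : g.valᵀ * (M * g.val) = M := by
    have := Aschbacher.gramMatrix_of_fixes hsb (s := g.val) fun u v => isometry_b hQ hgI u v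
    rwa [RingHom.coe_id, Matrix.map_id] at this
  have h2' : g.valᵀ * (G * g.val.map σ) = G := Aschbacher.gramMatrix_of_fixes hsf (hfix _ ⟨g, hg, rfl⟩)
  have hmap : g.val.map (qFrob hF : F ≃+* F).toRingHom = g.val.map σ := by
    ext a b; exact (hσ _).symm
  rw [hmap]
  have hgt : IsUnit (g.valᵀ) := by
    rw [Matrix.isUnit_iff_isUnit_det, Matrix.det_transpose]; exact (Matrix.isUnit_iff_isUnit_det _).1 g.isUnit
  -- both sides agree after multiplying by the transpose and the Gram matrix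
  have key : g.valᵀ * (M * (M⁻¹ * G * g.val.map σ)) = g.valᵀ * (M * (g.val * (M⁻¹ * G))) := by
    rw [← Matrix.mul_assoc M (M⁻¹ * G), ← Matrix.mul_assoc M M⁻¹, Matrix.mul_nonsing_inv M hMu, Matrix.one_mul, h2',
      ← Matrix.mul_assoc M g.val, ← Matrix.mul_assoc g.valᵀ, h1, ← Matrix.mul_assoc M M⁻¹,
      Matrix.mul_nonsing_inv M hMu, Matrix.one_mul]
  exact ((Matrix.isUnit_iff_isUnit_det _).2 hMu).mul_left_cancel (hgt.mul_left_cancel key)

omit hQ
/-- The standard odd form has its Gram matrix over every subfield. -/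
lemma quadFormOdd_gram_mem (m : ℕ) (F₀ : Subfield F) (a b : Unit ⊕ (Fin m ⊕ Fin m)) :
    gramMatrix (QuadraticMap.polar (Cfsg.quadFormOdd m F)) a b ∈ F₀ := by
  have hu : ∀ c d : Unit ⊕ (Fin m ⊕ Fin m), (Pi.single c (1 : F) : Unit ⊕ (Fin m ⊕ Fin m) → F) d ∈ F₀ := by
    intro c d
    rcases eq_or_ne d c with rfl | h <;> simp [*, F₀.one_mem, F₀.zero_mem]
  have hq : ∀ v : Unit ⊕ (Fin m ⊕ Fin m) → F, (∀ i, v i ∈ F₀) → Cfsg.quadFormOdd m F v ∈ F₀ := fun v hv =>
    F₀.add_mem (pow_mem (hv _) 2) (sum_mem fun i _ => F₀.mul_mem (hv _) (hv _))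
  exact F₀.sub_mem (F₀.sub_mem (hq _ fun i => F₀.add_mem (hu a i) (hu b i)) (hq _ (hu a))) (hq _ (hu b))

end CfsgLib.AschPrime
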