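import Cfsg.Agent.AschPrime.OrthCases

/-! The monomial case inside Omega: an orthonormal frame up to a common scalar. -/

set_option autoImplicit false
set_option linter.unusedSectionVars false

namespace CfsgLib.AschPrime

open Cfsg.Geo Module OrthGeo
open scoped Matrix MatrixGroups

variable {ι : Type} [Fintype ι] [DecidableEq ι] {F : Type*} [Field F] [Fintype F] {Q : (ι → F) → F}
variable (hQ : IsNondegenerateQuadraticForm Q) (h2 : (2 : F) ≠ 0)
include hQ h2

/-- A monomial group with separated characters in odd dimension permutes an orthogonal frame of equal values. -/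
lemma exists_orth_frame (hn : Odd (Fintype.card ι)) {H A : Subgroup (GL ι F)}
    (hHI : H ≤ Cfsg.isometryGroup F Q) (hA : A ≤ H) (hirr : ActsIrreducibly (matrixSet H))
    (b : Basis ι F (ι → F)) (hm : Aschbacher.IsMonomial H b) (he : ∀ i, Aschbacher.IsCommonEigen A (b i))
    (hs : Aschbacher.Separates A b) :
    ∃ (e : Basis ι F (ι → F)) (v : F), v ≠ 0 ∧ (∀ i, Q (e i) = v) ∧
      (∀ i j, i ≠ j → bform hQ (e i) (e j) = 0) ∧
      ∀ h ∈ H, ∃ (σ : Equiv.Perm ι) (c : ι → F), ∀ i, c i * c i = 1 ∧ h.val *ᵥ e i = c i • e (σ i) := by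
  classical
  have : Nonempty ι := Fintype.card_pos_iff.1 hn.pos
  choose χ hχ using fun (i : ι) (a : A) => he i a.1 a.2
  have hchar : ∀ i j, bform hQ (b i) (b j) ≠ 0 → ∀ a : A, χ i a * χ j a = 1 := by
    intro i j hij a
    have h := isometry_b hQ (hHI (hA a.2)) (b i) (b j)
    rw [hχ i a, hχ j a, map_smul, map_smul, LinearMap.smul_apply, smul_eq_mul, smul_eq_mul] at h
    exact mul_right_cancel₀ hij (by linear_combination h)
  have huniq : ∀ i j k, bform hQ (b i) (b j) ≠ 0 → bform hQ (b i) (b k) ≠ 0 → j = k := by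
    intro i j k hj hk
    refine hs j k fun a ha c hc => ?_
    have h1 := hchar i j hj ⟨a, ha⟩
    have h2 := hchar i k hk ⟨a, ha⟩
    have h0 : χ i ⟨a, ha⟩ ≠ 0 := fun h => by simp [h] at h1
    have hcj : χ j ⟨a, ha⟩ = c := smul_left_injective F (b.ne_zero j) ((hχ j ⟨a, ha⟩).symm.trans hc)
    rw [hχ k ⟨a, ha⟩, show χ k ⟨a, ha⟩ = c from (mul_left_cancel₀ h0 (h2.trans h1.symm)).trans hcj]
  have hex : ∀ i, ∃ j, bform hQ (b i) (b j) ≠ 0 := by
    intro i
    by_contra h
    push Not at h
    obtain ⟨-, y, hy⟩ := hQ.nondegenerate (b i) (b.ne_zero i)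
    exact hy (by
      change bform hQ (b i) y = 0
      rw [← b.sum_repr y, map_sum]
      simp [h])
  choose π hπ using hex
  have hinv : ∀ i, π (π i) = i := fun i => huniq (π i) _ _ (hπ _) (by rw [b_symm hQ]; exact hπ i)
  obtain ⟨i₀, hi₀⟩ : ∃ i, π i = i := by
    have hpow : (Equiv.mk π π hinv hinv : Equiv.Perm ι) ^ (2 : ℕ) ^ 1 = 1 := by
      refine Equiv.ext fun x => ?_
      simp [pow_two, Equiv.Perm.mul_apply, hinv]
    exact Equiv.Perm.exists_fixed_point_of_prime (p := 2) (n := 1)
      (fun hd => Nat.not_even_iff_odd.2 hn (even_iff_two_dvd.2 hd)) hpow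
  have hreach : ∀ j, ∃ h ∈ H, ∃ t : F, t ≠ 0 ∧ h.val *ᵥ b i₀ = t • b j := by
    intro j
    set S : Set ι := {k | ∃ h ∈ H, ∃ t : F, t ≠ 0 ∧ h.val *ᵥ b i₀ = t • b k}
    have hinvS : Aschbacher.IsInvariantUnder H (Submodule.span F (b '' S)) := by
      intro g hg w hw
      have hle : Submodule.map (Matrix.toLin' g.val) (Submodule.span F (b '' S)) ≤ Submodule.span F (b '' S) := by
        rw [Submodule.map_span, Submodule.span_le]
        rintro _ ⟨_, ⟨k, ⟨h, hh, t, ht, hk⟩, rfl⟩, rfl⟩
        obtain ⟨σ, c, hc⟩ := hm g hg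
        have hc0 : c k ≠ 0 := fun h0 => by
          have := hc k
          rw [h0, zero_smul] at this
          exact b.ne_zero k (Aschbacher.mulVec_inj g (this.trans (Matrix.mulVec_zero _).symm))
        rw [Matrix.toLin'_apply, hc k]
        refine Submodule.smul_mem _ _ (Submodule.subset_span ⟨σ k, ⟨g * h, mul_mem hg hh, t * c k,
          mul_ne_zero ht hc0, ?_⟩, rfl⟩)
        rw [Units.val_mul, ← Matrix.mulVec_mulVec, hk, Matrix.mulVec_smul, hc k, smul_smul]
      exact hle ⟨w, hw, by simp⟩
    rcases Aschbacher.eq_bot_or_top_of_invariant hirr hinvS with h | h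
    · exact (b.ne_zero i₀ ((Submodule.mem_bot F).1 (h ▸ Submodule.subset_span
        ⟨i₀, ⟨1, one_mem H, 1, one_ne_zero, by simp⟩, rfl⟩))).elim
    · have hj : b j ∈ Submodule.span F (b '' S) := h ▸ Submodule.mem_top
      rw [b.mem_span_image, b.repr_self, Finsupp.support_single_ne_zero _ one_ne_zero, Finset.coe_singleton,
        Set.singleton_subset_iff] at hj
      exact hj
  choose g hg t ht hgb using hreach
  have hb0 : bform hQ (b i₀) (b i₀) ≠ 0 := by
    have := hπ i₀
    rwa [hi₀] at this
  have hall : ∀ j, π j = j := by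
    intro j
    refine huniq j _ _ (hπ j) fun h0 => hb0 ?_
    rw [← isometry_b hQ (hHI (hg j)) (b i₀) (b i₀), hgb j]
    simp [h0]
  let e := b.unitsSMul fun j => Units.mk0 (t j) (ht j)
  have he' : ∀ j, e j = t j • b j := fun j => b.unitsSMul_apply j
  have hval : ∀ j, Q (e j) = Q (b i₀) := fun j => by
    rw [he', ← hgb j]
    exact mem_isometryGroup.1 (hHI (hg j)) _
  refine ⟨e, Q (b i₀), fun h => hb0 (by rw [b_self hQ, h, mul_zero]), hval, fun i j hij => ?_, fun h hh => ?_⟩
  · rw [he', he', map_smul, map_smul, LinearMap.smul_apply]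
    by_contra hne
    exact hij ((hall i).symm.trans (huniq i (π i) j (hπ i) fun h' => hne (by rw [h', smul_zero, smul_zero])))
  · obtain ⟨σ, c, hc⟩ := hm h hh
    refine ⟨σ, fun i => t i * c i * (t (σ i))⁻¹, fun i => ?_⟩
    have hh' : h.val *ᵥ e i = (t i * c i * (t (σ i))⁻¹) • e (σ i) := by
      rw [he', he', Matrix.mulVec_smul, hc i, smul_smul, smul_smul, mul_assoc (t i * c i), inv_mul_cancel₀ (ht _),
        mul_one]
    refine ⟨?_, hh'⟩
    have h1 := mem_isometryGroup.1 (hHI hh) (e i)
    rw [hh', q_smul hQ, hval, hval] at h1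
    have hv : Q (b i₀) ≠ 0 := fun h0 => hb0 (by rw [b_self hQ, h0, mul_zero])
    exact mul_right_cancel₀ hv (by rw [one_mul]; linear_combination h1)

/-- The monomial case of the reduction. -/
theorem orth_frame_case (hn : Odd (Fintype.card ι)) (hn5 : 5 ≤ Fintype.card ι)
    (hdef : ∀ (F₀ : Subfield F) (a b : ι), gramMatrix (QuadraticMap.polar Q) a b ∈ F₀)
    {n : ℕ} (num : ι ≃ Fin n) {H A : Subgroup (GL ι F)}
    (hH : IsMaximalIn (omegaGL Q) H) (hA : A ≤ H) (hirr : ActsIrreducibly (matrixSet H))
    (b : Basis ι F (ι → F)) (hm : Aschbacher.IsMonomial H b) (he : ∀ i, Aschbacher.IsCommonEigen A (b i))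
    (hs : Aschbacher.Separates A b) :
    ((Fintype.card F).Prime ∧ ∃ D : Fin n → Submodule F (ι → F), IsOrthogonalMDecomposition Q 1 D ∧
      H = decompositionStabilizer D ⊓ omegaGL Q) ∨
    (∃ (F₀ : Subfield F) (r : ℕ) (P : GL ι F), r.Prime ∧ Fintype.card F = Nat.card F₀ ^ r ∧
      IsQuadFormRationalStructure Q F₀ P ∧ H = subfieldSubgroup F₀ P ⊓ omegaGL Q) := by
  classical
  have hHI : H ≤ Cfsg.isometryGroup F Q := hH.1.le.trans omegaGL_le
  obtain ⟨e, v, hv, hev, horth, hperm⟩ := exists_orth_frame hQ h2 hn hHI hA hirr b hm he hs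
  have hn' : 2 ≤ n := by
    have := Fintype.card_congr num
    rw [Fintype.card_fin] at this
    omega
  by_cases hp : (Fintype.card F).Prime
  · left
    refine ⟨hp, fun k => Submodule.span F {e (num.symm k)}, ?_⟩
    set D : Fin n → Submodule F (ι → F) := fun k => Submodule.span F {e (num.symm k)} with hDdef
    have hD : IsOrthogonalMDecomposition Q 1 D := by
      refine ⟨⟨⟨hn', one_pos, fun i => finrank_span_singleton (e.ne_zero _), ?_, ?_⟩, ?_, ?_⟩, ?_⟩
      · exact (e.linearIndependent.comp num.symm num.symm.injective).iSupIndep_span_singleton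
      · rw [eq_top_iff, ← e.span_eq, Submodule.span_le]
        rintro _ ⟨i, rfl⟩
        exact Submodule.mem_iSup_of_mem (num i) (Submodule.subset_span (by simp))
      · intro i w hw hw0
        obtain ⟨s, rfl⟩ := Submodule.mem_span_singleton.1 hw
        have hs0 : s ≠ 0 := fun h => hw0 (by simp [h])
        have hne : bform hQ (e (num.symm i)) (e (num.symm i)) ≠ 0 := by
          rw [b_self hQ, hev]; exact mul_ne_zero h2 hv
        refine ⟨⟨e (num.symm i), Submodule.mem_span_singleton_self _, ?_⟩,
          e (num.symm i), Submodule.mem_span_singleton_self _, ?_⟩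
        · change bform hQ (e (num.symm i)) (s • e (num.symm i)) ≠ 0
          rw [map_smul, smul_eq_mul]; exact mul_ne_zero hs0 hne
        · change bform hQ (s • e (num.symm i)) (e (num.symm i)) ≠ 0
          rw [map_smul, LinearMap.smul_apply, smul_eq_mul]; exact mul_ne_zero hs0 hne
      · intro i j hij u hu w hw
        obtain ⟨a, rfl⟩ := Submodule.mem_span_singleton.1 hu
        obtain ⟨c, rfl⟩ := Submodule.mem_span_singleton.1 hw
        change bform hQ (a • e (num.symm i)) (c • e (num.symm j)) = 0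
        rw [map_smul, map_smul, LinearMap.smul_apply, horth _ _ fun h => hij (num.symm.injective h), smul_zero,
          smul_zero]
      · intro i j
        refine ⟨(LinearEquiv.toSpanNonzeroSingleton F _ (e (num.symm i)) (e.ne_zero _)).symm.trans
          (LinearEquiv.toSpanNonzeroSingleton F _ (e (num.symm j)) (e.ne_zero _)), fun w => ?_⟩
        obtain ⟨s, rfl⟩ := (LinearEquiv.toSpanNonzeroSingleton F _ (e (num.symm i)) (e.ne_zero _)).surjective w
        rw [LinearEquiv.trans_apply, LinearEquiv.symm_apply_apply]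
        show Q (s • e (num.symm j)) = Q (s • e (num.symm i))
        rw [q_smul hQ, q_smul hQ, hev, hev]
    refine ⟨hD, orth_eq_inf hH (fun h hh => ?_) (omega_not_le_decompositionStabilizer hQ hn5 h2 hD.decomp)⟩
    obtain ⟨σ, c, hc⟩ := hperm h hh
    refine ⟨(num.symm.trans σ).trans num, fun k => ?_⟩
    have hc0 : c (num.symm k) ≠ 0 := left_ne_zero_of_mul_eq_one (hc _).1
    simp only [Submodule.map_span, Set.image_singleton, Matrix.toLin'_apply, (hc _).2, hDdef, Equiv.trans_apply,
      Equiv.symm_apply_apply]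
    exact Submodule.span_singleton_smul_eq hc0.isUnit _
  · right
    have : Nonempty ι := Fintype.card_pos_iff.1 hn.pos
    have hbot : (⊥ : Subfield F) ≠ ⊤ := by
      intro htop
      obtain ⟨k, hpp, hcard⟩ := FiniteField.card F (ringChar F)
      have := Fact.mk hpp
      refine hp ?_
      have hb : Nat.card (⊥ : Subfield F) = ringChar F := Subfield.card_bot F (ringChar F)
      rw [htop] at hb
      have hct : Nat.card (⊤ : Subfield F) = Nat.card F := Nat.card_congr Subfield.topEquiv.toEquiv
      rw [hct, Nat.card_eq_fintype_card] at hb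
      rw [hb]; exact hpp
    obtain ⟨F₁, r, -, hr, hcard, htop⟩ := Aschbacher.exists_subfield_prime_index hbot
    let X : Matrix ι ι F := (Pi.basisFun F ι).toMatrix e
    have hXcol : ∀ i, X *ᵥ Pi.single i 1 = e i := fun i => by
      rw [Matrix.mulVec_single_one]; funext k; simp [X, Basis.toMatrix_apply]
    have hXdet : X.det ≠ 0 := fun h0 => by
      have := congrArg Matrix.det ((Pi.basisFun F ι).toMatrix_mul_toMatrix_flip e)
      rw [Matrix.det_mul, show (Basis.toMatrix (Pi.basisFun F ι) ⇑e).det = 0 from h0, zero_mul, Matrix.det_one] at this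
      exact zero_ne_one this
    obtain ⟨l, hl0, hl⟩ := exists_scale h2 hr hcard hv fun hr2 => by
      subst hr2
      have hsq : Fintype.card F = Nat.card F₁ ^ 2 := hcard
      have hD : (gramMatrix (QuadraticMap.polar Q)).det ∈ F₁ := by
        rw [show gramMatrix (QuadraticMap.polar Q) =
          (Matrix.of fun a b => (⟨_, hdef F₁ a b⟩ : F₁)).map F₁.subtype from rfl, ← RingHom.mapMatrix_apply,
          ← RingHom.map_det]
        exact SetLike.coe_mem _
      have hsesq := Aschbacher.IsSesquiForm.of_bilinear hQ.polar_bilinear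
      have hdiag : Xᵀ * gramMatrix (QuadraticMap.polar Q) * X = Matrix.diagonal fun _ => 2 * v := by
        ext i j
        have h1 : (Xᵀ * gramMatrix (QuadraticMap.polar Q) * X) i j =
            QuadraticMap.polar Q (X *ᵥ Pi.single i 1) (X *ᵥ Pi.single j 1) := by
          rw [hsesq.eq_dot, Matrix.mulVec_single_one, Matrix.mulVec_single_one, Matrix.mul_assoc]
          rfl
        rw [h1, hXcol, hXcol, Matrix.diagonal_apply]
        split_ifs with h
        · subst h; change bform hQ (e i) (e i) = _; rw [b_self hQ, hev]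
        · exact horth i j h
      have hdet := congrArg Matrix.det hdiag
      rw [Matrix.det_mul, Matrix.det_mul, Matrix.det_transpose, Matrix.det_diagonal, Finset.prod_const,
        Finset.card_univ] at hdet
      obtain ⟨s, hs⟩ := isSquare_of_mem h2 hsq hD
      have h2F : (2 : F) ∈ F₁ := by rw [← one_add_one_eq_two]; exact F₁.add_mem F₁.one_mem F₁.one_mem
      obtain ⟨w, hw⟩ := isSquare_of_mem h2 hsq h2F
      obtain ⟨k, hk⟩ := hn
      rw [hk, hs] at hdet
      have hw0 : w ≠ 0 := fun h => h2 (by rw [hw, h, mul_zero])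
      refine ⟨X.det * s / ((2 * v) ^ k * w), ?_⟩
      field_simp
      linear_combination -hdet + (v * (2 * v) ^ (2 * k)) * (hw.symm)
    let z : GL ι F := Units.map (Matrix.scalar ι : F →+* Matrix ι ι F).toMonoidHom (Units.mk0 l hl0)
    let X' : GL ι F := Matrix.GeneralLinearGroup.mkOfDetNeZero X hXdet
    have hX'col : ∀ i, (X' * z : GL ι F).val *ᵥ Pi.single i 1 = l • e i := fun i => by
      rw [Units.val_mul, ← Matrix.mulVec_mulVec, show (X'.val : Matrix ι ι F) = X from rfl]
      rw [show z.val *ᵥ Pi.single i 1 = l • (Pi.single i 1 : ι → F) from by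
        ext k; simp [z, Matrix.mulVec_diagonal], Matrix.mulVec_smul, hXcol]
    refine ⟨F₁, r, X' * z, hr, hcard, fun u hu => ?_, orth_eq_inf hH (fun h hh => ?_)
      (omega_not_le_subfieldSubgroup hQ h2 hn5 htop _)⟩
    · have hu' : (X' * z : GL ι F).val *ᵥ u = ∑ i, (u i * l) • e i := by
        conv_lhs => rw [pi_eq_sum_univ' u]
        rw [Matrix.mulVec_sum]
        exact Finset.sum_congr rfl fun i _ => by rw [Matrix.mulVec_smul, hX'col, smul_smul]
      rw [hu']
      have key : ∀ S : Finset ι, Q (∑ i ∈ S, (u i * l) • e i) = ∑ i ∈ S, u i ^ 2 * (l ^ 2 * v) := by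
        intro S
        induction S using Finset.induction with
        | empty => simp [q_zero hQ]
        | insert a S ha ih =>
          rw [Finset.sum_insert ha, Finset.sum_insert ha, q_add hQ, ih, q_smul hQ, hev]
          have : bform hQ ((u a * l) • e a) (∑ i ∈ S, (u i * l) • e i) = 0 := by
            rw [map_sum]
            refine Finset.sum_eq_zero fun i hi => ?_
            rw [map_smul, map_smul, LinearMap.smul_apply, horth a i (fun h => ha (by rwa [h])), smul_zero, smul_zero]
          rw [this]; ring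
      rw [key]
      exact sum_mem fun i _ => mul_mem (pow_mem (hu i) 2) hl
    · obtain ⟨σ, c, hc⟩ := hperm h hh
      refine Aschbacher.mem_subfieldSubgroup_iff.2 ?_
      let S₀ : Matrix ι ι F₁ := fun k i => if k = σ i then (⟨c i, by
        rcases mul_self_eq_one_iff.1 (hc i).1 with h | h <;> rw [h]
        exacts [F₁.one_mem, F₁.neg_mem F₁.one_mem]⟩) else 0
      have hval : ((X' * z)⁻¹ * h * (X' * z) : GL ι F).val = S₀.map F₁.subtype := by
        refine Matrix.ext_of_mulVec_single fun i => ?_
        rw [Units.val_mul, Units.val_mul, ← Matrix.mulVec_mulVec, ← Matrix.mulVec_mulVec, hX'col, Matrix.mulVec_smul,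
          (hc i).2, smul_comm, ← hX'col, Matrix.mulVec_smul, Matrix.mulVec_mulVec, ← Units.val_mul, inv_mul_cancel,
          Units.val_one, Matrix.one_mulVec, Matrix.mulVec_single_one]
        funext k
        show _ = F₁.subtype (S₀ k i)
        by_cases hk : k = σ i <;> simp [S₀, hk]
      have hdet : S₀.det ≠ 0 := fun h0 => by
        have h1 := RingHom.map_det F₁.subtype S₀
        rw [h0, map_zero, RingHom.mapMatrix_apply, ← hval] at h1
        exact ((Matrix.isUnit_iff_isUnit_det _).1 (Units.isUnit _)).ne_zero h1.symm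
      refine ⟨Matrix.GeneralLinearGroup.mkOfDetNeZero S₀ hdet, 1, ?_⟩
      rw [map_one, mul_one]
      exact Units.ext hval

end CfsgLib.AschPrime
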