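import Cfsg.Agent.OrthGeo.PlusPlane
import Cfsg.Agent.Aschbacher.Proper
import Cfsg.Agent.Aschbacher.InvariantForms

/-! Members of the geometric classes against Omega, in dimension at least five. -/

set_option autoImplicit false
set_option linter.unusedSectionVars false

namespace CfsgLib.AschPrime

open Cfsg.Geo Module OrthGeo
open scoped Matrix MatrixGroups

variable {ι : Type} [Fintype ι] [DecidableEq ι] {F : Type*} [Field F] {Q : (ι → F) → F}
variable (hQ : IsNondegenerateQuadraticForm Q)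
include hQ

lemma orth_nondeg_of_inf_eq_bot {W : Submodule F (ι → F)} (h : W ⊓ perp hQ W = ⊥) :
    IsNondegenerateOn (QuadraticMap.polar Q) W := by
  intro w hw h0
  have hnp : w ∉ perp hQ W := fun hw' => h0 ((Submodule.eq_bot_iff _).1 h w ⟨hw, hw'⟩)
  constructor
  · rw [mem_perp] at hnp; push Not at hnp; exact hnp
  · rw [mem_perp'] at hnp; push Not at hnp; exact hnp

lemma orth_inf_eq_bot_of_nondeg {W : Submodule F (ι → F)}
    (hW : IsNondegenerateOn (QuadraticMap.polar Q) W) : W ⊓ perp hQ W = ⊥ := by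
  rw [Submodule.eq_bot_iff]
  rintro w ⟨hw, hw'⟩
  by_contra h0
  obtain ⟨-, x, hx, hwx⟩ := hW w hw h0
  exact hwx ((mem_perp' hQ).1 hw' x hx)

lemma orth_perp_nondeg {W : Submodule F (ι → F)} (hW : IsNondegenerateOn (QuadraticMap.polar Q) W) :
    IsNondegenerateOn (QuadraticMap.polar Q) (perp hQ W) := by
  refine orth_nondeg_of_inf_eq_bot hQ ?_
  rw [perp_perp hQ, inf_comm]
  exact orth_inf_eq_bot_of_nondeg hQ hW

lemma orth_sup_eq_top {W : Submodule F (ι → F)} (hW : IsNondegenerateOn (QuadraticMap.polar Q) W) :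
    W ⊔ perp hQ W = ⊤ := by
  refine Submodule.eq_top_of_finrank_eq ?_
  have h1 := Submodule.finrank_sup_add_finrank_inf_eq W (perp hQ W)
  rw [orth_inf_eq_bot_of_nondeg hQ hW, finrank_bot] at h1
  rw [finrank_fintype_fun_eq_card]
  have h2 := finrank_perp_add hQ W
  omega

lemma orth_anisotropic {W : Submodule F (ι → F)} (hW : IsNondegenerateOn (QuadraticMap.polar Q) W)
    (h0 : W ≠ ⊥) : ∃ a ∈ W, Q a ≠ 0 := by
  obtain ⟨w, hw, hw0⟩ := Submodule.exists_mem_ne_zero_of_ne_bot h0
  by_contra h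
  push Not at h
  obtain ⟨-, x, hx, hwx⟩ := hW w hw hw0
  have := q_add hQ w x
  rw [h _ (W.add_mem hw hx), h w hw, h x hx, zero_add, zero_add] at this
  exact hwx this.symm

/-- Isometries fixing a subspace fix its perpendicular space. -/
lemma stabilizer_perp {g : GL ι F} (hg : g ∈ Cfsg.isometryGroup F Q) {W : Submodule F (ι → F)}
    (hW : g ∈ subspaceStabilizer W) : g ∈ subspaceStabilizer (perp hQ W) := by
  refine mem_subspaceStabilizer_of_le fun v hv => (mem_perp hQ).2 fun w hw => ?_
  obtain ⟨w', rfl⟩ : ∃ w', (g : Matrix ι ι F) *ᵥ w' = w := ⟨_, mulVec_inv_cancel g w⟩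
  rw [isometry_b hQ hg]
  exact (mem_perp hQ).1 hv w' ((hW w').2 hw)

variable [Finite F] (hn : 5 ≤ Fintype.card ι)
include hn

private lemma not_le_of_large {W : Submodule F (ι → F)} (h3 : 3 ≤ finrank F W) (htop : W ≠ ⊤)
    (hW : IsNondegenerateOn (QuadraticMap.polar Q) W) : ¬ omegaGL Q ≤ subspaceStabilizer W := by
  intro hle
  obtain ⟨u, huW, hu0, hu⟩ := exists_singular hQ h3
  obtain ⟨a, ha, haa⟩ := orth_anisotropic hQ (orth_perp_nondeg hQ hW)
    (fun h => htop (by rw [← orth_sup_eq_top hQ hW, h, sup_bot_eq]))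
  have hua : bform hQ u a = 0 := (mem_perp hQ).1 ha u huW
  obtain ⟨-, x, hx, hux⟩ := hW u huW hu0
  change bform hQ u x ≠ 0 at hux
  have hax : bform hQ a x = 0 := (mem_perp' hQ).1 ha x hx
  have hm := (hle (eichler_mem_omega hQ hn hu hua) x).1 hx
  change (eichler hQ hu hua).val *ᵥ x ∈ W at hm
  rw [eichler_mulVec hQ, hax, zero_smul, add_zero, Submodule.sub_mem_iff_left _ (W.smul_mem _ huW),
    Submodule.sub_mem_iff_right _ hx, Submodule.smul_mem_iff _ hux] at hm
  have h0 : a = 0 := (Submodule.eq_bot_iff _).1 (orth_inf_eq_bot_of_nondeg hQ hW) a ⟨hm, ha⟩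
  exact haa (by rw [h0, q_zero hQ])

/-- Omega fixes no proper non-zero subspace that is totally singular or non-degenerate. -/
theorem omega_not_le_subspaceStabilizer {W : Submodule F (ι → F)} (h0 : W ≠ ⊥) (htop : W ≠ ⊤)
    (hW : IsTotallySingularQuad Q W ∨ IsNondegenerateOn (QuadraticMap.polar Q) W) :
    ¬ omegaGL Q ≤ subspaceStabilizer W := by
  rcases hW with hW | hW
  · intro hle
    obtain ⟨w, hw, hw0⟩ := Submodule.exists_mem_ne_zero_of_ne_bot h0
    obtain ⟨v, hv, hwv⟩ : ∃ v, Q v = 0 ∧ bform hQ w v = 1 := by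
      obtain ⟨⟨y, hy⟩, -⟩ := hQ.nondegenerate w hw0
      change bform hQ y w ≠ 0 at hy
      rw [b_symm hQ] at hy
      refine ⟨(bform hQ w y)⁻¹ • y - (Q ((bform hQ w y)⁻¹ • y)) • w, ?_, ?_⟩
      · rw [q_sub hQ, q_smul hQ (Q _) w, hW w hw, map_smul, map_smul, LinearMap.smul_apply, b_symm hQ y w,
          smul_eq_mul, smul_eq_mul, inv_mul_cancel₀ hy]
        ring
      · rw [map_sub, map_smul, map_smul, b_self hQ, hW w hw, smul_eq_mul, smul_eq_mul, inv_mul_cancel₀ hy]
        ring
    obtain ⟨a, ha, haa⟩ : ∃ a ∈ perp hQ (Submodule.span F {w} ⊔ Submodule.span F {v}), Q a ≠ 0 := by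
      by_contra h
      push Not at h
      have h1 := two_mul_finrank_le hQ h
      have h2 := finrank_perp_add hQ (Submodule.span F {w} ⊔ Submodule.span F {v})
      have h3 := Submodule.finrank_add_le_finrank_add_finrank (Submodule.span F {w}) (Submodule.span F {v})
      have h4 : ∀ y : ι → F, finrank F (Submodule.span F ({y} : Set (ι → F))) ≤ 1 := fun y =>
        (finrank_span_le_card _).trans (by simp)
      have := h4 w
      have := h4 v
      omega
    rw [perp_sup hQ] at ha
    have hwa : bform hQ w a = 0 := (mem_perp_span_singleton hQ).1 ha.1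
    have hva : bform hQ v a = 0 := (mem_perp_span_singleton hQ).1 ha.2
    have hm := (hle (eichler_mem_omega hQ hn hv hva) w).1 hw
    change (eichler hQ hv hva).val *ᵥ w ∈ W at hm
    rw [eichler_mulVec hQ, b_symm hQ a w, hwa, zero_smul, add_zero, b_symm hQ v w, hwv, one_smul, mul_one,
      sub_sub, Submodule.sub_mem_iff_right _ hw] at hm
    have h := le_perp_self hQ hW hm w hw
    rw [map_add, map_smul, hwa, hwv, zero_add, smul_eq_mul, mul_one] at h
    exact haa h
  · by_cases h3 : 3 ≤ finrank F W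
    · exact not_le_of_large hQ hn h3 htop hW
    · intro hle
      have hd := finrank_perp_add hQ W
      refine not_le_of_large hQ hn (W := perp hQ W) (by omega) (fun h => h0 ?_) (orth_perp_nondeg hQ hW)
        (fun g hg => stabilizer_perp hQ (omegaGL_le hg) (hle hg))
      rw [← orth_inf_eq_bot_of_nondeg hQ hW, h, inf_top_eq]

/-- Omega preserves no orthogonal frame. -/
theorem omega_not_le_decompositionStabilizer (h2 : (2 : F) ≠ 0) {t : ℕ} {D : Fin t → Submodule F (ι → F)}
    (hD : IsNondegenerateMDecomposition (QuadraticMap.polar Q) 1 D) :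
    ¬ omegaGL Q ≤ decompositionStabilizer D := by
  intro hle
  have hne : ∀ i, D i ≠ ⊥ := fun i h => by
    have := hD.decomp.finrank_eq i
    rw [h, finrank_bot] at this
    exact zero_ne_one this
  choose e he hee using fun i => orth_anisotropic hQ (hD.nondegenerate i) (hne i)
  have horth : ∀ i j, i ≠ j → bform hQ (e i) (e j) = 0 := fun i j hij =>
    hD.orthogonal i j hij _ (he i) _ (he j)
  have ht : 5 ≤ t := by
    have h1 := Submodule.finrank_le (iSup D)
    have hsum : finrank F ↥(iSup D) ≤ ∑ _i : Fin t, 1 := by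
      have hspan : ∀ i, D i = Submodule.span F {e i} := fun i => by
        refine (Submodule.eq_of_le_of_finrank_eq ((Submodule.span_singleton_le_iff_mem _ _).2 (he i)) ?_).symm
        rw [hD.decomp.finrank_eq i, finrank_span_singleton (fun h => hee i (by rw [h, q_zero hQ]))]
      have : iSup D = Submodule.span F (Set.range e) := by
        rw [show D = fun i => Submodule.span F {e i} from funext hspan, ← Submodule.span_range_eq_iSup]
      rw [this]
      refine (finrank_range_le_card e).trans ?_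
      simp
    rw [hD.decomp.iSup_eq_top, finrank_top, finrank_fintype_fun_eq_card] at hsum
    simpa using le_trans hn hsum
  set i₀ : Fin t := ⟨0, by omega⟩
  set i₁ : Fin t := ⟨1, by omega⟩
  set i₂ : Fin t := ⟨2, by omega⟩
  set i₃ : Fin t := ⟨3, by omega⟩
  have h01 : i₀ ≠ i₁ := by simp [i₀, i₁]
  have h02 : i₀ ≠ i₂ := by simp [i₀, i₂]
  have h12 : i₁ ≠ i₂ := by simp [i₁, i₂]
  set S := Submodule.span F (Set.range ![e i₀, e i₁, e i₂]) with hS
  have hS3 : 3 ≤ finrank F S := by
    have hli : LinearIndependent F ![e i₀, e i₁, e i₂] := by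
      have hli' : LinearIndependent F e :=
        hD.decomp.indep.linearIndependent _ he fun i h => hee i (by rw [h, q_zero hQ])
      have : ![e i₀, e i₁, e i₂] = e ∘ ![i₀, i₁, i₂] := by ext k; fin_cases k <;> rfl
      rw [this]
      refine hli'.comp _ fun a b h => ?_
      fin_cases a <;> fin_cases b <;> simp_all [i₀, i₁, i₂, Fin.ext_iff]
    rw [finrank_span_eq_card hli]; simp
  obtain ⟨u, huS, hu0, hu⟩ := exists_singular hQ hS3
  obtain ⟨c, hc⟩ := (Submodule.mem_span_range_iff_exists_fun F).1 huS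
  simp only [Fin.sum_univ_three, Matrix.cons_val_zero, Matrix.cons_val_one, Matrix.cons_val_two,
    Matrix.tail_cons, Matrix.head_cons] at hc
  have hu3 : bform hQ u (e i₃) = 0 := by
    rw [← hc]
    simp [map_add, LinearMap.add_apply, horth i₀ i₃ (by simp [i₀, i₃]), horth i₁ i₃ (by simp [i₁, i₃]),
      horth i₂ i₃ (by simp [i₂, i₃])]
  have hval : ∀ a, bform hQ u (e a) =
      c 0 * bform hQ (e i₀) (e a) + c 1 * bform hQ (e i₁) (e a) + c 2 * bform hQ (e i₂) (e a) := by
    intro a; rw [← hc]; simp [map_add, LinearMap.add_apply]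
  -- some coordinate of `u` pairs non-trivially
  obtain ⟨i, hi3, hui⟩ : ∃ i, i ≠ i₃ ∧ bform hQ u (e i) ≠ 0 := by
    by_contra h
    push Not at h
    refine hu0 ?_
    obtain ⟨⟨y, hy⟩, -⟩ := hQ.nondegenerate u hu0
    exfalso
    refine hy ?_
    change bform hQ y u = 0
    rw [b_symm hQ]
    have hy' : y ∈ iSup D := by rw [hD.decomp.iSup_eq_top]; trivial
    refine Submodule.iSup_induction D (motive := fun z => bform hQ u z = 0) hy' (fun i z hz => ?_) (map_zero _)
      (fun a b ha hb => by rw [map_add, ha, hb, add_zero])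
    obtain ⟨r, hr⟩ := exists_smul_eq_of_finrank_eq_one (hD.decomp.finrank_eq i)
      (x := (⟨e i, he i⟩ : D i)) (fun h' => hee i (by rw [show e i = 0 from congrArg Subtype.val h', q_zero hQ])) ⟨z, hz⟩
    rw [← show r • e i = z from congrArg Subtype.val hr, map_smul]
    by_cases hi : i = i₃
    · rw [hi, hu3, smul_zero]
    · rw [h i hi, smul_zero]
  obtain ⟨σ, hσ⟩ := hle (eichler_mem_omega hQ hn hu hu3)
  have hmem : (eichler hQ hu hu3).val *ᵥ e i ∈ D (σ i) := by rw [← hσ i]; exact ⟨e i, he i, by simp⟩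
  rw [eichler_mulVec hQ, horth i₃ i hi3.symm, zero_smul, add_zero] at hmem
  -- pairing with the frame: at most one non-zero value
  have key : ∀ a, a ≠ σ i →
      bform hQ (e i - bform hQ u (e i) • e i₃ - (Q (e i₃) * bform hQ u (e i)) • u) (e a) = 0 :=
    fun a ha => hD.orthogonal _ _ (Ne.symm ha) _ hmem _ (he a)
  have h3 : σ i = i₃ := by
    by_contra h
    have := key i₃ (Ne.symm h)
    simp only [map_sub, map_smul, LinearMap.sub_apply, LinearMap.smul_apply, smul_eq_mul, horth i i₃ hi3, hu3,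
      b_self hQ, mul_zero, sub_zero, zero_sub, neg_eq_zero] at this
    rcases mul_eq_zero.1 this with h' | h'
    · exact hui h'
    · exact mul_ne_zero h2 (hee i₃) h'
  -- every other coordinate then vanishes, so the singular vector is concentrated in one line
  have hzero : ∀ a, a ≠ i → a ≠ i₃ → bform hQ u (e a) = 0 := by
    intro a hai ha3
    have := key a (h3 ▸ ha3)
    simp only [map_sub, map_smul, LinearMap.sub_apply, LinearMap.smul_apply, smul_eq_mul, horth i a (Ne.symm hai),
      horth i₃ a (Ne.symm ha3), mul_zero, sub_zero, zero_sub, neg_eq_zero] at this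
    exact (mul_eq_zero.1 this).resolve_left (mul_ne_zero (hee i₃) hui)
  have hsame : ∀ a, bform hQ (e a) (e a) ≠ 0 := fun a => by
    rw [b_self hQ]; exact mul_ne_zero h2 (hee a)
  have hother : ∀ a, a ≠ i → a = i₀ ∨ a = i₁ ∨ a = i₂ → bform hQ u (e a) = 0 := fun a ha h =>
    hzero a ha (by rcases h with rfl | rfl | rfl <;> simp [i₀, i₁, i₂, i₃])
  have hcoef : ∀ (a : Fin t) (k : Fin 3), a = ![i₀, i₁, i₂] k → a ≠ i → c k = 0 := by
    intro a k hk hai
    have hz := hother a hai (by fin_cases k <;> simp [hk])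
    rw [hval] at hz
    fin_cases k <;> subst hk <;>
      simp only [Matrix.cons_val_zero, Matrix.cons_val_one, Matrix.cons_val_two, Matrix.tail_cons, Matrix.head_cons,
        Fin.zero_eta, Fin.mk_one, Fin.reduceFinMk, horth _ _ h01, horth _ _ h01.symm, horth _ _ h02,
        horth _ _ h02.symm, horth _ _ h12, horth _ _ h12.symm, mul_zero, zero_add, add_zero, mul_eq_zero] at hz <;>
      exact hz.resolve_right (hsame _)
  obtain ⟨k, r, hk⟩ : ∃ k : Fin 3, ∃ r, u = r • e (![i₀, i₁, i₂] k) := by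
    rcases eq_or_ne i i₀ with rfl | h0
    · exact ⟨0, c 0, by rw [← hc, hcoef i₁ 1 rfl h01.symm, hcoef i₂ 2 rfl h02.symm]; simp⟩
    rcases eq_or_ne i i₁ with rfl | h1
    · exact ⟨1, c 1, by rw [← hc, hcoef i₀ 0 rfl h01, hcoef i₂ 2 rfl h12.symm]; simp⟩
    · exact ⟨2, c 2, by rw [← hc, hcoef i₀ 0 rfl h0.symm, hcoef i₁ 1 rfl h1.symm]; simp⟩
  rw [hk, q_smul hQ, mul_eq_zero, pow_eq_zero_iff two_ne_zero] at hu
  rcases hu with h | h
  · exact hu0 (by rw [hk, h, zero_smul])
  · exact hee _ h

end CfsgLib.AschPrime
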