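import Cfsg.Agent.AschPrime.OrthCases
import Cfsg.Agent.AschPrime.OrthFrame
import Cfsg.Agent.Aschbacher.PrimeCore

/-! The geometric cases of a maximal subgroup of Omega in odd prime dimension. -/

set_option autoImplicit false
set_option linter.unusedSectionVars false

namespace CfsgLib.AschPrime

open Cfsg.Geo Module OrthGeo
open scoped Matrix MatrixGroups

variable {ι : Type} [Fintype ι] [DecidableEq ι] {F : Type*} [Field F] [Fintype F] {Q : (ι → F) → F}

omit [Fintype F] in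
lemma omegaGL_le_specialLinear (Q : (ι → F) → F) : omegaGL Q ≤ specialLinear ι F := by
  rintro _ ⟨g, hg, rfl⟩
  exact MonoidHom.mem_ker.2 (Abelianization.commutator_subset_ker
    (Matrix.GeneralLinearGroup.det.comp (Cfsg.isometryGroup F Q).subtype) hg)

theorem orth_prime_cases (hQ : IsNondegenerateQuadraticForm Q) (h2 : (2 : F) ≠ 0)
    (hp : (Fintype.card ι).Prime) (hn : Odd (Fintype.card ι)) (hn7 : 7 ≤ Fintype.card ι)
    (hdef : ∀ (F₀ : Subfield F) (a b : ι), gramMatrix (QuadraticMap.polar Q) a b ∈ F₀)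
    {n : ℕ} (num : ι ≃ Fin n) {H : Subgroup (GL ι F)} (hH : IsMaximalIn (omegaGL Q) H) :
    (∃ W : Submodule F (ι → F), W ≠ ⊥ ∧ IsTotallySingularQuad Q W ∧
      H = subspaceStabilizer W ⊓ omegaGL Q) ∨
    (∃ W : Submodule F (ι → F), W ≠ ⊥ ∧ Even (finrank F W) ∧ IsNondegenerateOn (QuadraticMap.polar Q) W ∧
      ¬ (Fintype.card F = 3 ∧ finrank F W = 2 ∧ IsPlusTypeOn Q W) ∧
      H = subspaceStabilizer W ⊓ omegaGL Q) ∨
    ((Fintype.card F).Prime ∧ ∃ D : Fin n → Submodule F (ι → F), IsOrthogonalMDecomposition Q 1 D ∧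
      H = decompositionStabilizer D ⊓ omegaGL Q) ∨
    (∃ (F₀ : Subfield F) (r : ℕ) (P : GL ι F), r.Prime ∧ Fintype.card F = Nat.card F₀ ^ r ∧
      IsQuadFormRationalStructure Q F₀ P ∧ H = subfieldSubgroup F₀ P ⊓ omegaGL Q) ∨
    InOrthogonalResidualClass H := by
  have : Nonempty ι := Fintype.card_pos_iff.1 hp.pos
  have hI : H ≤ Cfsg.isometryGroup F Q := hH.1.le.trans omegaGL_le
  by_cases hirr : ActsIrreducibly (matrixSet H)
  swap
  · obtain ⟨W, hW, h0, htop⟩ : ∃ W : Submodule F (ι → F), Aschbacher.IsInvariantUnder H W ∧ W ≠ ⊥ ∧ W ≠ ⊤ := by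
      by_contra h
      push Not at h
      exact hirr (Aschbacher.actsIrreducibly_of_forall fun W hW => or_iff_not_imp_left.2 (h W hW))
    rcases orth_reducible hQ h2 hn hn7 hH h0 htop
      (fun g hg v => ⟨fun hv => hW g hg v hv, fun hv => by simpa [Matrix.mulVec_mulVec] using hW g⁻¹ (inv_mem hg) _ hv⟩)
      with h | h
    exacts [Or.inl h, Or.inr (Or.inl h)]
  rcases Aschbacher.prime_dim_structure hp hn (hH.1.le.trans (omegaGL_le_specialLinear Q)) hirr with
    ⟨A, b, hA, -, -, hm, he, hs⟩ | ⟨A, hA, -, hK, -, hAK⟩ | ⟨R, hR, -, hHei⟩ | ⟨P, hP⟩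
  · rcases orth_frame_case hQ h2 hn (by omega) hdef num hH hA hirr b hm he hs with h | h
    exacts [Or.inr (Or.inr (Or.inl h)), Or.inr (Or.inr (Or.inr (Or.inl h)))]
  · exact (orth_field_false hQ h2 hn (by omega) (hA.trans hI) hK hAK).elim
  · exact (orth_heisenberg_false hQ h2 hn (hR.trans hI) hp (by omega) hHei.absIrred hHei.card_center).elim
  · rcases orth_core_case hQ h2 hn (by omega) hdef hH hP.le hP.normal hP.perfect hP.simple hP.nonabelian
      hP.centralizer_scalar hP.absIrred with h | h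
    exacts [Or.inr (Or.inr (Or.inr (Or.inl h))), Or.inr (Or.inr (Or.inr (Or.inr h)))]

/-- The number two is non-zero in a field of odd order. -/
lemma two_ne_zero_of_odd_card (hodd : Odd (Fintype.card F)) : (2 : F) ≠ 0 := by
  intro h
  obtain ⟨e, hp, hc⟩ := FiniteField.card F (ringChar F)
  have hd : ringChar F ∣ 2 := (ringChar.spec F 2).1 (by simpa using h)
  rw [hc, (Nat.prime_dvd_prime_iff_eq hp Nat.prime_two).1 hd] at hodd
  exact (Nat.not_odd_iff_even.2 (Nat.even_pow.2 ⟨even_two, e.pos.ne'⟩)) hodd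

end CfsgLib.AschPrime
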