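import Cfsg.Agent.AschPrime.OrthMembers
import Cfsg.Agent.AschPrime.Rational
import Cfsg.Agent.AschPrime.Twist

/-! Subfield structures for orthogonal groups in odd dimension and odd characteristic. -/

set_option autoImplicit false
set_option linter.unusedSectionVars false

namespace CfsgLib.AschPrime

open Cfsg.Geo Module OrthGeo
open scoped Matrix MatrixGroups

variable {ι : Type} [Fintype ι] [DecidableEq ι] {F : Type*} [Field F] [Fintype F] {Q : (ι → F) → F}

/-- An element of a subfield group with `(g - 1) ^ 3 = 0` has entries in the subfield. -/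
lemma rational_of_cube_zero [Nonempty ι] (h2 : (2 : F) ≠ 0) {F₀ : Subfield F} {P g : GL ι F}
    (hg : g ∈ subfieldSubgroup F₀ P)
    (hcube : (g.val - 1) * ((g.val - 1) * (g.val - 1)) = 0) :
    ∀ i j, (P⁻¹ * g * P : GL ι F).val i j ∈ F₀ := by
  classical
  obtain ⟨s, d, hsd⟩ := Aschbacher.mem_subfieldSubgroup_iff.1 hg
  obtain ⟨e, hpp, -⟩ := FiniteField.card F (ringChar F)
  set p := ringChar F with hp
  have := Fact.mk hpp
  have hp3 : 3 ≤ p := by
    have := hpp.two_le
    by_contra hlt
    have hp2 : p = 2 := by omega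
    refine h2 ?_
    have := CharP.cast_eq_zero F p
    rw [hp2] at this
    exact_mod_cast this
  set M := (P⁻¹ * g * P : GL ι F).val with hM
  set S : Matrix ι ι F := (s : Matrix ι ι F₀).map F₀.subtype with hS
  have hMS : M = (d : F) • S := by
    rw [hM, hsd, Units.val_mul]
    show S * Matrix.scalar ι (d : F) = _
    ext i j
    simp [Matrix.diagonal, Matrix.mul_apply, Finset.sum_ite_eq', mul_comm]
  have hMp : M ^ p = 1 := by
    have hNp : (g.val - 1) ^ p = 0 := by
      obtain ⟨m, hm⟩ : ∃ m, p = 3 + m := ⟨p - 3, by omega⟩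
      rw [hm, pow_add, pow_succ' _ 2, sq, hcube, zero_mul]
    have hgp : g.val ^ p = 1 := by
      have h := add_pow_char_of_commute (R := Matrix ι ι F) (p := p) (Commute.one_right (g.val - 1))
      rw [sub_add_cancel, hNp, one_pow, zero_add] at h
      exact h
    have h' : g ^ p = 1 := Units.ext (by simpa using hgp)
    have hconj : (P⁻¹ * g * P) ^ p = 1 := by
      have := conj_pow (i := p) (a := P⁻¹) (b := g)
      rw [inv_inv, h'] at this
      simpa using this
    rw [hM, ← Units.val_pow_eq_pow_val, hconj, Units.val_one]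
  have hSp : S ^ p = ((s : Matrix ι ι F₀) ^ p).map F₀.subtype := by
    rw [hS]
    exact (map_pow F₀.subtype.mapMatrix _ p).symm
  have hdp : (d : F) ^ p ∈ F₀ := by
    rw [hMS, smul_pow, hSp] at hMp
    obtain ⟨i⟩ := ‹Nonempty ι›
    have h := congrFun (congrFun hMp i) i
    rw [Matrix.smul_apply, Matrix.one_apply_eq, smul_eq_mul, Matrix.map_apply] at h
    rw [eq_inv_of_mul_eq_one_left h]
    exact F₀.inv_mem (SetLike.coe_mem _)
  have hd : (d : F) ∈ F₀ := by
    obtain ⟨x, hx⟩ := (frobenius_inj F₀ p).bijective_of_finite.2 ⟨_, hdp⟩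
    have hx' : ((x : F₀) : F) ^ p = (d : F) ^ p := by simpa [frobenius_def] using congrArg Subtype.val hx
    rw [← frobenius_inj F p hx']
    exact x.2
  intro i j
  rw [hMS, Matrix.smul_apply, smul_eq_mul]
  exact F₀.mul_mem hd ((s : Matrix ι ι F₀) i j).2

variable (hQ : IsNondegenerateQuadraticForm Q) (h2 : (2 : F) ≠ 0)
include hQ h2

/-- Omega lies in no subfield group of a proper subfield. -/
theorem omega_not_le_subfieldSubgroup (hn : 5 ≤ Fintype.card ι) {F₀ : Subfield F} (h0 : F₀ ≠ ⊤) (P : GL ι F) :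
    ¬ omegaGL Q ≤ subfieldSubgroup F₀ P := by
  classical
  intro hle
  have : Nonempty ι := Fintype.card_pos_iff.1 (by omega)
  obtain ⟨u, -, hu0, hu⟩ := exists_singular hQ (S := ⊤) (by rw [finrank_top, finrank_fintype_fun_eq_card]; omega)
  obtain ⟨a, hua, haa⟩ : ∃ a, bform hQ u a = 0 ∧ Q a ≠ 0 := by
    by_contra h
    push Not at h
    have h1 := two_mul_finrank_le hQ (S := perp hQ (Submodule.span F {u})) (fun x hx =>
      h x ((mem_perp_span_singleton hQ).1 hx))
    have h2 := finrank_perp_add hQ (Submodule.span F {u})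
    rw [finrank_span_singleton hu0] at h2
    omega
  have hau : bform hQ a u = 0 := by rw [b_symm hQ, hua]
  have huu : bform hQ u u = 0 := by rw [b_self hQ, hu, mul_zero]
  have hrat : ∀ (c : F) (i j : ι), ((P⁻¹ : GL ι F).val * (eichlerMat Q u (c • a) * P.val)) i j ∈ F₀ := by
    intro c i j
    have hw : bform hQ u (c • a) = 0 := by rw [map_smul, hua, smul_zero]
    have hN : ∀ z, ((eichler hQ hu hw).val - 1) *ᵥ z =
        bform hQ (c • a) z • u - bform hQ u z • (c • a) - (Q (c • a) * bform hQ u z) • u := fun z => by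
      rw [Matrix.sub_mulVec, eichler_mulVec hQ, Matrix.one_mulVec]; abel
    have hcube : ((eichler hQ hu hw).val - 1) * (((eichler hQ hu hw).val - 1) * ((eichler hQ hu hw).val - 1)) = 0 := by
      refine Matrix.ext_of_mulVec_single fun k => ?_
      rw [← Matrix.mulVec_mulVec, ← Matrix.mulVec_mulVec, hN, hN, hN, Matrix.zero_mulVec]
      simp only [map_sub, map_smul, LinearMap.smul_apply, smul_eq_mul, huu, hua, hau, mul_zero, zero_mul,
        zero_smul, sub_zero, zero_sub, neg_zero, mul_neg, neg_smul, neg_neg, sub_self, map_neg, LinearMap.neg_apply]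
    have := rational_of_cube_zero h2 (hle (eichler_mem_omega hQ hn hu hw)) hcube i j
    rwa [Units.val_mul, Units.val_mul, mul_assoc] at this
  set B := (P⁻¹ : GL ι F).val *
    ((Matrix.vecMulVec u (Cfsg.polarVec Q a) - Matrix.vecMulVec a (Cfsg.polarVec Q u)) * P.val) with hB
  have hBc : ∀ (c : F) (i j : ι), 2 * c * B i j ∈ F₀ := by
    intro c i j
    have hp := hrat c i j
    have hm := hrat (-c) i j
    have e : eichlerMat Q u (c • a) - eichlerMat Q u ((-c) • a) =
        (2 * c) • (Matrix.vecMulVec u (Cfsg.polarVec Q a) - Matrix.vecMulVec a (Cfsg.polarVec Q u)) := by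
      refine Matrix.ext_of_mulVec_single fun k => ?_
      rw [Matrix.sub_mulVec, eichlerMat_mulVec hQ, eichlerMat_mulVec hQ, Matrix.smul_mulVec, Matrix.sub_mulVec,
        Matrix.vecMulVec_mulVec, Matrix.vecMulVec_mulVec, polarVec_dot hQ, polarVec_dot hQ, op_smul_eq_smul,
        op_smul_eq_smul]
      simp only [map_smul, LinearMap.smul_apply, smul_eq_mul, q_smul hQ, neg_pow_two]
      module
    have := F₀.sub_mem hp hm
    rw [← Matrix.sub_apply, ← mul_sub, ← sub_mul, e, Matrix.smul_mul, Matrix.mul_smul, Matrix.smul_apply, ← hB,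
      smul_eq_mul] at this
    exact this
  obtain ⟨i, j, hij⟩ : ∃ i j, B i j ≠ 0 := by
    by_contra h
    push Not at h
    have hz : (P.val * B * (P⁻¹ : GL ι F).val) = 0 := by
      rw [show B = 0 from Matrix.ext h, mul_zero, zero_mul]
    rw [hB, ← mul_assoc P.val, ← Units.val_mul, mul_inv_cancel, Units.val_one, one_mul, mul_assoc, ← Units.val_mul,
      mul_inv_cancel, Units.val_one, mul_one] at hz
    obtain ⟨⟨y, hy⟩, -⟩ := hQ.nondegenerate u hu0
    change bform hQ y u ≠ 0 at hy
    rw [b_symm hQ] at hy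
    have h1 := congrArg (fun N => bform hQ a (N *ᵥ y)) hz
    simp only [Matrix.sub_mulVec, Matrix.vecMulVec_mulVec, polarVec_dot hQ, op_smul_eq_smul, map_sub, map_smul, hau,
      smul_eq_mul, mul_zero, zero_sub, Matrix.zero_mulVec, map_zero, neg_eq_zero, mul_eq_zero, b_self hQ] at h1
    rcases h1 with h1 | h1 | h1
    exacts [hy h1, h2 h1, haa h1]
  refine h0 (eq_top_iff.2 fun x _ => ?_)
  have h := hBc (x / (2 * B i j)) i j
  rwa [show 2 * (x / (2 * B i j)) * B i j = x by field_simp] at h

omit hQ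

/-- Either a proper subfield of prime index has odd index, and then every value can be scaled into it by a
square, or it has index two and squares suffice. -/
lemma exists_scale {F₀ : Subfield F} {r : ℕ} (hr : r.Prime) (hcard : Fintype.card F = Nat.card F₀ ^ r) {g : F}
    (hg : g ≠ 0) (hsq : r = 2 → IsSquare g) : ∃ l : F, l ≠ 0 ∧ l ^ 2 * g ∈ F₀ := by
  classical
  by_cases hs : IsSquare g
  · obtain ⟨t, rfl⟩ := hs
    have ht : t ≠ 0 := fun h => hg (by simp [h])
    exact ⟨t⁻¹, inv_ne_zero ht, by rw [show t⁻¹ ^ 2 * (t * t) = 1 by field_simp]; exact F₀.one_mem⟩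
  · have hodd : Odd r := hr.odd_of_ne_two fun h => hs (hsq h)
    have : Fintype F₀ := Fintype.ofFinite _
    have hF2 : ringChar F ≠ 2 := fun h => h2 (by
      have : CharP F 2 := h ▸ ringChar.charP F
      exact CharTwo.two_eq_zero)
    have hF02 : ringChar F₀ ≠ 2 := by
      have : CharP F₀ (ringChar F) := F₀.subtype.charP F₀.subtype.injective (ringChar F)
      rwa [ringChar.eq F₀ (ringChar F)]
    obtain ⟨ν, hν⟩ := FiniteField.exists_nonsquare hF02
    have hν0 : (ν : F) ≠ 0 := fun h => hν (by rw [show ν = 0 from Subtype.ext h]; exact IsSquare.zero)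
    -- a non-square of the subfield stays a non-square
    have hνF : ¬ IsSquare (ν : F) := by
      rw [FiniteField.isSquare_iff hF2 hν0, hcard, ← Fintype.card_eq_nat_card]
      have hneg : (ν : F) ^ (Fintype.card F₀ / 2) = -1 := by
        have h := FiniteField.pow_dichotomy hF02 (show ν ≠ 0 from fun h => hν0 (by simp [h]))
        rw [← FiniteField.isSquare_iff hF02 (show ν ≠ 0 from fun h => hν0 (by simp [h]))] at h
        simpa using congrArg Subtype.val (h.resolve_left hν)
      set q₀ := Fintype.card F₀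
      have hq0 : q₀ % 2 = 1 := FiniteField.odd_card_of_char_ne_two hF02
      obtain ⟨m, hm⟩ : ∃ m, q₀ = 2 * m + 1 := ⟨q₀ / 2, by omega⟩
      have hdiv : ∀ k, q₀ ^ k / 2 = m * ∑ i ∈ Finset.range k, q₀ ^ i := by
        intro k
        have hgeom : q₀ ^ k = (2 * m) * (∑ i ∈ Finset.range k, q₀ ^ i) + 1 := by
          rw [hm, ← geom_sum_mul_add (2 * m) k]; ring
        rw [hgeom]
        rw [mul_assoc]
        omega
      have hm2 : q₀ / 2 = m := by omega
      have hoddsum : ∀ k, (∑ i ∈ Finset.range k, q₀ ^ i) % 2 = k % 2 := by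
        intro k
        induction k with
        | zero => simp
        | succ k ih =>
          have : q₀ ^ k % 2 = 1 := by rw [Nat.pow_mod, hq0]; simp
          rw [Finset.sum_range_succ]; omega
      rw [hdiv, pow_mul, ← hm2, hneg, Odd.neg_one_pow (Nat.odd_iff.2 (by rw [hoddsum]; exact Nat.odd_iff.1 hodd))]
      intro h
      exact h2 (by linear_combination -h)
    -- the product of two non-squares is a square
    have hprod : IsSquare (g * ν) := by
      rw [FiniteField.isSquare_iff hF2 (mul_ne_zero hg hν0), mul_pow]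
      have hgn := FiniteField.pow_dichotomy hF2 hg
      have hνn := FiniteField.pow_dichotomy hF2 hν0
      rw [← FiniteField.isSquare_iff hF2 hg] at hgn
      rw [← FiniteField.isSquare_iff hF2 hν0] at hνn
      rw [hgn.resolve_left hs, hνn.resolve_left hνF, neg_one_mul, neg_neg]
    obtain ⟨t, ht⟩ := hprod
    have ht0 : t ≠ 0 := fun h => mul_ne_zero hg hν0 (by rw [ht, h, mul_zero])
    refine ⟨(ν : F) / t, div_ne_zero hν0 ht0, ?_⟩
    rw [show ((ν : F) / t) ^ 2 * g = (ν : F) by field_simp; linear_combination ht]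
    exact ν.2

/-- In index two every element of the subfield is a square. -/
lemma isSquare_of_mem {F₀ : Subfield F} (hcard : Fintype.card F = Nat.card F₀ ^ 2) {x : F} (hx : x ∈ F₀) :
    IsSquare x := by
  classical
  rcases eq_or_ne x 0 with rfl | h0
  · exact IsSquare.zero
  have : Fintype F₀ := Fintype.ofFinite _
  have hF2 : ringChar F ≠ 2 := fun h => h2 (by
    have : CharP F 2 := h ▸ ringChar.charP F
    exact CharTwo.two_eq_zero)
  rw [FiniteField.isSquare_iff hF2 h0, hcard, ← Fintype.card_eq_nat_card]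
  have h1 : x ^ (Fintype.card F₀ - 1) = 1 := by
    simpa using congrArg Subtype.val (FiniteField.pow_card_sub_one_eq_one (⟨x, hx⟩ : F₀) (fun h => h0 (congrArg Subtype.val h)))
  have h2' := FiniteField.odd_card_of_char_ne_two hF2
  rw [hcard, ← Fintype.card_eq_nat_card] at h2'
  set q₀ := Fintype.card F₀
  have hq0 : q₀ % 2 = 1 := by
    rw [Nat.pow_mod] at h2'
    rcases Nat.mod_two_eq_zero_or_one q₀ with h | h
    · rw [h] at h2'; simp at h2'
    · exact h
  obtain ⟨m, hm⟩ : ∃ m, q₀ = 2 * m + 1 := ⟨q₀ / 2, by omega⟩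
  have hdiv : q₀ ^ 2 / 2 = (q₀ - 1) * (m + 1) := by
    rw [show q₀ - 1 = 2 * m by omega, show q₀ ^ 2 = 2 * (2 * m * (m + 1)) + 1 by rw [hm]; ring]
    omega
  rw [hdiv, pow_mul, h1, one_pow]

include hQ

/-- An absolutely irreducible orthogonal group realised over a subfield has a rational structure carrying
the form, provided the form itself is defined over every subfield. -/
theorem exists_quad_rational [Nonempty ι] (hodd : Odd (Fintype.card ι))
    (hdef : ∀ (F₀ : Subfield F) (a b : ι), gramMatrix (QuadraticMap.polar Q) a b ∈ F₀)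
    {F₀ : Subfield F} {r : ℕ} (hr : r.Prime) (hcard : Fintype.card F = Nat.card F₀ ^ r) {P : Subgroup (GL ι F)}
    (hP : ActsAbsolutelyIrreducibly (matrixSet P)) (hPO : P ≤ Cfsg.isometryGroup F Q) {B : GL ι F}
    (hB : ∀ s ∈ matrixSet P, ∀ i j, (B.val * s * (B⁻¹ : GL ι F).val) i j ∈ F₀) :
    ∃ P' : GL ι F, IsQuadFormRationalStructure Q F₀ P' ∧ subfieldSubgroup F₀ P' = subfieldSubgroup F₀ B⁻¹ := by
  classical
  have hsesq := Aschbacher.IsSesquiForm.of_bilinear hQ.polar_bilinear
  have hfixB : FixesForm (matrixSet P) (QuadraticMap.polar Q) := by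
    rintro _ ⟨g, hg, rfl⟩ x y
    exact isometry_b hQ (hPO hg) x y
  set M := (B⁻¹ : GL ι F).val with hM
  set G : Matrix ι ι F := fun a b => QuadraticMap.polar Q (M *ᵥ Pi.single a 1) (M *ᵥ Pi.single b 1) with hG
  have hGmat : G = Mᵀ * gramMatrix (QuadraticMap.polar Q) * M := by
    ext a b
    rw [hG]
    simp only
    rw [hsesq.eq_dot, Matrix.mulVec_single_one, Matrix.mulVec_single_one, Matrix.mul_assoc]
    rfl
  have hdetM : M.det ≠ 0 := ((Matrix.isUnit_iff_isUnit_det _).1 (B⁻¹).isUnit).ne_zero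
  have hdetQ := Aschbacher.det_gramMatrix_ne_zero hsesq hQ.nondegenerate
  have hGdet : G.det ≠ 0 := by
    rw [hGmat, Matrix.det_mul, Matrix.det_mul, Matrix.det_transpose]
    exact mul_ne_zero (mul_ne_zero hdetM hdetQ) hdetM
  obtain ⟨i, j, hij⟩ : ∃ i j, G i j ≠ 0 := by
    by_contra h
    push Not at h
    exact hGdet (by rw [show G = 0 from Matrix.ext h, Matrix.det_zero])
  have hratio : ∀ a b, G a b / G i j ∈ F₀ := fun a b =>
    gram_ratio_mem (σ := RingHom.id F) (fun x hx => hx) hP hsesq hQ.nondegenerate hfixB hB hij a b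
  obtain ⟨l, hl0, hl⟩ := exists_scale h2 hr hcard hij fun hr2 => by
    subst hr2
    -- the determinant makes the proportionality factor a square
    set X : Matrix ι ι F := Matrix.of fun a b => G a b / G i j with hXdef
    have hX : X.det ∈ F₀ := by
      rw [show X = (Matrix.of fun a b => (⟨_, hratio a b⟩ : F₀)).map F₀.subtype from rfl,
        ← RingHom.mapMatrix_apply, ← RingHom.map_det]
      exact SetLike.coe_mem _
    have hD : (gramMatrix (QuadraticMap.polar Q)).det ∈ F₀ := by
      rw [show gramMatrix (QuadraticMap.polar Q) =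
        (Matrix.of fun a b => (⟨_, hdef F₀ a b⟩ : F₀)).map F₀.subtype from rfl, ← RingHom.mapMatrix_apply,
        ← RingHom.map_det]
      exact SetLike.coe_mem _
    have hGX : G = G i j • X := by
      ext a b; simp only [hXdef, Matrix.smul_apply, Matrix.of_apply, smul_eq_mul]; field_simp
    have hX0 : X.det ≠ 0 := fun h => hGdet (by rw [hGX, Matrix.det_smul, h, mul_zero])
    have e := congrArg Matrix.det hGX
    rw [Matrix.det_smul, hGmat, Matrix.det_mul, Matrix.det_mul, Matrix.det_transpose, ← hGmat] at e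
    obtain ⟨k, hk⟩ := hodd
    rw [hk] at e
    obtain ⟨s, hs⟩ := isSquare_of_mem h2 hcard (F₀.div_mem hD hX)
    rw [div_eq_iff hX0] at hs
    refine ⟨M.det * s / (G i j) ^ k, ?_⟩
    field_simp
    rw [hs] at e
    have e' : M.det ^ 2 * (s * s) = G i j ^ (2 * k + 1) := mul_right_cancel₀ hX0 (by linear_combination e)
    linear_combination -e'
  let z : GL ι F := Units.map (Matrix.scalar ι : F →+* Matrix ι ι F).toMonoidHom (Units.mk0 l hl0)
  refine ⟨B⁻¹ * z, fun u hu => ?_, subfieldSubgroup_mul_scalar F₀ _ ⟨_, rfl⟩⟩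
  have hz : (B⁻¹ * z : GL ι F).val *ᵥ u = l • (M *ᵥ u) := by
    rw [Units.val_mul, ← Matrix.mulVec_mulVec, ← Matrix.mulVec_smul]
    congr 1
    ext k
    simp [z, Matrix.mulVec_diagonal]
  have h2F₀ : (2 : F) ∈ F₀ := by rw [← one_add_one_eq_two]; exact F₀.add_mem F₀.one_mem F₀.one_mem
  have hQu : Q ((B⁻¹ * z : GL ι F).val *ᵥ u) =
      (∑ a, ∑ b, (l ^ 2 * G i j) * (u a * u b * (G a b / G i j))) / 2 := by
    rw [hz, q_smul hQ, eq_div_iff h2]
    have hd : M *ᵥ u = ∑ a, u a • (M *ᵥ Pi.single a 1) := by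
      conv_lhs => rw [pi_eq_sum_univ' u]
      simp [Matrix.mulVec_sum, Matrix.mulVec_smul]
    have hexp : bform hQ (M *ᵥ u) (M *ᵥ u) = ∑ a, ∑ b, u a * u b * G a b := by
      rw [hd]
      simp only [map_sum, map_smul, LinearMap.sum_apply, LinearMap.smul_apply, smul_eq_mul, Finset.mul_sum]
      rw [Finset.sum_comm]
      refine Finset.sum_congr rfl fun a _ => Finset.sum_congr rfl fun b _ => ?_
      rw [bform_apply]
      simp only [G]
      ring
    rw [b_self hQ] at hexp
    rw [mul_assoc, mul_comm (Q (M *ᵥ u)) 2, hexp, Finset.mul_sum]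
    refine Finset.sum_congr rfl fun a _ => ?_
    rw [Finset.mul_sum]
    refine Finset.sum_congr rfl fun b _ => ?_
    field_simp
  rw [hQu]
  exact F₀.div_mem (sum_mem fun a _ => sum_mem fun b _ =>
    mul_mem hl (mul_mem (mul_mem (hu a) (hu b)) (hratio a b))) h2F₀

end CfsgLib.AschPrime
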