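import Cfsg.Agent.AschPrime.UnitaryBasic
import Mathlib.LinearAlgebra.Matrix.Determinant.Basic

/-! Arithmetic of matrices over a field of order `p ^ 2` through numerical codes, so that finitely many
identities can be checked by evaluation. -/

set_option autoImplicit false
set_option linter.unusedSectionVars false

namespace CfsgLib.AschPrime

open Cfsg.Geo
open scoped Matrix MatrixGroups

/-- A quadratic polynomial `X ^ 2 - r X - s` over the integers modulo `p`. -/
structure QTable where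
  p : ℕ
  r : ℕ
  s : ℕ

namespace QTable

variable (T : QTable)

def add (x y : ℕ) : ℕ := (x % T.p + y % T.p) % T.p + T.p * ((x / T.p + y / T.p) % T.p)

def mul (x y : ℕ) : ℕ :=
  (x % T.p * (y % T.p) + T.s * (x / T.p * (y / T.p))) % T.p +
    T.p * ((x % T.p * (y / T.p) + x / T.p * (y % T.p) + T.r * (x / T.p * (y / T.p))) % T.p)

def conj (x : ℕ) : ℕ :=
  (x % T.p + T.r * (x / T.p)) % T.p + T.p * ((T.p - 1) * (x / T.p) % T.p)

def negOne : ℕ := T.p - 1

def lsum (l : List ℕ) : ℕ := l.foldr T.add 0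

def dot {n : ℕ} (u v : Fin n → ℕ) : ℕ := T.lsum (List.ofFn fun i => T.mul (u i) (v i))

def mv {n : ℕ} (g : Fin n → Fin n → ℕ) (v : Fin n → ℕ) (i : Fin n) : ℕ := T.dot (g i) v

def mm {n : ℕ} (g k : Fin n → Fin n → ℕ) (i j : Fin n) : ℕ := T.dot (g i) fun l => k l j

def herm {n : ℕ} (u v : Fin n → ℕ) : ℕ := T.dot u fun i => T.conj (v i)

def det : {n : ℕ} → (Fin n → Fin n → ℕ) → ℕ
  | 0, _ => 1
  | m + 1, A => T.lsum (List.ofFn fun j : Fin (m + 1) =>
      T.mul (T.mul (if (j : ℕ) % 2 = 0 then 1 else T.negOne) (A 0 j))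
        (det fun a b => A a.succ (j.succAbove b)))

/-- The columns are orthonormal. -/
def IsUnitaryCode {n : ℕ} (g : Fin n → Fin n → ℕ) : Prop :=
  ∀ i j : Fin n, T.herm (fun l => g l i) (fun l => g l j) = if i = j then 1 else 0

instance {n : ℕ} (g : Fin n → Fin n → ℕ) : Decidable (T.IsUnitaryCode g) := by
  unfold IsUnitaryCode; infer_instance

/-- A field of order `p ^ 2` presented by the table. -/
structure Rep (F : Type*) [Field F] [Fintype F] where
  hp : T.p.Prime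
  hchar : CharP F T.p
  hcard : Fintype.card F = T.p ^ 2
  ω : F
  hω : ω ^ 2 = (T.r : F) * ω + (T.s : F)
  hconj : ω ^ T.p = (T.r : F) - ω
  noRoot : ∀ a, a < T.p → (a * a) % T.p ≠ (T.r * a + T.s) % T.p

namespace Rep

variable {T} {F : Type*} [Field F] [Fintype F] (R : T.Rep F)

/-- The element with a given code. -/
def φ (x : ℕ) : F := ((x % T.p : ℕ) : F) + ((x / T.p : ℕ) : F) * R.ω

include R in
lemma cast_mod (a : ℕ) : ((a % T.p : ℕ) : F) = (a : F) := by
  have := R.hchar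
  conv_rhs => rw [← Nat.mod_add_div a T.p]
  simp

lemma φ_code (a b : ℕ) : R.φ (a % T.p + T.p * b) = (a : F) + (b : F) * R.ω := by
  have hpp := R.hp.pos
  rw [φ, Nat.add_mul_mod_self_left, Nat.mod_mod, R.cast_mod, Nat.add_mul_div_left _ _ hpp,
    Nat.div_eq_of_lt (Nat.mod_lt _ hpp), zero_add]

lemma φ_eq (x : ℕ) : R.φ x = (x : F) + ((x / T.p : ℕ) : F) * R.ω := by rw [φ, R.cast_mod]

@[simp] lemma φ_zero : R.φ 0 = 0 := by simp [φ]

@[simp] lemma φ_one : R.φ 1 = 1 := by
  simp [φ, Nat.mod_eq_of_lt R.hp.one_lt, Nat.div_eq_of_lt R.hp.one_lt]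

lemma φ_negOne : R.φ T.negOne = -1 := by
  have := R.hchar
  rw [φ, negOne, Nat.mod_eq_of_lt (Nat.sub_lt R.hp.pos one_pos), Nat.div_eq_of_lt (Nat.sub_lt R.hp.pos one_pos),
    Nat.cast_sub R.hp.one_le]
  simp

lemma φ_add (x y : ℕ) : R.φ (T.add x y) = R.φ x + R.φ y := by
  rw [add, R.φ_code]
  push_cast [R.cast_mod, φ]
  ring

lemma φ_mul (x y : ℕ) : R.φ (T.mul x y) = R.φ x * R.φ y := by
  rw [mul, R.φ_code]
  push_cast [R.cast_mod, φ]
  linear_combination (-((x / T.p : ℕ) : F) * ((y / T.p : ℕ) : F)) * R.hω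

lemma φ_conj (x : ℕ) : R.φ (T.conj x) = R.φ x ^ T.p := by
  have := R.hchar
  have := Fact.mk R.hp
  rw [conj, R.φ_code]
  push_cast [R.cast_mod, φ, Nat.cast_sub R.hp.one_le]
  rw [add_pow_char, mul_pow, R.hconj]
  simp only [← frobenius_def, map_natCast]
  simp only [CharP.cast_eq_zero F T.p]
  ring

lemma φ_lsum (l : List ℕ) : R.φ (T.lsum l) = (l.map R.φ).sum := by
  induction l with
  | nil => simp [lsum]
  | cons a l ih => rw [lsum, List.foldr_cons, R.φ_add, List.map_cons, List.sum_cons, ← ih]; rfl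

lemma φ_dot {n : ℕ} (u v : Fin n → ℕ) : R.φ (T.dot u v) = ∑ i, R.φ (u i) * R.φ (v i) := by
  rw [dot, R.φ_lsum, List.map_ofFn, List.sum_ofFn]
  simp [R.φ_mul]

/-- The matrix with given codes. -/
def mat {n : ℕ} (A : Fin n → Fin n → ℕ) : Matrix (Fin n) (Fin n) F := Matrix.of fun i j => R.φ (A i j)

/-- The vector with given codes. -/
def vec {n : ℕ} (u : Fin n → ℕ) : Fin n → F := fun i => R.φ (u i)

@[simp] lemma mat_apply {n : ℕ} (A : Fin n → Fin n → ℕ) (i j : Fin n) : R.mat A i j = R.φ (A i j) := rfl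

lemma vec_mv {n : ℕ} (g : Fin n → Fin n → ℕ) (v : Fin n → ℕ) : R.vec (T.mv g v) = R.mat g *ᵥ R.vec v :=
  funext fun i => R.φ_dot _ _

lemma mat_mm {n : ℕ} (g k : Fin n → Fin n → ℕ) : R.mat (T.mm g k) = R.mat g * R.mat k := by
  ext i j
  rw [Matrix.mul_apply]
  exact R.φ_dot _ _

lemma φ_herm {n : ℕ} (u v : Fin n → ℕ) :
    R.φ (T.herm u v) = Cfsg.hermForm n F T.p (R.vec u) (R.vec v) := by
  rw [QTable.herm, R.φ_dot]
  simp [Cfsg.hermForm, vec, R.φ_conj]

lemma det_mat : ∀ {n : ℕ} (A : Fin n → Fin n → ℕ), (R.mat A).det = R.φ (T.det A)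
  | 0, A => by simp [QTable.det]
  | m + 1, A => by
    rw [Matrix.det_succ_row_zero, QTable.det, R.φ_lsum, List.map_ofFn, List.sum_ofFn]
    refine Finset.sum_congr rfl fun j _ => ?_
    simp only [Function.comp_apply, R.φ_mul, mat_apply]
    rw [← det_mat fun a b => A a.succ (j.succAbove b)]
    congr 1
    congr 1
    rcases Nat.even_or_odd (j : ℕ) with h | h
    · rw [if_pos (Nat.even_iff.1 h), h.neg_one_pow, R.φ_one]
    · rw [if_neg (by rw [Nat.odd_iff.1 h]; omega), h.neg_one_pow, R.φ_negOne]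

lemma φ_injective {x y : ℕ} (hx : x < T.p ^ 2) (hy : y < T.p ^ 2) (h : R.φ x = R.φ y) : x = y := by
  have := R.hchar
  have := Fact.mk R.hp
  have hxd : x / T.p < T.p := Nat.div_lt_of_lt_mul (by rwa [← sq])
  have hyd : y / T.p < T.p := Nat.div_lt_of_lt_mul (by rwa [← sq])
  have hbb : ((x / T.p : ℕ) : F) = ((y / T.p : ℕ) : F) := by
    by_contra hne
    let c : ZMod T.p := ((y % T.p : ℕ) - (x % T.p : ℕ) : ZMod T.p) * ((x / T.p : ℕ) - (y / T.p : ℕ) : ZMod T.p)⁻¹
    have hcω : ZMod.castHom dvd_rfl F c = R.ω := by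
      simp only [c, map_mul, map_sub, map_inv₀, map_natCast]
      rw [← div_eq_mul_inv, div_eq_iff (sub_ne_zero.2 hne)]
      simp only [φ] at h
      linear_combination -h
    have hc : c * c = (T.r : ZMod T.p) * c + T.s :=
      (ZMod.castHom dvd_rfl F).injective (by simp only [map_mul, map_add, map_natCast, hcω]; linear_combination R.hω)
    refine R.noRoot c.val c.val_lt ?_
    have : ((c.val * c.val : ℕ) : ZMod T.p) = ((T.r * c.val + T.s : ℕ) : ZMod T.p) := by
      push_cast [ZMod.natCast_zmod_val]; exact hc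
    exact (ZMod.natCast_eq_natCast_iff' _ _ _).1 this
  simp only [φ, hbb, add_left_inj] at h
  have e1 := Nat.ModEq.eq_of_lt_of_lt ((CharP.natCast_eq_natCast F T.p).1 hbb) hxd hyd
  have e2 := Nat.ModEq.eq_of_lt_of_lt ((CharP.natCast_eq_natCast F T.p).1 h) (Nat.mod_lt _ R.hp.pos) (Nat.mod_lt _ R.hp.pos)
  rw [← Nat.div_add_mod x T.p, ← Nat.div_add_mod y T.p, e1, e2]

lemma φ_surjective (a : F) : ∃ x, x < T.p ^ 2 ∧ R.φ x = a := by
  have hinj : Function.Injective fun x : Fin (T.p ^ 2) => R.φ x :=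
    fun x y h => Fin.ext (R.φ_injective x.2 y.2 h)
  obtain ⟨x, hx⟩ := ((Fintype.bijective_iff_injective_and_card _).2 ⟨hinj, by simp [R.hcard]⟩).2 a
  exact ⟨x, x.2, hx⟩

/-- Matrices with orthonormal columns lie in the unitary group. -/
lemma mem_GU_of_code {n : ℕ} {g : GL (Fin n) F} {A : Fin n → Fin n → ℕ} (hA : g.val = R.mat A)
    (h : T.IsUnitaryCode A) : g ∈ Cfsg.GU n F T.p := by
  have hcol : ∀ i j, ∑ l, g.val l i * g.val l j ^ T.p = if i = j then 1 else 0 := by
    intro i j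
    have := congrArg R.φ (h i j)
    rw [R.φ_herm] at this
    rw [hA]
    simpa [Cfsg.hermForm, vec, apply_ite R.φ] using this
  refine mem_GU.2 fun u v => ?_
  simp only [Cfsg.hermForm, Matrix.mulVec, dotProduct, q_sum_pow R.hcard, mul_pow]
  calc ∑ l, (∑ i, g.val l i * u i) * ∑ j, g.val l j ^ T.p * v j ^ T.p
      = ∑ i, ∑ j, (u i * v j ^ T.p) * ∑ l, g.val l i * g.val l j ^ T.p := by
        simp only [Finset.sum_mul_sum]
        rw [Finset.sum_comm]
        refine Finset.sum_congr rfl fun i _ => ?_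
        rw [Finset.sum_comm]
        simp only [Finset.mul_sum]
        exact Finset.sum_congr rfl fun j _ => Finset.sum_congr rfl fun l _ => by ring
    _ = ∑ i, u i * v i ^ T.p := by simp [hcol]

end Rep

end QTable

end CfsgLib.AschPrime
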