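import Cfsg.Agent.AschPrime.FieldCycle
import Cfsg.Agent.AschPrime.LineStab
import Cfsg.Agent.AschPrime.CycleTransport

/-! Tools shared by the exceptional cases of the three-dimensional unitary groups. -/

set_option autoImplicit false
set_option linter.unusedSectionVars false

namespace CfsgLib.AschPrime.Three

open Cfsg.Geo Polynomial
open scoped Matrix MatrixGroups

variable {F : Type*} [Field F] [Fintype F] {n : ℕ}

/-- Orthonormal vectors are the columns of an isometry. -/
lemma exists_isometry_of_orthonormal {q : ℕ} (hF : Fintype.card F = q ^ 2) (u : Fin n → Fin n → F)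
    (hu : ∀ i j, Cfsg.hermForm n F q (u i) (u j) = if i = j then 1 else 0) :
    ∃ V : GL (Fin n) F, V ∈ Cfsg.GU n F q ∧ ∀ i, V.val *ᵥ Pi.single i 1 = u i := by
  set M : Matrix (Fin n) (Fin n) F := Matrix.of fun r c => u c r
  have hM : ∀ x y, Cfsg.hermForm n F q (M *ᵥ x) (M *ᵥ y) = Cfsg.hermForm n F q x y := by
    intro x y
    rw [herm_mulVec_sum hF]
    refine Finset.sum_congr rfl fun i _ => ?_
    rw [Finset.sum_eq_single i]
    · show _ * Cfsg.hermForm n F q (u i) (u i) = _
      rw [hu, if_pos rfl, mul_one]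
    · intro j _ hj
      show _ * Cfsg.hermForm n F q (u i) (u j) = _
      rw [hu, if_neg hj.symm, mul_zero]
    · simp
  have hunit : IsUnit M := by
    refine Matrix.mulVec_injective_iff_isUnit.1 fun x y h => sub_eq_zero.1 (herm_nondeg hF fun z => ?_)
    rw [← hM, Matrix.mulVec_sub, h, sub_self, herm_zero_left]
  obtain ⟨V, hV⟩ := hunit
  refine ⟨V, mem_GU.2 fun x y => by rw [hV]; exact hM x y, fun i => ?_⟩
  rw [hV, Matrix.mulVec_single_one]
  rfl

/-- Conjugation by an isometry normalises the special unitary group. -/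
lemma conj_mem_SU_iff {q : ℕ} {g : GL (Fin n) F} (hg : g ∈ Cfsg.GU n F q) (x : GL (Fin n) F) :
    g * x * g⁻¹ ∈ Cfsg.GU n F q ⊓ specialLinear (Fin n) F ↔ x ∈ Cfsg.GU n F q ⊓ specialLinear (Fin n) F := by
  have hdet : g * x * g⁻¹ ∈ specialLinear (Fin n) F ↔ x ∈ specialLinear (Fin n) F := by
    simp [specialLinear, MonoidHom.mem_ker]
  simp only [Subgroup.mem_inf, hdet]
  exact and_congr_left' ⟨fun h => by simpa [mul_assoc] using mul_mem (mul_mem (inv_mem hg) h) hg,
    fun h => mul_mem (mul_mem hg h) (inv_mem hg)⟩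

/-- The stabiliser of a family of lines contains the scalar multiples of its members. -/
lemma lineStab_smul {ι : Type} [Fintype ι] [DecidableEq ι] {κ : Type*} {S : κ → ι → F} {g g' : GL ι F}
    (hg : g ∈ lineStab S) {c : F} (h : g'.val = c • g.val) : g' ∈ lineStab S := fun i => by
  obtain ⟨j, d, hj⟩ := hg i
  exact ⟨j, c * d, by rw [h, Matrix.smul_mulVec, hj, smul_smul]⟩

/-- A member of a field of matrices fixed by the power map of the base field is scalar. -/
lemma scalar_of_pow_card (hn : 0 < n) {K : Subalgebra F (Matrix (Fin n) (Fin n) F)} (hK : IsFieldSubalgebra n K)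
    {x : Matrix (Fin n) (Fin n) F} (hx : x ∈ K) (hpow : x ^ Fintype.card F = x) : ∃ c : F, x = c • 1 := by
  classical
  have : Nonempty (Fin n) := ⟨⟨0, hn⟩⟩
  have hfield : IsField K := by
    refine ⟨⟨0, 1, fun h => ?_⟩, fun a b => Subtype.ext (hK.comm a a.2 b b.2), fun {a} ha => ?_⟩
    · simpa using congrFun (congrFun (congrArg Subtype.val h) ⟨0, hn⟩) ⟨0, hn⟩
    · obtain ⟨y, hy, hy'⟩ := hK.inv a a.2 fun h => ha (Subtype.ext h)
      exact ⟨⟨y, hy⟩, Subtype.ext hy'⟩
  letI : Field K := hfield.toField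
  have hone := Fintype.one_lt_card (α := F)
  set P : K[X] := X ^ Fintype.card F - X
  have hP : P ≠ 0 := FiniteField.X_pow_card_sub_X_ne_zero K hone
  set S : Finset K := Finset.univ.image (algebraMap F K)
  have hS : S.card = Fintype.card F :=
    (Finset.card_image_of_injective _ (algebraMap F K).injective).trans Finset.card_univ
  by_contra hcon
  have hnot : (⟨x, hx⟩ : K) ∉ S := fun h => by
    obtain ⟨c, -, hc⟩ := Finset.mem_image.1 h
    exact hcon ⟨c, by rw [← Algebra.algebraMap_eq_smul_one]; exact (congrArg Subtype.val hc).symm⟩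
  have hle : (insert (⟨x, hx⟩ : K) S).card ≤ P.natDegree := by
    refine Polynomial.card_le_degree_of_subset_roots fun y hy => ?_
    rcases Finset.mem_insert.1 hy with rfl | hy
    · exact (mem_roots hP).2 (by simp [P, sub_eq_zero, Subtype.ext_iff, hpow])
    · obtain ⟨c, -, rfl⟩ := Finset.mem_image.1 hy
      exact (mem_roots hP).2 (by simp [P, sub_eq_zero, ← map_pow, FiniteField.pow_card])
  rw [Finset.card_insert_of_notMem hnot, hS, FiniteField.X_pow_card_sub_X_natDegree_eq K hone] at hle
  omega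

variable {T : QTable} (R : T.Rep F)

/-- Checked sign and unitarity turn a code into a member of the stabiliser inside the special unitary group. -/
lemma exists_mem {m : ℕ} {A : Fin n → Fin n → ℕ} {S : Fin m → Fin n → ℕ} (π : Fin m → Fin m) (c : Fin m → ℕ)
    (hu : T.IsUnitaryCode A) (hd : T.det A = 1) (h : ∀ k i, T.mv A (S k) i = T.mul (c k) (S (π k) i)) :
    ∃ g : GL (Fin n) F, g.val = R.mat A ∧ g ∈ Cfsg.GU n F T.p ⊓ specialLinear (Fin n) F ∧
      g ∈ lineStab fun k => R.vec (S k) := by
  obtain ⟨g, hg, hgM⟩ := R.exists_SU_of_code hu hd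
  exact ⟨g, hg, hgM, R.mem_lineStab_of_code hg π c h⟩

end CfsgLib.AschPrime.Three
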