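import Cfsg.Agent.AschPrime.CycleTransport
import Cfsg.Agent.AschPrime.ThreeTools
import Cfsg.Agent.AschPrime.ThreeData

/-! A certificate showing that the normaliser of a cubic field in a small three-dimensional special unitary
group is not maximal, and its two instances. -/

set_option autoImplicit false
set_option linter.unusedSectionVars false
set_option maxHeartbeats 1000000

namespace CfsgLib.AschPrime.Three

open Cfsg.Geo Polynomial
open scoped Matrix MatrixGroups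
open Fin.NatCast

/-- Numerical certificate for the cubic field case. -/
structure FieldCert where
  T : QTable
  m : ℕ
  pw : Fin 7 → Fin 3 → Fin 3 → ℕ
  bm : Fin 3 → Fin 3 → ℕ
  wm : Fin 3 → Fin 3 → ℕ
  cm : Fin 3 → Fin 3 → ℕ
  tm : Fin 3 → Fin 3 → ℕ
  pts : Fin m → Fin 3 → ℕ
  aπ : Fin m → Fin m
  aσ : Fin m → ℕ
  bπ : Fin m → Fin m
  bσ : Fin m → ℕ
  wπ : Fin m → Fin m
  wσ : Fin m → ℕ
  tIdx : Fin m
  cA : Fin 3 → ℕ
  cB : Fin 3 → ℕ
  gram : ℕ → ℕ → Fin 3 → ℕ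
  k : ℕ

/-- The facts checked by evaluation. -/
structure FieldCert.Valid (D : FieldCert) : Prop where
  p_mem : D.T.p = 3 ∨ D.T.p = 5
  step : D.k % 7 = D.T.p ^ 2 % 7
  pw_zero : ∀ r c, D.pw 0 r c = if r = c then 1 else 0
  pw_succ : ∀ i r c, D.T.mm (D.pw i) (D.pw 1) r c = D.pw (i + 1) r c
  pw_lt : ∀ i r c, D.pw i r c < D.T.p ^ 2
  rel : ∀ r c, D.pw 3 r c = D.T.lsum (List.ofFn fun j : Fin 3 => D.T.mul (D.cA j) (D.pw (j.castLE (by norm_num)) r c))
  rel_lt : ∀ i : Fin 7, ∀ r, D.T.lsum (List.ofFn fun j : Fin 3 =>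
    D.T.mul (D.cA j) (D.pw ((j.castLE (by norm_num) : Fin 7) * i) r 0)) < D.T.p ^ 2
  rel_exp : ∀ i : Fin 7, (∀ r, D.pw (3 * i) r 0 = D.T.lsum (List.ofFn fun j : Fin 3 =>
    D.T.mul (D.cA j) (D.pw ((j.castLE (by norm_num) : Fin 7) * i) r 0))) →
    i = ((1 : ℕ) : Fin 7) ∨ i = ((D.k : ℕ) : Fin 7) ∨ i = ((D.k ^ 2 : ℕ) : Fin 7)
  split5 : D.T.add (D.cA 2) (D.cB 2) = D.T.negOne
  split4 : D.T.add (D.T.add (D.cA 1) (D.cB 1)) 1 = D.T.mul (D.cA 2) (D.cB 2)
  split3 : D.T.add (D.T.add (D.cA 0) (D.cB 0)) 1 =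
    D.T.add (D.T.mul (D.cA 2) (D.cB 1)) (D.T.mul (D.cA 1) (D.cB 2))
  split2 : D.T.add (D.T.add (D.T.mul (D.cA 2) (D.cB 0)) (D.T.mul (D.cA 1) (D.cB 1))) (D.T.mul (D.cA 0) (D.cB 2)) = 1
  split1 : D.T.add (D.T.mul (D.cA 1) (D.cB 0)) (D.T.mul (D.cA 0) (D.cB 1)) = 1
  split0 : D.T.mul (D.cA 0) (D.cB 0) = 1
  conjAB : ∀ i, D.T.conj (D.cB i) = D.cA i
  conj_lt : ∀ t, t < D.T.p ^ 2 → D.T.conj t < D.T.p ^ 2 ∧ (D.T.conj t = t → t < D.T.p)
  table : ∀ i < D.T.p, ∀ j < D.T.p ^ 2, (i = 0 ∧ j = 0) ∨ (D.T.herm (D.gram i j) (D.gram i j) = i ∧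
    D.T.herm (D.T.mv (D.pw 1) (D.gram i j)) (D.gram i j) = j)
  a_unit : D.T.IsUnitaryCode (D.pw 1) ∧ D.T.det (D.pw 1) = 1
  b_unit : D.T.IsUnitaryCode D.bm ∧ D.T.det D.bm = 1
  w_unit : D.T.IsUnitaryCode D.wm ∧ D.T.det D.wm = 1
  t_unit : D.T.IsUnitaryCode D.tm ∧ D.T.det D.tm = 1
  b_conj : ∀ r c, D.T.mm D.bm (D.pw 1) r c = D.T.mm (D.pw (D.k : Fin 7)) D.bm r c
  w_conj : ∀ r c, D.T.mm D.wm (D.pw 1) r c = D.T.mm D.cm D.wm r c
  c_ne : ∃ r c, D.T.mm D.cm (D.pw 1) r c ≠ D.T.mm (D.pw 1) D.cm r c ∧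
    D.T.mm D.cm (D.pw 1) r c < D.T.p ^ 2 ∧ D.T.mm (D.pw 1) D.cm r c < D.T.p ^ 2
  a_act : ∀ l i, D.T.mv (D.pw 1) (D.pts l) i = D.T.mul (D.aσ l) (D.pts (D.aπ l) i)
  b_act : ∀ l i, D.T.mv D.bm (D.pts l) i = D.T.mul (D.bσ l) (D.pts (D.bπ l) i)
  w_act : ∀ l i, D.T.mv D.wm (D.pts l) i = D.T.mul (D.wσ l) (D.pts (D.wπ l) i)
  t_lt : ∀ x, x ∈ List.ofFn (D.T.mv D.tm (D.pts D.tIdx)) → x < D.T.p ^ 2
  t_act : ∀ l, ∀ c < D.T.p ^ 2, ∃ i,
    D.T.mv D.tm (D.pts D.tIdx) i ≠ D.T.mul c (D.pts l i) ∧ D.T.mul c (D.pts l i) < D.T.p ^ 2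

variable {F : Type*} [Field F] [Fintype F] {D : FieldCert}

lemma mat_pw (hD : D.Valid) (R : D.T.Rep F) {a : GL (Fin 3) F} (ha : a.val = R.mat (D.pw 1)) (i : ℕ) :
    a.val ^ i = R.mat (D.pw (i : Fin 7)) := by
  induction i with
  | zero =>
    ext r c
    simp [hD.pw_zero, Matrix.one_apply, apply_ite R.φ]
  | succ i ih =>
    rw [pow_succ, ih, ha, ← R.mat_mm, Nat.cast_succ]
    ext r c
    simp [hD.pw_succ]

lemma conj_rel' {u x x' : GL (Fin 3) F} (h : u * x * u⁻¹ = x') {c : Fin 3 → F}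
    (hrel : x.val ^ 3 = ∑ i : Fin 3, c i • x.val ^ (i : ℕ)) :
    x'.val ^ 3 = ∑ i : Fin 3, c i • x'.val ^ (i : ℕ) := by
  have hk : ∀ k : ℕ, x'.val ^ k = u.val * x.val ^ k * (u⁻¹ : GL (Fin 3) F).val := fun k => by
    rw [← Units.val_pow_eq_pow_val, ← Units.val_pow_eq_pow_val, ← h, conj_pow, Units.val_mul, Units.val_mul]
  rw [hk, hrel, Finset.mul_sum, Finset.sum_mul]
  simp [hk]

/-- An isometry satisfying the cubic is conjugate to the standard one. -/
lemma exists_conj (hD : D.Valid) (R : D.T.Rep F) {a : GL (Fin 3) F} (ha : a ∈ Cfsg.GU 3 F D.T.p)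
    {a₀ : GL (Fin 3) F} (ha₀ : a₀.val = R.mat (D.pw 1)) (ha₀U : a₀ ∈ Cfsg.GU 3 F D.T.p)
    (hv : ∀ v : Fin 3 → F, v ≠ 0 → LinearIndependent F fun i : Fin 3 => a.val ^ (i : ℕ) *ᵥ v)
    (hrel : a.val ^ 3 = ∑ i : Fin 3, R.φ (D.cA i) • a.val ^ (i : ℕ)) :
    ∃ g : GL (Fin 3) F, g ∈ Cfsg.GU 3 F D.T.p ∧ g * a * g⁻¹ = a₀ := by
  have hF := R.hcard
  set q := D.T.p
  set v : Fin 3 → F := Pi.single 0 1
  have hv0 : v ≠ 0 := fun h => one_ne_zero (α := F) (by simpa [v] using congrFun h 0)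
  have hli := hv v hv0
  have hra : a.val ^ 3 *ᵥ v = ∑ i : Fin 3, R.φ (D.cA i) • (a.val ^ (i : ℕ) *ᵥ v) := by
    rw [hrel, Matrix.sum_mulVec]; simp [Matrix.smul_mulVec]
  have hrel₀ : a₀.val ^ 3 = ∑ i : Fin 3, R.φ (D.cA i) • a₀.val ^ (i : ℕ) := by
    ext r c
    rw [mat_pw hD R ha₀, Matrix.sum_apply]
    show R.φ (D.pw 3 r c) = _
    rw [hD.rel, R.φ_lsum, List.map_ofFn, List.sum_ofFn]
    refine Finset.sum_congr rfl fun j _ => ?_
    rw [mat_pw hD R ha₀, Matrix.smul_apply, smul_eq_mul, QTable.Rep.mat_apply, Function.comp_apply, R.φ_mul]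
    congr 3
    fin_cases j <;> rfl
  obtain ⟨t0, ht0, e0⟩ := R.φ_surjective (Cfsg.hermForm 3 F q v v)
  obtain ⟨t1, ht1, e1⟩ := R.φ_surjective (Cfsg.hermForm 3 F q (a.val *ᵥ v) v)
  have ht0' : t0 < q := by
    have h : R.φ (D.T.conj t0) = R.φ t0 := by rw [R.φ_conj, e0]; exact herm_self_fixed hF v
    exact (hD.conj_lt t0 ht0).2 (R.φ_injective (hD.conj_lt t0 ht0).1 ht0 h)
  -- the second inner product follows from the recurrence
  have hT : ∀ {b : GL (Fin 3) F} (_ : b ∈ Cfsg.GU 3 F q) {w : Fin 3 → F}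
      (_ : b.val ^ 3 *ᵥ w = ∑ i : Fin 3, R.φ (D.cA i) • (b.val ^ (i : ℕ) *ᵥ w)),
      let T := fun k => Cfsg.hermForm 3 F q (b.val ^ k *ᵥ w) w
      T 2 = R.φ (D.cA 0) * T 1 ^ q + R.φ (D.cA 1) * T 0 + R.φ (D.cA 2) * T 1 := by
    intro b hb w hw T
    have h4 := herm_recurrence hF hw (b.val ^ 1 *ᵥ w)
    simp only [Fin.sum_univ_three, Fin.val_zero, Fin.val_one, Fin.val_two] at h4
    rw [herm_pow_shift hF hb w 3 1 (by norm_num), herm_pow_shift hF hb w 1 1 le_rfl,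
      herm_pow_shift hF hb w 2 1 (by norm_num), herm_symm hF (b.val ^ 0 *ᵥ w),
      herm_pow_shift hF hb w 1 0 (by norm_num)] at h4
    exact h4
  rcases hD.table t0 ht0' t1 ht1 with ⟨z0, z1⟩ | ⟨g0, g1⟩
  · exfalso
    rw [z0, R.φ_zero] at e0
    rw [z1, R.φ_zero] at e1
    have h3 := hT ha hra
    simp only [pow_zero, Matrix.one_mulVec, pow_one, ← e0, ← e1] at h3
    have hall : ∀ i : Fin 3, Cfsg.hermForm 3 F q (a.val ^ (i : ℕ) *ᵥ v) v = 0 := by
      intro i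
      fin_cases i
      · simpa using e0.symm
      · simpa using e1.symm
      · rw [h3]; simp [zero_pow (q_pos hF).ne']
    refine hv0 (herm_nondeg' hF fun y => ?_)
    have hsp := hli.span_eq_top_of_card_eq_finrank (by simp)
    have hy : y ∈ Submodule.span F (Set.range fun i : Fin 3 => a.val ^ (i : ℕ) *ᵥ v) := hsp ▸ Submodule.mem_top
    induction hy using Submodule.span_induction with
    | mem x hx => obtain ⟨i, rfl⟩ := hx; exact hall i
    | zero => exact herm_zero_left _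
    | add x z _ _ hx hz => rw [herm_add_left, hx, hz, add_zero]
    | smul c x _ hx => rw [herm_smul_left, hx, mul_zero]
  set w : Fin 3 → F := R.vec (D.gram t0 t1)
  have f0 : Cfsg.hermForm 3 F q (a₀.val ^ 0 *ᵥ w) w = R.φ t0 := by
    rw [pow_zero, Matrix.one_mulVec]; exact (R.φ_herm _ _).symm.trans (congrArg R.φ g0)
  have f1 : Cfsg.hermForm 3 F q (a₀.val ^ 1 *ᵥ w) w = R.φ t1 := by
    rw [pow_one, ha₀, ← R.vec_mv]; exact (R.φ_herm _ _).symm.trans (congrArg R.φ g1)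
  have hrb : a₀.val ^ 3 *ᵥ w = ∑ i : Fin 3, R.φ (D.cA i) • (a₀.val ^ (i : ℕ) *ᵥ w) := by
    rw [hrel₀, Matrix.sum_mulVec]; simp [Matrix.smul_mulVec]
  have p2 := hT ha hra
  have r2 := hT ha₀U hrb
  have k0 : Cfsg.hermForm 3 F q (a.val ^ 0 *ᵥ v) v = R.φ t0 := by rw [pow_zero, Matrix.one_mulVec, e0]
  have k1 : Cfsg.hermForm 3 F q (a.val ^ 1 *ᵥ v) v = R.φ t1 := by rw [pow_one, e1]
  simp only [k0, k1] at p2
  simp only [f0, f1] at r2
  refine exists_conj_of_gram hF ha ha₀U hli hra hrb fun i => ?_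
  fin_cases i
  · exact k0.trans f0.symm
  · exact k1.trans f1.symm
  · exact p2.trans r2.symm

/-- An element with scalar cube, determinant one and twisted by conjugation is scalar. -/
lemma scalar_of_twist {K : Subalgebra F (Matrix (Fin 3) (Fin 3) F)} (hK : IsFieldSubalgebra 3 K)
    (hF25 : Fintype.card F = 25) {p : ℕ} (hchar : CharP F p) (hp : p = 5) {y7 : Matrix (Fin 3) (Fin 3) F}
    (hy7K : y7 ∈ K) {c : F} (hc : y7 ^ 3 = c • 1) (hc24 : c ^ 24 = 1) (hdet7 : y7.det = 1)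
    {β : GL (Fin 3) F} (hβ : β.val * y7 * (β⁻¹ : GL (Fin 3) F).val = c ^ 8 • y7) :
    ∃ c : F, y7 = c • 1 := by
  have h25 : y7 ^ 25 = c ^ 8 • y7 := by
    rw [show (25 : ℕ) = 3 * 8 + 1 by norm_num, pow_add, pow_mul, hc, _root_.smul_pow, one_pow, pow_one,
      Matrix.smul_mul, Matrix.one_mul]
  by_cases hμ : c ^ 8 = 1
  · refine scalar_of_pow_card (by norm_num) hK hy7K ?_
    rw [hF25, h25, hμ, one_smul]
  exfalso
  -- a cyclic basis shows that the cube root of one would be the determinant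
  have hy0 : ∀ j : ℕ, ∀ d : Fin 3 → F, ∑ i : Fin 3, d i • y7 ^ (i : ℕ) = 0 →
      ∑ i : Fin 3, (d i * (c ^ 8) ^ (j * (i : ℕ))) • y7 ^ (i : ℕ) = 0 := by
    intro j
    induction j with
    | zero => intro d hd; simpa using hd
    | succ j ih =>
      intro d hd
      have h := congrArg (fun M => β.val * M * (β⁻¹ : GL (Fin 3) F).val) (ih d hd)
      simp only [Finset.mul_sum, Finset.sum_mul, Matrix.mul_smul, Matrix.smul_mul, Matrix.mul_zero,
        Matrix.zero_mul] at h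
      rw [← h]
      refine Finset.sum_congr rfl fun i _ => ?_
      have hpi : β.val * y7 ^ (i : ℕ) * (β⁻¹ : GL (Fin 3) F).val = ((c ^ 8) ^ (i : ℕ)) • y7 ^ (i : ℕ) := by
        fin_cases i
        · simp
        · simpa using hβ
        · show β.val * y7 ^ 2 * (β⁻¹ : GL (Fin 3) F).val = (c ^ 8) ^ 2 • y7 ^ 2
          calc β.val * y7 ^ 2 * (β⁻¹ : GL (Fin 3) F).val
              = β.val * y7 * ((β⁻¹ : GL (Fin 3) F).val * β.val) * y7 * (β⁻¹ : GL (Fin 3) F).val := by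
                rw [← Units.val_mul, inv_mul_cancel, Units.val_one, Matrix.mul_one, sq]
                simp only [Matrix.mul_assoc]
            _ = (β.val * y7 * (β⁻¹ : GL (Fin 3) F).val) * (β.val * y7 * (β⁻¹ : GL (Fin 3) F).val) := by
                simp only [Matrix.mul_assoc]
            _ = _ := by rw [hβ, Matrix.smul_mul, Matrix.mul_smul, smul_smul, ← sq, ← sq]
      rw [hpi, smul_smul, mul_assoc, ← pow_add, Nat.succ_mul]
  have hy7inv : ∀ i : ℕ, y7 ^ i ≠ 0 := fun i h => by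
    have := congrArg Matrix.det h
    simp [Matrix.det_pow, hdet7] at this
  have hind : ∀ d : Fin 3 → F, ∑ i : Fin 3, d i • y7 ^ (i : ℕ) = 0 → d = 0 := by
    intro d hd
    have hμ3 : (c ^ 8) ^ 3 = 1 := by rw [← pow_mul]; exact hc24
    have e0 := hd
    have e1 := hy0 1 d hd
    have e2 := hy0 2 d hd
    simp only [Fin.sum_univ_three, Fin.val_zero, Fin.val_one, Fin.val_two, Nat.mul_zero, Nat.one_mul,
      pow_zero, mul_one] at e0 e1 e2
    set μ := c ^ 8
    have hμ2 : μ ^ 2 + μ + 1 = 0 :=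
      (mul_eq_zero.1 (show (μ - 1) * (μ ^ 2 + μ + 1) = 0 by linear_combination hμ3)).resolve_left (sub_ne_zero.2 hμ)
    have h3 : (3 : F) ≠ 0 := fun h => by
      have hd3 := (CharP.cast_eq_zero_iff F p 3).1 (by exact_mod_cast h)
      rw [hp] at hd3; norm_num at hd3
    have key : ∀ (i : Fin 3) , ((3 : F) * d i) • y7 ^ (i : ℕ) = 0 := by
      intro i
      fin_cases i <;> simp only [Fin.zero_eta, Fin.mk_one, Fin.reduceFinMk, Fin.val_zero, Fin.val_one, Fin.val_two, pow_zero, pow_one] at e0 e1 e2 ⊢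
      · linear_combination (norm := (match_scalars <;> grind)) e0 + e1 + e2
      · linear_combination (norm := (match_scalars <;> grind)) e0 + (μ ^ 2) • e1 + μ • e2
      · linear_combination (norm := (match_scalars <;> grind)) e0 + μ • e1 + (μ ^ 2) • e2
    funext i
    rcases smul_eq_zero.1 (key i) with h | h
    · exact (mul_eq_zero.1 h).resolve_left h3
    · exact absurd h (hy7inv _)
  obtain ⟨v, hv0⟩ : ∃ v : Fin 3 → F, v ≠ 0 := ⟨Pi.single 0 1, fun h => one_ne_zero (α := F) (by simpa using congrFun h 0)⟩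
  set V : Matrix (Fin 3) (Fin 3) F := Matrix.of fun l i => (y7 ^ (i : ℕ) *ᵥ v) l
  have hVu : IsUnit V := by
    refine Matrix.linearIndependent_cols_iff_isUnit.1 (Fintype.linearIndependent_iff.2 fun d hd => ?_)
    have hd' : (∑ i : Fin 3, d i • y7 ^ (i : ℕ)) *ᵥ v = 0 := by
      rw [Matrix.sum_mulVec, ← hd]
      refine Finset.sum_congr rfl fun i _ => ?_
      rw [Matrix.smul_mulVec]; rfl
    by_contra hne
    push Not at hne
    obtain ⟨i, hi⟩ := hne
    have hK' : (∑ i : Fin 3, d i • y7 ^ (i : ℕ)) ∈ K := sum_mem fun i _ => K.smul_mem (pow_mem hy7K _) _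
    have hnz : (∑ i : Fin 3, d i • y7 ^ (i : ℕ)) ≠ 0 := fun h => hi (congrFun (hind d h) i)
    obtain ⟨u, -, hu⟩ := hK.inv _ hK' hnz
    refine hv0 ?_
    rw [← Matrix.one_mulVec v, ← mul_eq_one_comm.1 hu, ← Matrix.mulVec_mulVec, hd', Matrix.mulVec_zero]
  set Co : Matrix (Fin 3) (Fin 3) F := !![0, 0, c; 1, 0, 0; 0, 1, 0]
  have hVC : y7 * V = V * Co := by
    have hcol : ∀ l (i : Fin 3), (y7 * V) l i = (y7 ^ ((i : ℕ) + 1) *ᵥ v) l := fun l i => by
      rw [Matrix.mul_apply, pow_succ', ← Matrix.mulVec_mulVec]; rfl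
    ext l i
    rw [hcol, Matrix.mul_apply]
    fin_cases i <;> simp [Co, V, Fin.sum_univ_three, hc, Matrix.smul_mulVec, mul_comm]
  have hd := congrArg Matrix.det hVC
  rw [Matrix.det_mul, Matrix.det_mul, hdet7, one_mul] at hd
  have hCo : Co.det = c := by simp [Co, Matrix.det_fin_three]
  rw [hCo] at hd
  have hVd : V.det ≠ 0 := (Matrix.isUnit_iff_isUnit_det _).1 hVu |>.ne_zero
  have hc1 : c = 1 := mul_left_cancel₀ hVd (by rw [mul_one]; exact hd.symm)
  exact hμ (by rw [hc1, one_pow])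

lemma pow_reduce {G : Type*} [Monoid G] {z : G} {m a b t r : ℕ} (hz : z ^ m = 1) (h : a * b = m * t + r) :
    (z ^ a) ^ b = z ^ r := by
  rw [← pow_mul, h, pow_add, pow_mul, hz, one_pow, one_mul]

/-- The normaliser of a cubic field is not maximal when a certificate exists. -/
theorem field_not_maximal (hD : D.Valid) (R : D.T.Rep F) {H : Subgroup (GL (Fin 3) F)}
    (hH : IsMaximalIn (Cfsg.GU 3 F D.T.p ⊓ specialLinear (Fin 3) F) H)
    {K : Subalgebra F (Matrix (Fin 3) (Fin 3) F)} (hK : IsFieldSubalgebra 3 K)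
    (hadj : IsAdjointClosedFor (Cfsg.hermForm 3 F D.T.p) K)
    (hHK : H = subalgebraNormalizer K ⊓ (Cfsg.GU 3 F D.T.p ⊓ specialLinear (Fin 3) F)) : False := by
  have hF := R.hcard
  have hchar : CharP F D.T.p := R.hchar
  have := Fact.mk R.hp
  have hdvd : 7 ∣ D.T.p ^ 3 + 1 := by rcases hD.p_mem with h | h <;> rw [h] <;> norm_num
  have hord : ∀ j, 0 < j → j < 3 → D.T.p ^ (2 * j) % 7 ≠ 1 := by
    intro j h1 h2; rcases hD.p_mem with h | h <;> rw [h] <;> interval_cases j <;> norm_num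
  obtain ⟨a, haU, haK, har, ha1, hnorm⟩ := exists_cycle hF (by norm_num) hK hadj (r := 7) (by norm_num) hdvd
  have props := fun (x : GL (Fin 3) F) hxK hxr hx1 =>
    cycle_props hF (by norm_num) hK (r := 7) (by norm_num) hdvd hord (a := x) hxK hxr hx1
  obtain ⟨a₀, ha₀, ha₀M, haM⟩ := exists_mem R D.aπ D.aσ hD.a_unit.1 hD.a_unit.2 hD.a_act
  -- choose the generator satisfying the cubic
  obtain ⟨b, hbU, hbK, hbr, hbli, hbspan, hbroot, hrel⟩ : ∃ b : GL (Fin 3) F, b ∈ Cfsg.GU 3 F D.T.p ∧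
      b.val ∈ K ∧ b ^ 7 = 1 ∧
      (∀ v : Fin 3 → F, v ≠ 0 → LinearIndependent F fun i : Fin 3 => b.val ^ (i : ℕ) *ᵥ v) ∧
      (∀ k ∈ K, ∃ c : Fin 3 → F, k = ∑ i, c i • b.val ^ (i : ℕ)) ∧
      (∀ x ∈ K, x ^ 7 = 1 → ∃ i : ℕ, x = b.val ^ i) ∧
      b.val ^ 3 = ∑ i : Fin 3, R.φ (D.cA i) • b.val ^ (i : ℕ) := by
    obtain ⟨hsum, hli, hspan, hroot⟩ := props a haK har ha1
    have hC : ∀ {x y : ℕ}, x = y → C (R.φ x) = C (R.φ y) := fun h => by rw [h]
    have h5 := hC hD.split5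
    have h4 := hC hD.split4
    have h3 := hC hD.split3
    have h2 := hC hD.split2
    have h1 := hC hD.split1
    have h0 := hC hD.split0
    simp only [R.φ_add, R.φ_mul, R.φ_one, R.φ_negOne, C_add, C_mul, C_1, C_neg] at h5 h4 h3 h2 h1 h0
    have hsplit : (X ^ 3 - ∑ i : Fin 3, C (R.φ (D.cA i)) * X ^ (i : ℕ)) *
        (X ^ 3 - ∑ i : Fin 3, C (R.φ (D.cB i)) * X ^ (i : ℕ)) = ∑ i ∈ Finset.range 7, (X : F[X]) ^ i := by
      simp only [Fin.sum_univ_three, Fin.val_zero, Fin.val_one, Fin.val_two, Finset.sum_range_succ,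
        Finset.sum_range_zero, pow_zero]
      linear_combination -X ^ 5 * h5 - X ^ 4 * h4 - X ^ 3 * h3 + X ^ 2 * h2 + X * h1 + h0
    have hprod := congrArg (aeval a.val) hsplit
    simp only [map_mul, map_sub, map_sum, map_pow, aeval_X, aeval_C, hsum, ← Algebra.smul_def] at hprod
    by_cases hA : a.val ^ 3 - ∑ i : Fin 3, R.φ (D.cA i) • a.val ^ (i : ℕ) = 0
    · exact ⟨a, haU, haK, har, hli, hspan, fun x hx hx' => (hroot x hx hx').imp fun i h => h.2, sub_eq_zero.1 hA⟩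
    obtain ⟨y, -, hy⟩ := hK.inv _ (sub_mem (pow_mem haK 3) (sum_mem fun i _ => K.smul_mem (pow_mem haK _) _)) hA
    have hB : a.val ^ 3 - ∑ i : Fin 3, R.φ (D.cB i) • a.val ^ (i : ℕ) = 0 := by
      have h := congrArg (y * ·) hprod
      rwa [← mul_assoc, mul_eq_one_comm.1 hy, one_mul, mul_zero] at h
    have hap : a ^ D.T.p ≠ 1 := fun h => ha1 (by
      have hg : Nat.Coprime D.T.p 7 := by rcases hD.p_mem with h | h <;> rw [h] <;> norm_num
      have := (pow_gcd_eq_one).2 ⟨h, har⟩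
      rwa [hg, pow_one] at this)
    have hKp : (a ^ D.T.p).val ∈ K := by rw [Units.val_pow_eq_pow_val]; exact pow_mem haK _
    have hrp : (a ^ D.T.p) ^ 7 = 1 := by rw [← pow_mul, mul_comm, pow_mul, har, one_pow]
    obtain ⟨-, hli', hspan', hroot'⟩ := props (a ^ D.T.p) hKp hrp hap
    refine ⟨a ^ D.T.p, pow_mem haU _, hKp, hrp, hli', hspan', fun x hx hx' => (hroot' x hx hx').imp fun i h => h.2, ?_⟩
    have hconj : ((X : F[X]) ^ D.T.p) ^ 3 - ∑ i : Fin 3, C (R.φ (D.cA i)) * (X ^ D.T.p) ^ (i : ℕ) =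
        (X ^ 3 - ∑ i : Fin 3, C (R.φ (D.cB i)) * X ^ (i : ℕ)) ^ D.T.p := by
      rw [sub_pow_char, sum_pow_char, ← pow_mul, ← pow_mul, mul_comm]
      refine congrArg _ (Finset.sum_congr rfl fun i _ => ?_)
      rw [mul_pow, ← C_pow, ← R.φ_conj, hD.conjAB, ← pow_mul, ← pow_mul, mul_comm (i : ℕ)]
    have hid := congrArg (aeval a.val) hconj
    simp only [map_mul, map_sub, map_sum, map_pow, aeval_X, aeval_C, ← Algebra.smul_def] at hid
    rw [hB, zero_pow R.hp.ne_zero] at hid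
    rw [Units.val_pow_eq_pow_val]
    exact sub_eq_zero.1 hid
  obtain ⟨g, hgU, hg⟩ := exists_conj hD R hbU ha₀ ha₀M.1 hbli hrel
  obtain ⟨bb, hbb, hbbM, hbM⟩ := exists_mem R D.bπ D.bσ hD.b_unit.1 hD.b_unit.2 hD.b_act
  obtain ⟨w, hw, hwM, hwS⟩ := exists_mem R D.wπ D.wσ hD.w_unit.1 hD.w_unit.2 hD.w_act
  obtain ⟨t, ht, htM⟩ := R.exists_SU_of_code hD.t_unit.1 hD.t_unit.2
  have hK₀ : ∀ x ∈ H, ∀ k ∈ K, x.val * k * (x⁻¹ : GL (Fin 3) F).val ∈ K := fun x hx k hk => by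
    rw [hHK] at hx; exact (hx.1 k).1 hk
  have hnormx : ∀ x ∈ H, ∃ i : ℕ, (g * x * g⁻¹) * a₀ * (g * x * g⁻¹)⁻¹ = a₀ ^ i := by
    intro x hx
    have hbr' : b.val ^ 7 = 1 := by rw [← Units.val_pow_eq_pow_val, hbr, Units.val_one]
    obtain ⟨i, hi⟩ := hbroot _ (hK₀ x hx _ hbK) (by
      rw [← Units.val_mul, ← Units.val_mul, ← Units.val_pow_eq_pow_val, conj_pow, Units.val_mul, Units.val_mul,
        Units.val_pow_eq_pow_val, hbr', Matrix.mul_one, ← Units.val_mul, mul_inv_cancel, Units.val_one])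
    refine ⟨i, ?_⟩
    have hi' : x * b * x⁻¹ = b ^ i := Units.ext (by simpa using hi)
    rw [← hg]
    calc g * x * g⁻¹ * (g * b * g⁻¹) * (g * x * g⁻¹)⁻¹ = g * (x * b * x⁻¹) * g⁻¹ := by group
      _ = g * b ^ i * g⁻¹ := by rw [hi']
      _ = (g * b * g⁻¹) ^ i := (conj_pow).symm
  have hgK := conj_mem_SU_iff (q := D.T.p) hgU
  have hstep : bb * a₀ * bb⁻¹ = a₀ ^ D.k := by
    rw [mul_inv_eq_iff_eq_mul]
    refine Units.ext ?_
    rw [Units.val_mul, Units.val_mul, Units.val_pow_eq_pow_val, hbb, mat_pw hD R ha₀, ha₀, ← R.mat_mm, ← R.mat_mm]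
    ext r c
    exact congrArg R.φ (hD.b_conj r c)
  refine not_maximal_of_overgroup hH hgK (M := lineStab fun l => R.vec (D.pts l)) (fun x hx => ?_) hwM hwS ?_
    htM (R.not_mem_lineStab_of_code ht D.tIdx hD.t_lt hD.t_act)
  · set y := g * x * g⁻¹ with hy
    obtain ⟨i, hi⟩ := hnormx x hx
    have hyM : y ∈ Cfsg.GU 3 F D.T.p ⊓ specialLinear (Fin 3) F := (hgK x).2 (hH.1.le hx)
    -- the exponent is a power of the square of the characteristic
    have hexp : ∃ m : ℕ, ((D.k ^ m : ℕ) : Fin 7) = (i : Fin 7) := by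
      suffices (i : Fin 7) = ((1 : ℕ) : Fin 7) ∨ (i : Fin 7) = ((D.k : ℕ) : Fin 7) ∨
          (i : Fin 7) = ((D.k ^ 2 : ℕ) : Fin 7) by
        rcases this with h | h | h
        exacts [⟨0, by rw [pow_zero, h]⟩, ⟨1, by rw [pow_one, h]⟩, ⟨2, h.symm⟩]
      refine hD.rel_exp _ fun r => ?_
      have hb3 := conj_rel' hi (conj_rel' hg hrel)
      have hpow : ∀ k : ℕ, (a₀ ^ i).val ^ k = R.mat (D.pw ((i * k : ℕ) : Fin 7)) := fun k => by
        rw [Units.val_pow_eq_pow_val, ← pow_mul, mat_pw hD R ha₀]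
      have e := congrFun (congrFun hb3 r) 0
      simp only [hpow, Matrix.sum_apply, Matrix.smul_apply, smul_eq_mul, QTable.Rep.mat_apply, ← R.φ_mul] at e
      refine R.φ_injective (hD.pw_lt _ _ _) (hD.rel_lt _ _) ?_
      rw [R.φ_lsum, List.map_ofFn, List.sum_ofFn]
      have hidx : ∀ (k : Fin 7) (j : Fin 3), (k * ((j : ℕ) : Fin 7)) = (j.castLE (by norm_num) : Fin 7) * k := by
        decide
      have hcast : ∀ a b : ℕ, ((a * b : ℕ) : Fin 7) = (a : Fin 7) * b := fun a b =>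
        Fin.ext (by simp [Fin.val_mul, Nat.mul_mod])
      simp only [hcast, hidx] at e
      simpa [mul_comm (3 : Fin 7)] using e
    obtain ⟨m, hm⟩ := hexp
    have hpows : ∀ m : ℕ, bb ^ m * a₀ * (bb ^ m)⁻¹ = a₀ ^ (D.k ^ m) := by
      intro m
      induction m with
      | zero => simp
      | succ m ih =>
        calc bb ^ (m + 1) * a₀ * (bb ^ (m + 1))⁻¹ = bb * (bb ^ m * a₀ * (bb ^ m)⁻¹) * bb⁻¹ := by
              rw [pow_succ']; group
          _ = bb * a₀ ^ (D.k ^ m) * bb⁻¹ := by rw [ih]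
          _ = a₀ ^ (D.k ^ (m + 1)) := by rw [← conj_pow, hstep, ← pow_mul, pow_succ']
    have hm' : a₀ ^ (D.k ^ m) = a₀ ^ i := Units.ext (by
      rw [Units.val_pow_eq_pow_val, Units.val_pow_eq_pow_val, mat_pw hD R ha₀, mat_pw hD R ha₀, hm])
    -- the remaining factor centralises
    set z := (bb ^ m)⁻¹ * y
    have hzc : z * a₀ = a₀ * z := by
      have e : y * a₀ * y⁻¹ = bb ^ m * a₀ * (bb ^ m)⁻¹ := by rw [hpows, hm', hi]
      calc z * a₀ = (bb ^ m)⁻¹ * (y * a₀ * y⁻¹) * y := by simp only [z]; group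
        _ = (bb ^ m)⁻¹ * (bb ^ m * a₀ * (bb ^ m)⁻¹) * y := by rw [e]
        _ = a₀ * z := by simp only [z]; group
    have hzM : z ∈ Cfsg.GU 3 F D.T.p ⊓ specialLinear (Fin 3) F := mul_mem (inv_mem (pow_mem hbbM m)) hyM
    set z' := g⁻¹ * z * g
    have hz'M : z' ∈ Cfsg.GU 3 F D.T.p ⊓ specialLinear (Fin 3) F := (hgK _).1 (by simpa [z', mul_assoc] using hzM)
    have hbg : b = g⁻¹ * a₀ * g := by rw [← hg]; group
    have hz'c : Commute z' b := by
      show g⁻¹ * z * g * b = b * (g⁻¹ * z * g)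
      rw [hbg]
      calc g⁻¹ * z * g * (g⁻¹ * a₀ * g) = g⁻¹ * (z * a₀) * g := by group
        _ = g⁻¹ * (a₀ * z) * g := by rw [hzc]
        _ = g⁻¹ * a₀ * g * (g⁻¹ * z * g) := by group
    have hz'K : z'.val ∈ K := by
      set v : Fin 3 → F := Pi.single 0 1
      have hv0 : v ≠ 0 := fun h => one_ne_zero (α := F) (by simpa [v] using congrFun h 0)
      have hsp := (hbli v hv0).span_eq_top_of_card_eq_finrank (by simp)
      obtain ⟨c, hc⟩ := (Submodule.mem_span_range_iff_exists_fun F).1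
        (hsp ▸ Submodule.mem_top : z'.val *ᵥ v ∈ Submodule.span F (Set.range fun i : Fin 3 => b.val ^ (i : ℕ) *ᵥ v))
      set k := ∑ i, c i • b.val ^ (i : ℕ) with hk
      have hkv : k *ᵥ v = z'.val *ᵥ v := by rw [hk, Matrix.sum_mulVec, ← hc]; simp [Matrix.smul_mulVec]
      have hkmem : k ∈ K := sum_mem fun i _ => K.smul_mem (pow_mem hbK _) _
      suffices z'.val = k by rwa [this]
      refine Matrix.ext_of_mulVec_single fun j => ?_
      obtain ⟨d, hd⟩ := (Submodule.mem_span_range_iff_exists_fun F).1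
        (hsp ▸ Submodule.mem_top : Pi.single j (1 : F) ∈ Submodule.span F (Set.range fun i : Fin 3 => b.val ^ (i : ℕ) *ᵥ v))
      rw [← hd, Matrix.mulVec_sum, Matrix.mulVec_sum]
      refine Finset.sum_congr rfl fun i _ => ?_
      rw [Matrix.mulVec_smul, Matrix.mulVec_smul, Matrix.mulVec_mulVec, Matrix.mulVec_mulVec,
        hK.comm k hkmem _ (pow_mem hbK _), ← Units.val_pow_eq_pow_val, ← Units.val_mul, (hz'c.pow_right _).eq,
        Units.val_mul, ← Matrix.mulVec_mulVec, ← Matrix.mulVec_mulVec, hkv]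
    have hzn : z'.val ^ (D.T.p ^ 3 + 1) = 1 := hnorm _ hz'K fun u v => mem_GU.1 hz'M.1 u v
    -- its seventh power is scalar
    set y7 : Matrix (Fin 3) (Fin 3) F := z'.val ^ 7 with hy7
    have hy7K : y7 ∈ K := pow_mem hz'K 7
    obtain ⟨c, hc⟩ : ∃ c : F, y7 = c • 1 := by
      rcases hD.p_mem with hp | hp
      · refine scalar_of_pow_card (by norm_num) hK hy7K ?_
        have hF9 : Fintype.card F = 9 := by rw [hF, hp]; norm_num
        have hm : D.T.p ^ 3 + 1 = 28 := by rw [hp]; norm_num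
        rw [hm] at hzn
        rw [hy7, hF9]
        exact pow_reduce hzn (t := 2) (by norm_num)
      · have hm : D.T.p ^ 3 + 1 = 126 := by rw [hp]; norm_num
        have h126 : z'.val ^ 126 = 1 := hm ▸ hzn
        have hF25 : Fintype.card F = 25 := by rw [hF, hp]; norm_num
        obtain ⟨c, hc⟩ := scalar_of_pow_card (x := y7 ^ 3) (by norm_num) hK (pow_mem hy7K 3) (by
          rw [hy7, hF25, ← pow_mul z'.val 7 3]
          exact pow_reduce h126 (t := 4) (by norm_num))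
        have hdet7 : y7.det = 1 := by
          rw [hy7, Matrix.det_pow, show z'.val.det = 1 from congrArg Units.val (MonoidHom.mem_ker.1 hz'M.2), one_pow]
        have hc24 : c ^ 24 = 1 := by
          have hc0 : c ≠ 0 := fun h => by
            have := congrArg Matrix.det hc
            simp [Matrix.det_pow, hdet7, h] at this
          have := FiniteField.pow_card_sub_one_eq_one c hc0
          rwa [hF25] at this
        -- conjugation by the field automorphism multiplies `y7` by a cube root of one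
        set β := g⁻¹ * bb * g
        have hβb : β * b * β⁻¹ = b ^ D.k := by
          rw [hbg, show β * (g⁻¹ * a₀ * g) * β⁻¹ = g⁻¹ * (bb * a₀ * bb⁻¹) * g by simp only [β]; group, hstep]
          have := conj_pow (a := g⁻¹) (b := a₀) (i := D.k)
          simpa using this.symm
        have hb7 : ∀ i : ℕ, b.val ^ i = b.val ^ (i % 7) := fun i => by
          have hbr' : b.val ^ 7 = 1 := by rw [← Units.val_pow_eq_pow_val, hbr, Units.val_one]
          conv_lhs => rw [← Nat.mod_add_div i 7, pow_add, pow_mul, hbr', one_pow, mul_one]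
        have hβ : β.val * y7 * (β⁻¹ : GL (Fin 3) F).val = y7 ^ 25 := by
          obtain ⟨co, hco⟩ := hbspan y7 hy7K
          have hpw : ∀ i : ℕ, β.val * b.val ^ i * (β⁻¹ : GL (Fin 3) F).val = (b.val ^ i) ^ 25 := by
            intro i
            rw [← Units.val_pow_eq_pow_val, ← Units.val_mul, ← Units.val_mul, ← conj_pow, hβb,
              Units.val_pow_eq_pow_val, Units.val_pow_eq_pow_val, Units.val_pow_eq_pow_val, ← pow_mul, ← pow_mul,
              hb7 (D.k * i), hb7 (i * 25)]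
            congr 1
            have hk := hD.step
            rw [hp] at hk
            rw [Nat.mul_mod, hk, Nat.mul_mod i]
            norm_num [mul_comm]
          have e : (∑ i : Fin 3, C (co i) * X ^ (i : ℕ)) ^ 25 = ∑ i : Fin 3, C (co i) * ((X : F[X]) ^ (i : ℕ)) ^ 25 := by
            rw [show (25 : ℕ) = D.T.p ^ 2 by rw [hp]; norm_num, sum_pow_char_pow]
            refine Finset.sum_congr rfl fun i _ => ?_
            rw [mul_pow, ← C_pow, ← hF, FiniteField.pow_card]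
          have he := congrArg (aeval b.val) e
          simp only [map_mul, map_sum, map_pow, aeval_X, aeval_C, ← Algebra.smul_def] at he
          rw [hco, he, Finset.mul_sum, Finset.sum_mul]
          refine Finset.sum_congr rfl fun i _ => ?_
          rw [Matrix.mul_smul, Matrix.smul_mul, hpw]
        have h25 : y7 ^ 25 = c ^ 8 • y7 := by
          rw [show (25 : ℕ) = 3 * 8 + 1 by norm_num, pow_add, pow_mul, hc, _root_.smul_pow, one_pow, pow_one,
            Matrix.smul_mul, Matrix.one_mul]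
        rw [h25] at hβ
        exact scalar_of_twist hK hF25 R.hchar hp hy7K hc hc24 hdet7 hβ
    -- so it is a scalar multiple of a power
    have hc0 : c ≠ 0 := fun h => by
      have := congrArg Matrix.det hc
      rw [hy7, Matrix.det_pow, show z'.val.det = 1 from congrArg Units.val (MonoidHom.mem_ker.1 hz'M.2)] at this
      simp [h] at this
    have hd7 : ((c ^ 7)⁻¹) ^ 7 * c = 1 := by
      have h48 : c ^ 48 = 1 := by
        have := FiniteField.pow_card_sub_one_eq_one c hc0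
        rcases hD.p_mem with hp | hp <;> rw [hF, hp] at this
        · calc c ^ 48 = (c ^ 8) ^ 6 := by ring
            _ = 1 := by norm_num at this; rw [this, one_pow]
        · calc c ^ 48 = (c ^ 24) ^ 2 := by ring
            _ = 1 := by norm_num at this; rw [this, one_pow]
      rw [inv_pow, inv_mul_eq_one₀ (pow_ne_zero _ (pow_ne_zero _ hc0))]
      linear_combination c * h48
    obtain ⟨j, hj⟩ := hbroot ((c ^ 7)⁻¹ • z'.val) (K.smul_mem hz'K _) (by
      rw [_root_.smul_pow, ← hy7, hc, smul_smul, hd7, one_smul])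
    have hzj : z'.val = c ^ 7 • (b ^ j).val := by
      rw [Units.val_pow_eq_pow_val, ← hj, smul_smul, mul_inv_cancel₀ (pow_ne_zero _ hc0), one_smul]
    have hyv : y.val = c ^ 7 • (bb ^ m * a₀ ^ j).val := by
      have e : y = bb ^ m * (g * z' * g⁻¹) := by simp only [z', z]; group
      have e' : g * b ^ j * g⁻¹ = a₀ ^ j := by rw [← conj_pow, hg]
      rw [e, ← e', Units.val_mul, Units.val_mul, Units.val_mul, hzj, Units.val_mul, Units.val_mul, Units.val_mul]
      simp [Matrix.mul_assoc]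
    exact lineStab_smul (mul_mem (pow_mem hbM m) (pow_mem haM j)) hyv
  · intro hwH
    obtain ⟨i, hi⟩ := hnormx _ hwH
    rw [show g * (g⁻¹ * w * g) * g⁻¹ = w by group] at hi
    have hwc : (w * a₀ * w⁻¹).val = R.mat D.cm := by
      have e : w.val * a₀.val = R.mat D.cm * w.val := by
        rw [hw, ha₀, ← R.mat_mm, ← R.mat_mm]
        ext r c
        exact congrArg R.φ (hD.w_conj r c)
      rw [Units.val_mul, Units.val_mul, e, Matrix.mul_assoc, ← Units.val_mul, mul_inv_cancel, Units.val_one,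
        Matrix.mul_one]
    obtain ⟨r, c, hrc, hl1, hl2⟩ := hD.c_ne
    refine hrc (R.φ_injective hl1 hl2 ?_)
    have e : R.mat (D.T.mm D.cm (D.pw 1)) = R.mat (D.T.mm (D.pw 1) D.cm) := by
      rw [R.mat_mm, R.mat_mm, ← hwc, hi, ← ha₀, ← Units.val_mul, ← Units.val_mul, ← pow_succ, ← pow_succ']
    exact congrFun (congrFun e r) c

end CfsgLib.AschPrime.Three
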