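import Cfsg.Agent.AschPrime.ThreeField

/-! The two instances of the certificate for cubic fields: over nine and over twenty-five elements. -/

set_option autoImplicit false
set_option maxRecDepth 100000
set_option maxHeartbeats 1000000

namespace CfsgLib.AschPrime.Three

open ThreeData
open Fin.NatCast

/-- Certificate over nine elements. -/
def cert9 : FieldCert :=
  ⟨tbl9, 21, f9Pw, f9B, f9W, f9C, f9T, f9Pts, f9APerm, f9AScal, f9BPerm, f9BScal, f9WPerm, f9WScal, f9TIdx,
    f9CoefA, f9CoefB, fun i j => f9Gram ⟨(9 * i + j) % 27, Nat.mod_lt _ (by norm_num)⟩, 2⟩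

/-- Certificate over twenty-five elements. -/
def cert25 : FieldCert :=
  ⟨tbl25, 105, f25Pw, f25B, f25W, f25C, f25T, f25Pts, f25APerm, f25AScal, f25BPerm, f25BScal, f25WPerm, f25WScal,
    f25TIdx, f25CoefA, f25CoefB, fun i j => f25Gram ⟨(25 * i + j) % 125, Nat.mod_lt _ (by norm_num)⟩, 4⟩

theorem cert9_valid : cert9.Valid := by
  constructor <;> decide

theorem cert25_valid : cert25.Valid := by
  constructor <;> decide

end CfsgLib.AschPrime.Three
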