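import Cfsg.Agent.AschPrime.ThreeData

/-! The fields of nine and twenty-five elements fit their tables. -/

set_option autoImplicit false
set_option linter.unusedSectionVars false

namespace CfsgLib.AschPrime.Three

open ThreeData

variable {F : Type*} [Field F] [Fintype F]

lemma char_of_card_sq {p : ℕ} (hp : p.Prime) (hF : Fintype.card F = p ^ 2) : CharP F p := by
  obtain ⟨r, k, hr, hchar, hk⟩ := exists_char_pow hF
  have h := dvd_pow_self r (show k ≠ 0 by rintro rfl; rw [pow_zero] at hk; exact hp.ne_one hk)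
  rw [← hk] at h
  obtain rfl := (Nat.prime_dvd_prime_iff_eq hr hp).1 h
  exact hchar

lemma exists_rep9 (hF : Fintype.card F = 3 ^ 2) : Nonempty (tbl9.Rep F) := by
  have hchar := char_of_card_sq Nat.prime_three hF
  have h3 : (3 : F) = 0 := CharP.ofNat_eq_zero F 3
  obtain ⟨ω, hω⟩ : IsSquare (-1 : F) := FiniteField.isSquare_neg_one_iff.2 (by rw [hF]; norm_num)
  refine ⟨⟨Nat.prime_three, hchar, hF, ω, ?_, ?_, by decide⟩⟩
  · simp only [tbl9, Nat.cast_zero, Nat.cast_ofNat]
    linear_combination -hω - h3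
  · simp only [tbl9, Nat.cast_zero]
    linear_combination -ω * hω

lemma exists_rep25 (hF : Fintype.card F = 5 ^ 2) : Nonempty (tbl25.Rep F) := by
  classical
  have hp5 : Nat.Prime 5 := by norm_num
  have hchar := char_of_card_sq hp5 hF
  have h5 : (5 : F) = 0 := CharP.ofNat_eq_zero F 5
  obtain ⟨u, hu⟩ := exists_prime_orderOf_dvd_card' (G := Fˣ) 3
    (by rw [Nat.card_eq_fintype_card, Fintype.card_units, hF]; norm_num)
  set ω : F := (u : F)
  have hω3 : ω ^ 3 = 1 := by
    have h := pow_orderOf_eq_one u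
    rw [hu] at h
    simpa [ω] using congrArg Units.val h
  have hω1 : ω ≠ 1 := fun h => by
    rw [Units.ext (show (u : F) = (1 : Fˣ).val from h), orderOf_one] at hu
    norm_num at hu
  have hq : ω ^ 2 + ω + 1 = 0 :=
    (mul_eq_zero.1 (show (ω - 1) * (ω ^ 2 + ω + 1) = 0 by linear_combination hω3)).resolve_left (sub_ne_zero.2 hω1)
  refine ⟨⟨hp5, hchar, hF, ω, ?_, ?_, by decide⟩⟩
  · simp only [tbl25, Nat.cast_ofNat]
    linear_combination hq - (ω + 1) * h5
  · simp only [tbl25, Nat.cast_ofNat]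
    linear_combination ω ^ 2 * hω3 + hq - h5

end CfsgLib.AschPrime.Three
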