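import Cfsg.Agent.AschPrime.UnitarySubspace

/-! Monomial and extension-field members against the special unitary group. -/

set_option autoImplicit false
set_option linter.unusedSectionVars false

namespace CfsgLib.AschPrime

open Cfsg.Geo Module
open scoped Matrix MatrixGroups

variable {F : Type*} [Field F] [Fintype F] {q n : ℕ}
variable (hF : Fintype.card F = q ^ 2)
include hF

lemma exists_norm_ne {r : F} (hq : 3 ≤ q) : ∃ s : F, s ≠ 0 ∧ s ^ (q + 1) ≠ r := by
  by_contra h
  push Not at h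
  obtain ⟨g, hg⟩ := IsCyclic.exists_generator (α := Fˣ)
  have hord : orderOf g = q ^ 2 - 1 := by
    rw [orderOf_eq_card_of_forall_mem_zpowers hg, Nat.card_units, Nat.card_eq_fintype_card, hF]
  have h1 : g ^ (q + 1) = 1 := by
    refine Units.ext ?_
    rw [Units.val_pow_eq_pow_val, h _ (Units.ne_zero g), ← h 1 one_ne_zero]
    simp
  rw [← orderOf_dvd_iff_pow_eq_one, hord] at h1
  have h2 := Nat.le_of_dvd (by omega) h1
  have h3 : 3 * q ≤ q ^ 2 := by rw [pow_two]; exact Nat.mul_le_mul_right q hq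
  omega

lemma exists_isotropic (hn : 2 ≤ n) : ∃ v : Fin n → F, v ≠ 0 ∧ Cfsg.hermForm n F q v v = 0 := by
  have h0 : ∀ i, Cfsg.hermForm n F q (Pi.single i (1 : F)) (Pi.single i 1) = 1 := fun i => by
    simp [Cfsg.hermForm, Pi.single_apply, zero_pow (q_pos hF).ne', ite_pow]
  set i : Fin n := ⟨0, by omega⟩
  set j : Fin n := ⟨1, by omega⟩
  have hij : i ≠ j := by simp [i, j]
  have hab : Cfsg.hermForm n F q (Pi.single i (1 : F)) (Pi.single j 1) = 0 := by
    simp [Cfsg.hermForm, Pi.single_apply, zero_pow (q_pos hF).ne', ite_pow, Ne.symm hij]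
  obtain ⟨t, -, hv⟩ := exists_isotropic_combination hF hab (by rw [h0]; exact one_ne_zero)
    (by rw [h0]; exact one_ne_zero)
  refine ⟨_, fun h => (one_ne_zero (α := F)) ?_, hv⟩
  simpa [Pi.single_apply, hij] using congrFun h i

section frame

variable {D : Fin n → Submodule F (Fin n → F)} (hD : IsNondegenerateMDecomposition (Cfsg.hermForm n F q) 1 D)
include hD

lemma frame_basis : ∃ e : Fin n → (Fin n → F), (∀ i, e i ∈ D i) ∧
    (∀ i, Cfsg.hermForm n F q (e i) (e i) ≠ 0) ∧ (∀ i j, i ≠ j → Cfsg.hermForm n F q (e i) (e j) = 0) := by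
  have h : ∀ i, ∃ e ∈ D i, Cfsg.hermForm n F q e e ≠ 0 := fun i =>
    exists_anisotropic hF (hD.nondegenerate i) fun h => by
      have := hD.decomp.finrank_eq i
      rw [h, finrank_bot] at this
      exact zero_ne_one this
  choose e he hee using h
  exact ⟨e, he, hee, fun i j hij => hD.orthogonal i j hij _ (he i) _ (he j)⟩

/-- The special unitary group does not preserve an orthogonal frame. -/
theorem not_le_decompositionStabilizer (hn : 3 ≤ n) (hq : 3 ≤ q ∨ 4 ≤ n) :
    ¬ Cfsg.GU n F q ⊓ specialLinear (Fin n) F ≤ decompositionStabilizer D := by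
  classical
  intro hle
  obtain ⟨e, he, hee, horth⟩ := frame_basis hF hD
  obtain ⟨c, hc0, hc⟩ := exists_trace_zero hF
  set i₀ : Fin n := ⟨0, by omega⟩
  set i₁ : Fin n := ⟨1, by omega⟩
  set i₂ : Fin n := ⟨2, by omega⟩
  have h01 : i₀ ≠ i₁ := by simp [i₀, i₁]
  have h02 : i₀ ≠ i₂ := by simp [i₀, i₂]
  have h12 : i₁ ≠ i₂ := by simp [i₁, i₂]
  obtain ⟨v, hv, hv0, hv1, hv2⟩ : ∃ v, Cfsg.hermForm n F q v v = 0 ∧
      Cfsg.hermForm n F q v (e i₀) ≠ 0 ∧ Cfsg.hermForm n F q v (e i₁) ≠ 0 ∧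
      Cfsg.hermForm n F q v (e i₂) ≠ 0 := by
    rcases hq with hq | hn4
    · obtain ⟨s, hs0, hs⟩ := exists_norm_ne hF hq
        (r := -Cfsg.hermForm n F q (e i₀) (e i₀) / Cfsg.hermForm n F q (e i₁) (e i₁))
      have h10 := horth i₁ i₀ h01.symm
      have hu : Cfsg.hermForm n F q (e i₀ + s • e i₁) (e i₀ + s • e i₁) ≠ 0 := by
        simp only [herm_add_left, herm_add_right hF, herm_smul_left, herm_smul_right hF, horth _ _ h01, h10]
        intro h
        refine hs ?_
        rw [eq_div_iff (hee i₁), pow_succ]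
        linear_combination h
      have hu2 : Cfsg.hermForm n F q (e i₀ + s • e i₁) (e i₂) = 0 := by
        rw [herm_add_left, herm_smul_left, horth _ _ h02, horth _ _ h12, mul_zero, add_zero]
      obtain ⟨t, ht, hv⟩ := exists_isotropic_combination hF hu2 hu (hee i₂)
      refine ⟨_, hv, ?_, ?_, ?_⟩ <;>
        simp [herm_add_left, herm_smul_left, horth _ _ h01, h10, horth _ _ h02,
          horth _ _ h12, horth _ _ h02.symm, horth _ _ h12.symm, hee, hs0, ht]
    · by_cases hq3 : 3 ≤ q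
      · obtain ⟨s, hs0, hs⟩ := exists_norm_ne hF hq3
          (r := -Cfsg.hermForm n F q (e i₀) (e i₀) / Cfsg.hermForm n F q (e i₁) (e i₁))
        have h10 := horth i₁ i₀ h01.symm
        have hu : Cfsg.hermForm n F q (e i₀ + s • e i₁) (e i₀ + s • e i₁) ≠ 0 := by
          simp only [herm_add_left, herm_add_right hF, herm_smul_left, herm_smul_right hF, horth _ _ h01, h10]
          intro h
          refine hs ?_
          rw [eq_div_iff (hee i₁), pow_succ]
          linear_combination h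
        have hu2 : Cfsg.hermForm n F q (e i₀ + s • e i₁) (e i₂) = 0 := by
          rw [herm_add_left, herm_smul_left, horth _ _ h02, horth _ _ h12, mul_zero, add_zero]
        obtain ⟨t, ht, hv⟩ := exists_isotropic_combination hF hu2 hu (hee i₂)
        refine ⟨_, hv, ?_, ?_, ?_⟩ <;>
          simp [herm_add_left, herm_smul_left, horth _ _ h01, h10, horth _ _ h02,
            horth _ _ h12, horth _ _ h02.symm, horth _ _ h12.symm, hee, hs0, ht]
      · obtain rfl : q = 2 := by have := one_lt_q hF; omega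
        set i₃ : Fin n := ⟨3, by omega⟩
        have hval : ∀ i, Cfsg.hermForm n F 2 (e i) (e i) = 1 := fun i => by
          have h := herm_self_fixed hF (e i)
          refine mul_left_cancel₀ (hee i) ?_
          linear_combination h
        have h2F : (2 : F) = 0 := by
          obtain ⟨p, k, hp, hc', hpk⟩ := exists_char_pow hF
          have : p = 2 := by
            have hd : p ∣ 2 := by
              rcases k with _ | k
              · simp at hpk
              · exact hpk ▸ dvd_pow_self p (Nat.succ_ne_zero k)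
            exact (Nat.prime_dvd_prime_iff_eq hp Nat.prime_two).1 hd
          subst this
          exact_mod_cast CharP.cast_eq_zero F 2
        have h03 : i₀ ≠ i₃ := by simp [i₀, i₃]
        have h13 : i₁ ≠ i₃ := by simp [i₁, i₃]
        have h23 : i₂ ≠ i₃ := by simp [i₂, i₃]
        refine ⟨e i₀ + e i₁ + e i₂ + e i₃, ?_, ?_, ?_, ?_⟩ <;>
          simp only [herm_add_left, herm_add_right hF, hval, horth _ _ h01, horth _ _ h01.symm, horth _ _ h02,
            horth _ _ h02.symm, horth _ _ h12, horth _ _ h12.symm, horth _ _ h03, horth _ _ h03.symm,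
            horth _ _ h13, horth _ _ h13.symm, horth _ _ h23, horth _ _ h23.symm]
        · linear_combination (2 : F) * h2F
        all_goals simp
  obtain ⟨σ, hσ⟩ := hle (utransv_mem hF hv hc)
  have hT : utransv hv c *ᵥ e i₀ ∈ D (σ i₀) := by
    rw [← hσ i₀]
    exact ⟨e i₀, he i₀, by simp⟩
  rw [utransv_mulVec] at hT
  obtain ⟨j, hj, hjσ⟩ : ∃ j, j ≠ i₀ ∧ (j = i₁ ∨ j = i₂) ∧ j ≠ σ i₀ := by
    by_cases h : σ i₀ = i₁
    · exact ⟨i₂, h02.symm, Or.inr rfl, h ▸ h12.symm⟩
    · exact ⟨i₁, h01.symm, Or.inl rfl, Ne.symm h⟩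
  have hz := hD.orthogonal (σ i₀) j hjσ.2.symm _ hT _ (he j)
  rw [herm_add_left, herm_smul_left, horth _ _ hj.symm, zero_add, mul_eq_zero, mul_eq_zero] at hz
  have h0v : Cfsg.hermForm n F q (e i₀) v ≠ 0 := fun h => hv0 (by
    rw [herm_symm hF, h, zero_pow (q_pos hF).ne'])
  rcases hz with (h | h) | h
  · exact hc0 h
  · exact h0v h
  · rcases hjσ.1 with rfl | rfl
    exacts [hv1 h, hv2 h]

end frame

/-- The special unitary group does not normalise a field of matrices of degree `n`. -/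
theorem not_le_subalgebraNormalizer (hn : 3 ≤ n) {K : Subalgebra F (Matrix (Fin n) (Fin n) F)}
    (hK : IsFieldSubalgebra n K) :
    ¬ Cfsg.GU n F q ⊓ specialLinear (Fin n) F ≤ subalgebraNormalizer K := by
  intro hle
  obtain ⟨c, hc0, hc⟩ := exists_trace_zero hF
  obtain ⟨v, hv0, hv⟩ := exists_isotropic hF (n := n) (by omega)
  set φ : Module.Dual F (Fin n → F) := hermDual q v with hφ
  set T := utransv hv c
  have hfix : ∀ x, φ x = 0 → (T : Matrix (Fin n) (Fin n) F) *ᵥ x = x := fun x hx => by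
    rw [utransv_mulVec, show Cfsg.hermForm n F q x v = 0 from hx]; simp
  have hcomm : ∀ k ∈ K, (T : Matrix (Fin n) (Fin n) F) * k = k * T := by
    intro k hk
    set k' := (T : Matrix (Fin n) (Fin n) F) * k * ((T⁻¹ : GL (Fin n) F) : Matrix (Fin n) (Fin n) F) with hk'
    have hk'K : k' ∈ K := (hle (utransv_mem hF hv hc) k).1 hk
    have hTk : k' * T = (T : Matrix (Fin n) (Fin n) F) * k := by rw [hk', mul_assoc, Units.inv_mul, mul_one]
    suffices h : k' = k by rw [← hTk, h]
    by_contra hne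
    obtain ⟨y, -, hy⟩ := hK.inv _ (K.sub_mem hk'K hk) (sub_ne_zero.2 hne)
    let Φ : (Fin n → F) →ₗ[F] F × F := φ.prod (φ ∘ₗ Matrix.toLin' k)
    have hker : LinearMap.ker Φ ≠ ⊥ := by
      intro h
      have h1 := LinearMap.finrank_range_add_finrank_ker Φ
      have h2 := Submodule.finrank_le (LinearMap.range Φ)
      rw [h, finrank_bot, finrank_fin_fun] at h1
      rw [Module.finrank_prod, Module.finrank_self] at h2
      omega
    obtain ⟨x, hx, hx0⟩ := Submodule.exists_mem_ne_zero_of_ne_bot hker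
    replace hx : φ x = 0 ∧ φ (k *ᵥ x) = 0 := by
      have h := LinearMap.mem_ker.1 hx
      exact ⟨congrArg Prod.fst h, congrArg Prod.snd h⟩
    have h1 := congrArg (· *ᵥ x) hTk
    simp only [← Matrix.mulVec_mulVec, hfix x hx.1, hfix _ hx.2] at h1
    refine hx0 ?_
    have h2 : y * (k' - k) = 1 := mul_eq_one_comm.1 hy
    rw [← Matrix.one_mulVec x, ← h2, ← Matrix.mulVec_mulVec, Matrix.sub_mulVec, h1, sub_self, Matrix.mulVec_zero]
  obtain ⟨u, hu, hu0⟩ : ∃ u, φ u = 0 ∧ u ≠ 0 := ⟨v, hv, hv0⟩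
  let ev : K →ₗ[F] (Fin n → F) :=
    { toFun := fun k => (k : Matrix (Fin n) (Fin n) F) *ᵥ u
      map_add' := fun a b => by simp [Matrix.add_mulVec]
      map_smul' := fun a b => by simp [Matrix.smul_mulVec] }
  have hinj : Function.Injective ev := by
    rw [← LinearMap.ker_eq_bot, Submodule.eq_bot_iff]
    intro k hk
    by_contra h0
    obtain ⟨y, -, hy⟩ := hK.inv _ k.2 fun h => h0 (Subtype.ext h)
    have h2 : y * (k : Matrix (Fin n) (Fin n) F) = 1 := mul_eq_one_comm.1 hy
    refine hu0 ?_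
    rw [← Matrix.one_mulVec u, ← h2, ← Matrix.mulVec_mulVec,
      show (k : Matrix (Fin n) (Fin n) F) *ᵥ u = 0 from hk, Matrix.mulVec_zero]
  have hsurj := (LinearMap.injective_iff_surjective_of_finrank_eq_finrank
    (hK.finrank_eq.trans (finrank_fin_fun F).symm)).1 hinj
  obtain ⟨z, hz⟩ : ∃ z, Cfsg.hermForm n F q z v ≠ 0 := by
    by_contra h
    push Not at h
    exact hv0 (herm_nondeg' hF h)
  obtain ⟨k, hk⟩ := hsurj z
  have hfixz : (T : Matrix (Fin n) (Fin n) F) *ᵥ z = z := by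
    rw [← hk]
    show (T : Matrix (Fin n) (Fin n) F) *ᵥ ((k : Matrix (Fin n) (Fin n) F) *ᵥ u) = _
    rw [Matrix.mulVec_mulVec, hcomm _ k.2, ← Matrix.mulVec_mulVec, hfix u hu]
    rfl
  rw [utransv_mulVec, add_eq_left, smul_eq_zero, mul_eq_zero] at hfixz
  tauto

omit hF in
/-- The adjoint matrix for the standard hermitian form. -/
def hadj (q : ℕ) (k : Matrix (Fin n) (Fin n) F) : Matrix (Fin n) (Fin n) F := fun j i => k i j ^ q

lemma hadj_spec (k : Matrix (Fin n) (Fin n) F) (u v : Fin n → F) :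
    Cfsg.hermForm n F q (k *ᵥ u) v = Cfsg.hermForm n F q u (hadj q k *ᵥ v) := by
  simp only [Cfsg.hermForm, Matrix.mulVec, dotProduct, hadj, q_sum_pow hF, mul_pow, q_pow_pow hF,
    Finset.sum_mul, Finset.mul_sum]
  rw [Finset.sum_comm]
  exact Finset.sum_congr rfl fun i _ => Finset.sum_congr rfl fun j _ => by ring

/-- The commutant of a group of isometries is closed under adjoints. -/
theorem isAdjointClosed_commutant {A : Subgroup (GL (Fin n) F)} (hA : A ≤ Cfsg.GU n F q)
    {K : Subalgebra F (Matrix (Fin n) (Fin n) F)}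
    (hK : ∀ k, k ∈ K ↔ ∀ a ∈ matrixSet A, k * a = a * k) :
    IsAdjointClosedFor (Cfsg.hermForm n F q) K := by
  intro k hk
  refine ⟨hadj q k, (hK _).2 ?_, hadj_spec hF k⟩
  rintro _ ⟨a, ha, rfl⟩
  refine Matrix.ext_of_mulVec_single fun i => ?_
  refine sub_eq_zero.1 (herm_nondeg' hF fun y => ?_)
  obtain ⟨w, rfl⟩ : ∃ w, (a : Matrix (Fin n) (Fin n) F) *ᵥ w = y :=
    ⟨((a⁻¹ : GL (Fin n) F) : Matrix (Fin n) (Fin n) F) *ᵥ y, by simp [Matrix.mulVec_mulVec]⟩
  set x : Fin n → F := Pi.single i 1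
  have hcomm := (hK k).1 hk _ ⟨a, ha, rfl⟩
  have h1 : Cfsg.hermForm n F q ((a : Matrix (Fin n) (Fin n) F) *ᵥ w)
      ((hadj q k * (a : Matrix (Fin n) (Fin n) F)) *ᵥ x) = Cfsg.hermForm n F q (k *ᵥ w) x := by
    rw [← Matrix.mulVec_mulVec, ← hadj_spec hF, Matrix.mulVec_mulVec, hcomm, ← Matrix.mulVec_mulVec,
      mem_GU.1 (hA ha)]
  have h2 : Cfsg.hermForm n F q ((a : Matrix (Fin n) (Fin n) F) *ᵥ w)
      (((a : Matrix (Fin n) (Fin n) F) * hadj q k) *ᵥ x) = Cfsg.hermForm n F q (k *ᵥ w) x := by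
    rw [← Matrix.mulVec_mulVec, mem_GU.1 (hA ha), ← hadj_spec hF]
  have hadd := herm_add_right hF (((hadj q k * (a : Matrix (Fin n) (Fin n) F)) *ᵥ x) -
    (((a : Matrix (Fin n) (Fin n) F) * hadj q k) *ᵥ x)) (((a : Matrix (Fin n) (Fin n) F) * hadj q k) *ᵥ x)
    ((a : Matrix (Fin n) (Fin n) F) *ᵥ w)
  rw [sub_add_cancel, h1, h2] at hadd
  exact left_eq_add.1 (hadd.trans (add_comm _ _))

omit hF in
/-- An involution without fixed points does not exist on a finite type of odd cardinality. -/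
lemma exists_fixed_of_odd {α : Type*} [Fintype α] (h : Odd (Fintype.card α)) (π : Equiv.Perm α)
    (hπ : ∀ x, π (π x) = x) : ∃ x, π x = x := by
  classical
  have hpow : π ^ (2 : ℕ) ^ 1 = 1 := by
    refine Equiv.ext fun x => ?_
    simp [pow_two, Equiv.Perm.mul_apply, hπ]
  exact Equiv.Perm.exists_fixed_point_of_prime (p := 2) (n := 1)
    (fun hd => Nat.not_even_iff_odd.2 h (even_iff_two_dvd.2 hd)) hpow

/-- A transitively permuted frame of eigenlines with distinct characters is orthogonal. -/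
theorem isNondegenerateMDecomposition_of_diag (hn : Odd n) {H A : Subgroup (GL (Fin n) F)}
    (hH : H ≤ Cfsg.GU n F q) (hA : A ≤ Cfsg.GU n F q) {D : Fin n → Submodule F (Fin n → F)}
    (hD : IsMDecomposition 1 D) (χ : Fin n → GL (Fin n) F → F)
    (hχ : ∀ i, ∀ a ∈ A, ∀ x ∈ D i, (a : Matrix (Fin n) (Fin n) F) *ᵥ x = χ i a • x)
    (hdist : ∀ i j, (∀ a ∈ A, χ i a = χ j a) → i = j)
    (_hperm : H ≤ decompositionStabilizer D)
    (htrans : ∀ i j, ∃ h ∈ H, (D i).map (Matrix.toLin' (h : Matrix (Fin n) (Fin n) F)) = D j) :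
    IsNondegenerateMDecomposition (Cfsg.hermForm n F q) 1 D := by
  classical
  have hline : ∀ i, ∃ e, e ∈ D i ∧ e ≠ 0 := fun i =>
    Submodule.exists_mem_ne_zero_of_ne_bot fun h => by
      have := hD.finrank_eq i
      rw [h, finrank_bot] at this
      exact zero_ne_one this
  choose e he he0 using hline
  have hspan : ∀ i, ∀ x ∈ D i, ∃ t : F, x = t • e i := fun i x hx => by
    obtain ⟨t, ht⟩ := exists_smul_eq_of_finrank_eq_one (hD.finrank_eq i)
      (x := (⟨e i, he i⟩ : D i)) (fun h => he0 i (congrArg Subtype.val h)) ⟨x, hx⟩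
    exact ⟨t, (congrArg Subtype.val ht).symm⟩
  -- pairing relation
  have hchar : ∀ i j, Cfsg.hermForm n F q (e i) (e j) ≠ 0 → ∀ a ∈ A, χ i a * χ j a ^ q = 1 := by
    intro i j hij a ha
    have h := mem_GU.1 (hA ha) (e i) (e j)
    rw [hχ i a ha _ (he i), hχ j a ha _ (he j), herm_smul_left, herm_smul_right hF, ← mul_assoc] at h
    exact mul_right_cancel₀ hij (h.trans (one_mul _).symm)
  have huniq : ∀ i j k, Cfsg.hermForm n F q (e i) (e j) ≠ 0 → Cfsg.hermForm n F q (e i) (e k) ≠ 0 → j = k := by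
    intro i j k hj hk
    refine hdist j k fun a ha => ?_
    have h1 := hchar i j hj a ha
    have h2 := hchar i k hk a ha
    have h0 : χ i a ≠ 0 := fun h => by simp [h] at h1
    have h3 : χ j a ^ q = χ k a ^ q := mul_left_cancel₀ h0 (h1.trans h2.symm)
    simpa [q_pow_pow hF] using congrArg (· ^ q) h3
  have hex : ∀ i, ∃ j, Cfsg.hermForm n F q (e i) (e j) ≠ 0 := by
    intro i
    by_contra h
    push Not at h
    refine he0 i (herm_nondeg hF fun y => ?_)
    have hy : y ∈ iSup D := by rw [hD.iSup_eq_top]; trivial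
    refine Submodule.iSup_induction D (motive := fun z => Cfsg.hermForm n F q (e i) z = 0) hy
      (fun j x hx => ?_) (herm_zero_right hF _) (fun x y hx hy => by rw [herm_add_right hF, hx, hy, add_zero])
    obtain ⟨t, rfl⟩ := hspan j x hx
    rw [herm_smul_right hF, h j, mul_zero]
  choose π hπ using hex
  have hinv : ∀ i, π (π i) = i := fun i => huniq (π i) _ _ (hπ _) (fun h => hπ i (by
    rw [herm_symm hF, h, zero_pow (q_pos hF).ne']))
  obtain ⟨i₀, hi₀⟩ := exists_fixed_of_odd (α := Fin n) (by simpa using hn)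
    (Equiv.mk π π hinv hinv) hinv
  have hall : ∀ j, π j = j := by
    intro j
    obtain ⟨h, hh, hmap⟩ := htrans i₀ j
    have hx : (h : Matrix (Fin n) (Fin n) F) *ᵥ e i₀ ∈ D j := by
      rw [← hmap]
      exact ⟨e i₀, he i₀, by simp⟩
    obtain ⟨t, ht⟩ := hspan j _ hx
    have h1 := mem_GU.1 (hH hh) (e i₀) (e i₀)
    rw [ht, herm_smul_left, herm_smul_right hF] at h1
    refine huniq j _ _ (hπ j) fun h0 => ?_
    rw [h0, mul_zero, mul_zero] at h1
    refine hπ i₀ ?_
    rw [show π i₀ = i₀ from hi₀, ← h1]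
  refine ⟨hD, fun i w hw hw0 => ?_, fun i j hij u hu v hv => ?_⟩
  · obtain ⟨t, rfl⟩ := hspan i w hw
    have ht : t ≠ 0 := fun h => hw0 (by simp [h])
    have hne : Cfsg.hermForm n F q (e i) (e i) ≠ 0 := by
      have := hπ i
      rwa [hall i] at this
    refine ⟨⟨e i, he i, ?_⟩, e i, he i, ?_⟩
    · rw [herm_smul_right hF]; exact mul_ne_zero (pow_ne_zero _ ht) hne
    · rw [herm_smul_left]; exact mul_ne_zero ht hne
  · obtain ⟨t, rfl⟩ := hspan i u hu
    obtain ⟨s, rfl⟩ := hspan j v hv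
    rw [herm_smul_left, herm_smul_right hF]
    by_contra h
    exact hij ((hall i).symm.trans (huniq i (π i) j (hπ i) fun h' => h (by rw [h', mul_zero, mul_zero])))

end CfsgLib.AschPrime
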