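import Cfsg.Agent.AschPrime.ThreeTools
import Cfsg.Agent.AschPrime.ThreeRep
import Cfsg.Agent.AschPrime.UnitaryFrameField

/-! Over twenty-five elements the stabiliser of an orthogonal frame in three dimensions is not maximal. -/

set_option autoImplicit false
set_option linter.unusedSectionVars false
set_option maxRecDepth 100000
set_option maxHeartbeats 1000000

namespace CfsgLib.AschPrime.Three

open Cfsg.Geo ThreeData
open scoped Matrix MatrixGroups

/-- Numerical powers of a code. -/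
def tpow (T : QTable) (z : ℕ) : ℕ → ℕ
  | 0 => 1
  | i + 1 => T.mul (tpow T z i) z

variable {F : Type*} [Field F] [Fintype F]

lemma φ_tpow {T : QTable} (R : T.Rep F) (z i : ℕ) : R.φ (tpow T z i) = R.φ z ^ i := by
  induction i with
  | zero => simp [tpow]
  | succ i ih => rw [tpow, R.φ_mul, ih, pow_succ]

lemma zeta_code : tpow tbl25 frZeta 6 = 1 ∧ ∀ i : Fin 6, i ≠ 0 →
    tpow tbl25 frZeta i ≠ 1 ∧ tpow tbl25 frZeta i < 25 := by decide

lemma zeta_primitive (R : tbl25.Rep F) : IsPrimitiveRoot (R.φ frZeta) 6 := by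
  refine (IsPrimitiveRoot.iff (by norm_num)).2 ⟨by rw [← φ_tpow, zeta_code.1, R.φ_one], fun i hi hi6 h => ?_⟩
  obtain ⟨h1, h2⟩ := zeta_code.2 ⟨i, hi6⟩ (fun e => hi.ne' (congrArg Fin.val e))
  rw [← φ_tpow, ← R.φ_one] at h
  exact h1 (R.φ_injective h2 (by norm_num [tbl25]) h)

/-- Monomial matrices are recorded by a permutation of the coordinates. -/
def IsMono (g : GL (Fin 3) F) (σ : Fin 3 → Fin 3) (c : Fin 3 → F) : Prop :=
  ∀ j, g.val *ᵥ Pi.single j 1 = c j • Pi.single (σ j) 1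

lemma frPerm_code : ∀ k, tbl25.IsUnitaryCode (frPerm k) ∧ tbl25.det (frPerm k) = 1 ∧
    (∀ l i, tbl25.mv (frPerm k) (frPts l) i = tbl25.mul (frPermScal k l) (frPts (frPermPerm k l) i)) ∧
    ∀ j r, r ≠ frSigma k j → frPerm k r j = 0 := by decide

lemma frSigma_surj : ∀ a b c : Fin 3, a ≠ b → a ≠ c → b ≠ c →
    ∃ k, frSigma k 0 = a ∧ frSigma k 1 = b ∧ frSigma k 2 = c := by decide

lemma frD_code : (tbl25.IsUnitaryCode frD1 ∧ tbl25.det frD1 = 1 ∧
      ∀ l i, tbl25.mv frD1 (frPts l) i = tbl25.mul (frD1Scal l) (frPts (frD1Perm l) i)) ∧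
    tbl25.IsUnitaryCode frD2 ∧ tbl25.det frD2 = 1 ∧
      ∀ l i, tbl25.mv frD2 (frPts l) i = tbl25.mul (frD2Scal l) (frPts (frD2Perm l) i) := by decide

lemma frD_shape : frD1 = ![![frZeta, 0, 0], ![0, 20, 0], ![0, 0, 1]] ∧
    frD2 = ![![1, 0, 0], ![0, frZeta, 0], ![0, 0, 20]] ∧ tbl25.mul frZeta 20 = 1 :=
  ⟨rfl, rfl, rfl⟩

lemma frW_code : tbl25.IsUnitaryCode frW ∧ tbl25.det frW = 1 ∧
    (∀ l i, tbl25.mv frW (frPts l) i = tbl25.mul (frWScal l) (frPts (frWPerm l) i)) ∧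
    ∃ j r r', r ≠ r' ∧ frW r j ≠ 0 ∧ frW r' j ≠ 0 ∧ frW r j < 25 ∧ frW r' j < 25 := by decide

lemma frT_code : tbl25.IsUnitaryCode frT ∧ tbl25.det frT = 1 ∧
    (∀ x, x ∈ List.ofFn (tbl25.mv frT (frPts frTIdx)) → x < 25) ∧
    ∀ l, ∀ c < 25, ∃ i,
      tbl25.mv frT (frPts frTIdx) i ≠ tbl25.mul c (frPts l i) ∧ tbl25.mul c (frPts l i) < 25 := by decide

/-- Isometries with determinant one permuting the coordinate lines preserve the point set. -/
lemma mono_mem (R : tbl25.Rep F) {y : GL (Fin 3) F} (hy : y ∈ Cfsg.GU 3 F 5 ⊓ specialLinear (Fin 3) F)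
    {σ : Equiv.Perm (Fin 3)} {c : Fin 3 → F} (hc : IsMono y σ c) :
    y ∈ lineStab fun l => R.vec (frPts l) := by
  obtain ⟨k, hk0, hk1, hk2⟩ := frSigma_surj (σ 0) (σ 1) (σ 2) (σ.injective.ne (by decide))
    (σ.injective.ne (by decide)) (σ.injective.ne (by decide))
  obtain ⟨hPu, hPd, hPa, hPz⟩ := frPerm_code k
  obtain ⟨P, hP, hPK, hPM⟩ := exists_mem R _ _ hPu hPd hPa
  have hσ : ∀ j, frSigma k j = σ j := by intro j; fin_cases j <;> assumption
  have hPmono : IsMono P σ fun j => R.φ (frPerm k (σ j) j) := by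
    intro j
    rw [hP, Matrix.mulVec_single_one]
    funext r
    rcases eq_or_ne r (σ j) with rfl | hr
    · simp
    · show R.φ (frPerm k r j) = _
      rw [hPz j r (hσ j ▸ hr)]
      simp [hr]
  have hcne : ∀ (g : GL (Fin 3) F) j (x : F), g.val *ᵥ Pi.single j 1 = x • Pi.single (σ j) 1 → x ≠ 0 := by
    intro g j x h hx
    rw [hx, zero_smul] at h
    have h' := congrArg ((g⁻¹ : GL (Fin 3) F).val *ᵥ ·) h
    simp only [Matrix.mulVec_mulVec, ← Units.val_mul, inv_mul_cancel, Units.val_one, Matrix.one_mulVec,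
      Matrix.mulVec_zero] at h'
    exact one_ne_zero (α := F) (by simpa using congrFun h' j)
  set d : Fin 3 → F := fun j => c j / R.φ (frPerm k (σ j) j)
  set z := P⁻¹ * y
  have hzK : z ∈ Cfsg.GU 3 F 5 ⊓ specialLinear (Fin 3) F := mul_mem (inv_mem hPK) hy
  have hz : ∀ j, z.val *ᵥ Pi.single j 1 = d j • Pi.single j 1 := by
    intro j
    have hp0 := hcne P j _ (hPmono j)
    rw [Units.val_mul, ← Matrix.mulVec_mulVec, hc j, show c j = d j * R.φ (frPerm k (σ j) j) from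
      (div_mul_cancel₀ _ hp0).symm, ← smul_smul, ← hPmono j, Matrix.mulVec_smul, Matrix.mulVec_mulVec,
      ← Units.val_mul, inv_mul_cancel, Units.val_one, Matrix.one_mulVec]
  have hzdiag : z.val = Matrix.diagonal d := by
    refine Matrix.ext_of_mulVec_single fun j => ?_
    rw [hz, Matrix.mulVec_single_one]
    funext r
    rcases eq_or_ne r j with rfl | hr <;> simp [Matrix.diagonal, *]
  have hnorm : ∀ j, d j ^ 6 = 1 := by
    intro j
    have h := mem_GU.1 hzK.1 (Pi.single j 1) (Pi.single j 1)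
    rw [hz] at h
    simpa [Cfsg.hermForm, Pi.single_apply, ← pow_succ'] using h
  have hprod : d 0 * d 1 * d 2 = 1 := by
    have h : z.val.det = 1 := congrArg Units.val (MonoidHom.mem_ker.1 hzK.2)
    rw [hzdiag, Matrix.det_diagonal, Fin.prod_univ_three] at h
    exact h
  have hprim := zeta_primitive R
  obtain ⟨a, -, ha⟩ := hprim.eq_pow_of_pow_eq_one (hnorm 0)
  obtain ⟨b, -, hb⟩ := hprim.eq_pow_of_pow_eq_one (ξ := d 0 * d 1) (by rw [mul_pow, hnorm, hnorm, one_mul])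
  obtain ⟨D1, h1, -, h1M⟩ := exists_mem R _ _ frD_code.1.1 frD_code.1.2.1 frD_code.1.2.2
  obtain ⟨D2, h2, -, h2M⟩ := exists_mem R _ _ frD_code.2.1 frD_code.2.2.1 frD_code.2.2.2
  set ζ := R.φ frZeta
  have hinv : R.φ 20 = ζ⁻¹ := by
    refine eq_inv_of_mul_eq_one_right ?_
    rw [← R.φ_mul, frD_shape.2.2, R.φ_one]
  have e1 : D1.val = Matrix.diagonal ![ζ, ζ⁻¹, 1] := by
    rw [h1, frD_shape.1]
    ext i j
    fin_cases i <;> fin_cases j <;> simp [Matrix.diagonal, hinv, ζ]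
  have e2 : D2.val = Matrix.diagonal ![1, ζ, ζ⁻¹] := by
    rw [h2, frD_shape.2.1]
    ext i j
    fin_cases i <;> fin_cases j <;> simp [Matrix.diagonal, hinv, ζ]
  have hze : z = D1 ^ a * D2 ^ b := by
    have hζ0 : ζ ≠ 0 := hprim.ne_zero (by norm_num)
    refine Units.ext ?_
    rw [hzdiag, Units.val_mul, Units.val_pow_eq_pow_val, Units.val_pow_eq_pow_val, e1, e2, Matrix.diagonal_pow,
      Matrix.diagonal_pow, Matrix.diagonal_mul_diagonal]
    congr 1
    funext j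
    fin_cases j
    · simpa using ha.symm
    · show d 1 = ζ⁻¹ ^ a * ζ ^ b
      rw [inv_pow, eq_inv_mul_iff_mul_eq₀ (pow_ne_zero _ hζ0), hb, ha]
    · show d 2 = 1 ^ a * ζ⁻¹ ^ b
      rw [one_pow, one_mul, inv_pow, hb]
      exact eq_inv_of_mul_eq_one_right hprod
  have : y = P * z := by simp [z]
  rw [this, hze]
  exact mul_mem hPM (mul_mem (pow_mem h1M a) (pow_mem h2M b))

/-- Over twenty-five elements a frame stabiliser is not maximal. -/
theorem frame_not_maximal (hF : Fintype.card F = 5 ^ 2) {H : Subgroup (GL (Fin 3) F)}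
    (hH : IsMaximalIn (Cfsg.GU 3 F 5 ⊓ specialLinear (Fin 3) F) H) {D : Fin 3 → Submodule F (Fin 3 → F)}
    (hD : IsNondegenerateMDecomposition (Cfsg.hermForm 3 F 5) 1 D)
    (hHD : H = decompositionStabilizer D ⊓ (Cfsg.GU 3 F 5 ⊓ specialLinear (Fin 3) F)) : False := by
  obtain ⟨R⟩ := exists_rep25 hF
  obtain ⟨e, he, hee, horth⟩ := frame_basis hF hD
  choose s hs using fun i => exists_norm_eq hF (a := (Cfsg.hermForm 3 F 5 (e i) (e i))⁻¹)
    (by rw [inv_pow, herm_self_fixed hF])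
  have hu : ∀ i j, Cfsg.hermForm 3 F 5 (s i • e i) (s j • e j) = if i = j then 1 else 0 := by
    intro i j
    rw [herm_smul_left, herm_smul_right hF, ← mul_assoc]
    split
    next h =>
      subst h
      rw [← pow_succ', hs, inv_mul_cancel₀ (hee i)]
    next h => rw [horth i j h, mul_zero]
  obtain ⟨V, hVU, hV⟩ := exists_isometry_of_orthonormal hF _ hu
  have hmono : ∀ x ∈ H, ∃ σ : Equiv.Perm (Fin 3), ∃ c, IsMono (V⁻¹ * x * V⁻¹⁻¹) σ c := by
    intro x hx
    rw [hHD] at hx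
    obtain ⟨σ, hσ⟩ := hx.1
    refine ⟨σ, ?_⟩
    suffices ∀ j, ∃ c : F, (V⁻¹ * x * V⁻¹⁻¹).val *ᵥ Pi.single j 1 = c • Pi.single (σ j) 1 by
      choose c hc using this
      exact ⟨c, hc⟩
    intro j
    have hmem : x.val *ᵥ (s j • e j) ∈ D (σ j) :=
      hσ j ▸ ⟨s j • e j, (D j).smul_mem _ (he j), Matrix.toLin'_apply _ _⟩
    have he0 : s (σ j) • e (σ j) ≠ 0 := fun h => by
      have := hu (σ j) (σ j)
      rw [h, herm_zero_left, if_pos rfl] at this
      exact zero_ne_one this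
    obtain ⟨c, hc⟩ := (finrank_eq_one_iff_of_nonzero' ⟨_, (D (σ j)).smul_mem (s (σ j)) (he _)⟩
      (fun h => he0 (congrArg Subtype.val h))).1 (hD.decomp.finrank_eq (σ j)) ⟨_, hmem⟩
    refine ⟨c, ?_⟩
    have hc' : c • (s (σ j) • e (σ j)) = x.val *ᵥ (s j • e j) := congrArg Subtype.val hc
    rw [inv_inv, Units.val_mul, Units.val_mul, ← Matrix.mulVec_mulVec, hV, ← Matrix.mulVec_mulVec, ← hc',
      Matrix.mulVec_smul, ← hV (σ j), Matrix.mulVec_mulVec, ← Units.val_mul, inv_mul_cancel, Units.val_one,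
      Matrix.one_mulVec]
  obtain ⟨w, hw, hwK, hwM⟩ := exists_mem R _ _ frW_code.1 frW_code.2.1 frW_code.2.2.1
  obtain ⟨t, ht, htK⟩ := R.exists_SU_of_code frT_code.1 frT_code.2.1
  have hg := conj_mem_SU_iff (q := 5) (inv_mem hVU)
  refine not_maximal_of_overgroup hH hg (M := lineStab fun l => R.vec (frPts l)) (fun x hx => ?_) hwK hwM ?_ htK
    (R.not_mem_lineStab_of_code ht frTIdx frT_code.2.2.1 frT_code.2.2.2)
  · obtain ⟨σ, c, hc⟩ := hmono x hx
    exact mono_mem R ((hg x).2 (hH.1.le hx)) hc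
  · intro hwH
    obtain ⟨σ, c, hc⟩ := hmono _ hwH
    obtain ⟨j, r, r', hrr, hr, hr', hl, hl'⟩ := frW_code.2.2.2
    have hcj := hc j
    rw [show V⁻¹ * (V⁻¹⁻¹ * w * V⁻¹) * V⁻¹⁻¹ = w by group, hw, Matrix.mulVec_single_one] at hcj
    have hz : ∀ r, r ≠ σ j → ¬ (frW r j ≠ 0 ∧ frW r j < 25) := fun r hne h => h.1 <| by
      refine R.φ_injective h.2 (by norm_num [tbl25]) ?_
      rw [R.φ_zero]
      simpa [hne] using congrFun hcj r
    rcases eq_or_ne r (σ j) with e | e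
    · exact hz r' (fun e' => hrr (e.trans e'.symm)) ⟨hr', hl'⟩
    · exact hz r e ⟨hr, hl⟩

end CfsgLib.AschPrime.Three
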