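import Cfsg.Agent.AschPrime.ThreeTools
import Cfsg.Agent.AschPrime.ThreeRep
import Cfsg.Agent.AschPrime.UnitarySubspace
import Cfsg.Agent.AschPrime.UnitaryFrameField
import Cfsg.Agent.Aschbacher.Proper

/-! The subgroups realised over the prime field in the three-dimensional unitary groups over nine and
twenty-five elements: they preserve a frame, respectively are not maximal. -/

set_option autoImplicit false
set_option linter.unusedSectionVars false
set_option maxRecDepth 100000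
set_option maxHeartbeats 1000000

namespace CfsgLib.AschPrime.Three

open Cfsg.Geo ThreeData
open scoped Matrix MatrixGroups

/-- Products of a transitive family and a stabiliser. -/
def soProd (k : Fin 30) (l : Fin 4) : Fin 3 → Fin 3 → ℕ :=
  tbl25.mm (soRot ⟨k, by omega⟩) (soRot ⟨30 + l, by omega⟩)

lemma soProd_cover : ∀ k : Fin 30, ∀ a b c : Fin 5,
    tbl25.herm ![a.val, b.val, c.val] ![a.val, b.val, c.val] = 1 →
    tbl25.herm (soUnit k) ![a.val, b.val, c.val] = 0 →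
    ∀ x y z : Fin 5, tbl25.herm ![x.val, y.val, z.val] ![x.val, y.val, z.val] = 1 →
    tbl25.herm (soUnit k) ![x.val, y.val, z.val] = 0 →
    tbl25.det (n := 3) ![![soUnit k 0, a.val, x.val], ![soUnit k 1, b.val, y.val], ![soUnit k 2, c.val, z.val]] = 1 →
    ∃ l : Fin 4, ∀ r : Fin 3, soProd k l r 0 = soUnit k r ∧ soProd k l r 1 = ![a.val, b.val, c.val] r ∧
      soProd k l r 2 = ![x.val, y.val, z.val] r := by decide

lemma lsum_lt {T : QTable} (hp : 0 < T.p) (l : List ℕ) : T.lsum l < T.p ^ 2 := by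
  induction l with
  | nil => simpa [QTable.lsum] using pow_pos hp 2
  | cons a l ih =>
    show T.add a (T.lsum l) < T.p ^ 2
    have h1 := Nat.mod_lt (a % T.p + T.lsum l % T.p) hp
    have h2 := Nat.mod_lt (a / T.p + T.lsum l / T.p) hp
    rw [QTable.add, sq]
    calc _ < T.p + T.p * ((a / T.p + T.lsum l / T.p) % T.p) := Nat.add_lt_add_right h1 _
      _ ≤ T.p * T.p := by
        calc T.p + T.p * ((a / T.p + T.lsum l / T.p) % T.p) = T.p * (((a / T.p + T.lsum l / T.p) % T.p) + 1) := by ring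
          _ ≤ T.p * T.p := Nat.mul_le_mul_left _ h2

variable {F : Type*} [Field F] [Fintype F]

/-- Any non-zero value is `a ^ 2 * x + b ^ 2 * y` with natural numbers below the characteristic. -/
lemma binary_code : ∀ p : Fin 6, p = 3 ∨ p = 5 → ∀ x y t : Fin 6, x < p → y < p → t < p →
    x ≠ 0 → y ≠ 0 → t ≠ 0 →
    ∃ a b : Fin 6, (a.val * a.val * x.val + b.val * b.val * y.val) % p.val = t.val := by decide

lemma code_of_fixed {T : QTable} (R : T.Rep F) (hp : T.p = 3 ∨ T.p = 5)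
    (hT : T = tbl9 ∨ T = tbl25) {x : F} (hx : x ^ T.p = x) : ∃ a < T.p, (a : F) = x := by
  obtain ⟨a, ha, rfl⟩ := R.φ_surjective x
  have hlt : ∀ t, t < T.p ^ 2 → T.conj t < T.p ^ 2 ∧ (T.conj t = t → t < T.p) := by
    rcases hT with rfl | rfl <;> decide
  have ha' := (hlt a ha).2 (R.φ_injective (hlt a ha).1 ha (by rw [R.φ_conj, hx]))
  exact ⟨a, ha', by simp [QTable.Rep.φ, Nat.mod_eq_of_lt ha', Nat.div_eq_of_lt ha']⟩

variable {q : ℕ} (hF : Fintype.card F = q ^ 2) {F₀ : Subfield F}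

/-- Vectors of the rational structure. -/
def InLat (F₀ : Subfield F) (P : GL (Fin 3) F) (v : Fin 3 → F) : Prop :=
  ∃ u : Fin 3 → F, (∀ i, u i ∈ F₀) ∧ P.val *ᵥ u = v

variable {P : GL (Fin 3) F}

lemma inLat_add {v w : Fin 3 → F} (hv : InLat F₀ P v) (hw : InLat F₀ P w) : InLat F₀ P (v + w) := by
  obtain ⟨u, hu, rfl⟩ := hv
  obtain ⟨u', hu', rfl⟩ := hw
  exact ⟨u + u', fun i => F₀.add_mem (hu i) (hu' i), Matrix.mulVec_add _ _ _⟩

lemma inLat_smul {v : Fin 3 → F} (hv : InLat F₀ P v) {c : F} (hc : c ∈ F₀) : InLat F₀ P (c • v) := by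
  obtain ⟨u, hu, rfl⟩ := hv
  exact ⟨c • u, fun i => F₀.mul_mem hc (hu i), Matrix.mulVec_smul _ _ _⟩

lemma inLat_zero : InLat F₀ P 0 := ⟨0, fun _ => F₀.zero_mem, Matrix.mulVec_zero _⟩

lemma inLat_sum {α : Type*} (s : Finset α) (f : α → Fin 3 → F) (h : ∀ a ∈ s, InLat F₀ P (f a)) :
    InLat F₀ P (∑ a ∈ s, f a) :=
  Finset.sum_induction _ (InLat F₀ P) (fun _ _ => inLat_add) inLat_zero h

include hF in
/-- An orthogonal family of anisotropic rational vectors extends. -/
lemma exists_next (h2 : (2 : F) ≠ 0) (hfix : ∀ x ∈ F₀, x ^ q = x)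
    (hrat : IsFormRationalStructure (Cfsg.hermForm 3 F q) F₀ 1 P) {m : ℕ} (hm : m < 3)
    (v : Fin m → Fin 3 → F) (hv : ∀ i, InLat F₀ P (v i))
    (hd : ∀ i, Cfsg.hermForm 3 F q (v i) (v i) ≠ 0) (ho : ∀ i j, i ≠ j → Cfsg.hermForm 3 F q (v i) (v j) = 0) :
    ∃ x, InLat F₀ P x ∧ (∀ i, Cfsg.hermForm 3 F q x (v i) = 0) ∧ Cfsg.hermForm 3 F q x x ≠ 0 := by
  set f := Cfsg.hermForm 3 F q with hf
  have hmem : ∀ {a b}, InLat F₀ P a → InLat F₀ P b → f a b ∈ F₀ := by
    rintro a b ⟨u, hu, rfl⟩ ⟨u', hu', rfl⟩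
    simpa using hrat u u' hu hu'
  have hsym : ∀ {a b}, InLat F₀ P a → InLat F₀ P b → f b a = f a b := fun ha hb => by
    rw [hf, herm_symm hF]; exact hfix _ (hmem ha hb)
  obtain ⟨π, hπdef⟩ : ∃ π : (Fin 3 → F) → (Fin 3 → F), ∀ x, π x = x + ∑ i, (-(f x (v i) / f (v i) (v i))) • v i :=
    ⟨_, fun _ => rfl⟩
  have hπ : ∀ {x}, InLat F₀ P x → InLat F₀ P (π x) := fun {x} hx =>
    hπdef x ▸ inLat_add hx (inLat_sum _ _ fun i _ =>
      inLat_smul (hv i) (F₀.neg_mem (F₀.div_mem (hmem hx (hv i)) (hmem (hv i) (hv i)))))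
  have hπo : ∀ x j, f (π x) (v j) = 0 := by
    intro x j
    have hs : f (∑ i, (-(f x (v i) / f (v i) (v i))) • v i) (v j) = -(f x (v j)) := by
      simp only [hf]
      rw [← hermDual_apply, map_sum, Finset.sum_eq_single j]
      · rw [map_smul, hermDual_apply, smul_eq_mul, neg_mul, div_mul_cancel₀ _ (hd j)]
      · intro i _ hij
        rw [map_smul, hermDual_apply, ← hf, ho i j hij, smul_zero]
      · simp
    rw [hπdef x, hf, herm_add_left, ← hf, hs, add_neg_cancel]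
  by_contra hcon
  push Not at hcon
  have hiso : ∀ {x}, InLat F₀ P x → f (π x) (π x) = 0 := fun hx => hcon _ (hπ hx) (hπo _)
  have hperp : ∀ {x y}, InLat F₀ P x → InLat F₀ P y → f (π x) (π y) = 0 := by
    intro x y hx hy
    have h : f (π x + π y) (π x + π y) = 0 := hcon _ (inLat_add (hπ hx) (hπ hy))
      fun i => by rw [hf, herm_add_left, ← hf, hπo, hπo, add_zero]
    rw [hf, herm_add_left, herm_add_right hF, herm_add_right hF, ← hf, hiso hx, hiso hy, hsym (hπ hx) (hπ hy)] at h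
    exact (mul_eq_zero.1 (by linear_combination h : (2 : F) * f (π x) (π y) = 0)).resolve_left h2
  have hstd : ∀ j, InLat F₀ P (P.val *ᵥ Pi.single j 1) := fun j => ⟨Pi.single j 1, fun i => by
    rcases eq_or_ne i j with rfl | h <;> simp [*, F₀.one_mem, F₀.zero_mem], rfl⟩
  have hsurj : ∀ z : Fin 3 → F, z ∈ Submodule.span F (Set.range fun j => P.val *ᵥ Pi.single j (1 : F)) := by
    intro z
    refine (Submodule.mem_span_range_iff_exists_fun F).2 ⟨(P⁻¹ : GL (Fin 3) F).val *ᵥ z, ?_⟩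
    have e : z = P.val *ᵥ ((P⁻¹ : GL (Fin 3) F).val *ᵥ z) := by
      rw [Matrix.mulVec_mulVec, ← Units.val_mul, mul_inv_cancel, Units.val_one, Matrix.one_mulVec]
    conv_rhs => rw [e]
    funext r
    simp [Matrix.mulVec, dotProduct, Finset.sum_apply, mul_comm]
  have hzero : ∀ j, π (P.val *ᵥ Pi.single j 1) = 0 := by
    intro j
    have hl : ∀ {y}, InLat F₀ P y → f y (π (P.val *ᵥ Pi.single j 1)) = 0 := by
      intro y hy
      have e : y = π y + ∑ i, (f y (v i) / f (v i) (v i)) • v i := by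
        rw [hπdef y]
        rw [add_assoc, ← Finset.sum_add_distrib]
        simp [← add_smul]
      rw [e, hf, herm_add_left, ← hf, hperp hy (hstd j), zero_add]
      simp only [hf]
      rw [← hermDual_apply, map_sum]
      refine Finset.sum_eq_zero fun i _ => ?_
      rw [map_smul, hermDual_apply, ← hf, hsym (hπ (hstd j)) (hv i), hπo, smul_zero]
    refine herm_nondeg' hF fun y => ?_
    induction hsurj y using Submodule.span_induction with
    | mem x hx => obtain ⟨i, rfl⟩ := hx; exact hl (hstd i)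
    | zero => exact herm_zero_left _
    | add x z _ _ hx hz => rw [herm_add_left, hx, hz, add_zero]
    | smul c x _ hx => rw [herm_smul_left, hx, mul_zero]
  have hle : (⊤ : Submodule F (Fin 3 → F)) ≤ Submodule.span F (Set.range v) := by
    intro z _
    refine (Submodule.span_le.2 ?_) (hsurj z)
    rintro _ ⟨j, rfl⟩
    have e : P.val *ᵥ Pi.single j 1 =
        -∑ i, (-(f (P.val *ᵥ Pi.single j 1) (v i) / f (v i) (v i))) • v i :=
      eq_neg_of_add_eq_zero_left (hπdef _ ▸ hzero j)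
    show P.val *ᵥ Pi.single j 1 ∈ _
    rw [e]
    exact Submodule.neg_mem _ (Submodule.sum_mem _ fun i _ => Submodule.smul_mem _ _ (Submodule.subset_span ⟨i, rfl⟩))
  have h1 := Submodule.finrank_mono hle
  rw [finrank_top, Module.finrank_fin_fun] at h1
  have h2' := finrank_range_le_card (R := F) v
  simp [Set.finrank] at h2'
  omega

variable {T : QTable} (R : T.Rep F)

include R in
/-- A rational orthogonal basis of equal non-zero lengths. -/
lemma exists_equal_frame (hT : T = tbl9 ∨ T = tbl25) (hfix : ∀ x ∈ F₀, x ^ T.p = x)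
    (hrat : IsFormRationalStructure (Cfsg.hermForm 3 F T.p) F₀ 1 P) :
    ∃ (v : Fin 3 → Fin 3 → F) (l : F), l ≠ 0 ∧ l ∈ F₀ ∧ (∀ i, InLat F₀ P (v i)) ∧
      ∀ i j, Cfsg.hermForm 3 F T.p (v i) (v j) = if i = j then l else 0 := by
  have hF := R.hcard
  have hchar := R.hchar
  have hp35 : T.p = 3 ∨ T.p = 5 := by rcases hT with rfl | rfl <;> simp [tbl9, tbl25]
  have h2 : (2 : F) ≠ 0 := fun h => by
    have hd := (CharP.cast_eq_zero_iff F T.p 2).1 (by exact_mod_cast h)
    rcases hp35 with h' | h' <;> rw [h'] at hd <;> norm_num at hd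
  set f := Cfsg.hermForm 3 F T.p with hf
  have hmem : ∀ {a b}, InLat F₀ P a → InLat F₀ P b → f a b ∈ F₀ := by
    rintro a b ⟨u, hu, rfl⟩ ⟨u', hu', rfl⟩
    simpa using hrat u u' hu hu'
  -- two orthogonal vectors can be rotated to give any length
  have hrot : ∀ {a b : Fin 3 → F} {t : F}, InLat F₀ P a → InLat F₀ P b → f a b = 0 → f a a ≠ 0 → f b b ≠ 0 →
      t ≠ 0 → t ∈ F₀ → ∃ a' b' : Fin 3 → F, InLat F₀ P a' ∧ InLat F₀ P b' ∧ f a' a' = t ∧ f a' b' = 0 ∧
        f b' b' = f a a * f b b * t ∧ ∀ c, f a c = 0 → f b c = 0 → f a' c = 0 ∧ f b' c = 0 := by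
    intro a b t ha hb hab haa hbb ht htF
    obtain ⟨x, hx, hx'⟩ := code_of_fixed R hp35 hT (hfix _ (hmem ha ha))
    obtain ⟨y, hy, hy'⟩ := code_of_fixed R hp35 hT (hfix _ (hmem hb hb))
    obtain ⟨z, hz, hz'⟩ := code_of_fixed R hp35 hT (hfix _ htF)
    have hne : ∀ {k : ℕ} {w : F}, (k : F) = w → w ≠ 0 → k ≠ 0 := fun h hw h0 => hw (by rw [← h, h0, Nat.cast_zero])
    have hp6 : T.p < 6 := by omega
    obtain ⟨⟨i, _⟩, ⟨j, _⟩, hij⟩ := binary_code ⟨T.p, hp6⟩ (by rcases hp35 with h | h <;> simp [Fin.ext_iff, h])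
      ⟨x, by omega⟩ ⟨y, by omega⟩ ⟨z, by omega⟩ hx hy hz (fun h => hne hx' haa (congrArg Fin.val h))
      (fun h => hne hy' hbb (congrArg Fin.val h)) (fun h => hne hz' ht (congrArg Fin.val h))
    replace hij : (i * i * x + j * j * y) % T.p = z := hij
    have hij' : (i : F) * i * f a a + (j : F) * j * f b b = t := by
      rw [← hx', ← hy', ← hz', ← hij, R.cast_mod]
      push_cast
      ring
    have hI : ∀ k : ℕ, (k : F) ∈ F₀ := fun k => natCast_mem F₀ k
    have hba : f b a = 0 := by rw [hf, herm_symm hF, ← hf, hab, zero_pow R.hp.ne_zero]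
    have hσ : ∀ c ∈ F₀, c ^ T.p = c := hfix
    have hfa := hmem ha ha
    have hfb := hmem hb hb
    have hi1 := hσ _ (hI i)
    have hj1 := hσ _ (hI j)
    have hn : (-((j : F) * f b b)) ^ T.p = -((j : F) * f b b) := hσ _ (F₀.neg_mem (F₀.mul_mem (hI j) hfb))
    have hn' : ((i : F) * f a a) ^ T.p = (i : F) * f a a := hσ _ (F₀.mul_mem (hI i) hfa)
    refine ⟨(i : F) • a + (j : F) • b, (-((j : F) * f b b)) • a + ((i : F) * f a a) • b,
      inLat_add (inLat_smul ha (hI i)) (inLat_smul hb (hI j)),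
      inLat_add (inLat_smul ha (F₀.neg_mem (F₀.mul_mem (hI j) hfb))) (inLat_smul hb (F₀.mul_mem (hI i) hfa)),
      ?_, ?_, ?_, fun c hac hbc => ⟨?_, ?_⟩⟩
    all_goals simp only [hf, herm_add_left, herm_add_right hF, herm_smul_left, herm_smul_right hF]
    all_goals simp only [← hf]
    all_goals try simp only [hi1, hj1, hn, hn', hab, hba, mul_zero, add_zero, zero_add]
    rotate_left 3
    · rw [hac, hbc]; ring
    · rw [hac, hbc]; ring
    · linear_combination hij'
    · ring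
    · linear_combination (f a a * f b b) * hij'
  obtain ⟨a, ha, -, haa⟩ := exists_next hF h2 hfix hrat (m := 0) (by norm_num) Fin.elim0 (fun i => i.elim0)
    (fun i => i.elim0) fun i => i.elim0
  obtain ⟨b, hb, hba, hbb⟩ := exists_next hF h2 hfix hrat (m := 1) (by norm_num) ![a] (fun i => by fin_cases i; exact ha)
    (fun i => by fin_cases i; exact haa) fun i j h => absurd (Subsingleton.elim i j) h
  have hba := hba 0
  have hab : f a b = 0 := by rw [hf, herm_symm hF]; simp at hba; rw [hba, zero_pow R.hp.ne_zero]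
  obtain ⟨c, hc, hcab, hcc⟩ := exists_next hF h2 hfix hrat (m := 2) (by norm_num) ![a, b]
    (fun i => by fin_cases i <;> [exact ha; exact hb]) (fun i => by fin_cases i <;> [exact haa; exact hbb])
    (fun i j h => by
      fin_cases i <;> fin_cases j <;> first | exact absurd rfl h | exact hab | exact hba)
  have hsym0 : ∀ {x y}, f x y = 0 → f y x = 0 := fun {x y} h => by
    rw [hf, herm_symm hF, ← hf, h, zero_pow R.hp.ne_zero]
  have hac : f a c = 0 := hsym0 (hcab 0)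
  have hbc : f b c = 0 := hsym0 (hcab 1)
  obtain ⟨a₁, b₁, ha₁, hb₁, e1, o1, e1', k1⟩ := hrot ha hb hab haa hbb one_ne_zero F₀.one_mem
  obtain ⟨b₂, c₂, hb₂, hc₂, e2, o2, e2', k2⟩ := hrot hb₁ hc (k1 c hac hbc).2
    (by rw [e1', mul_one]; exact mul_ne_zero haa hbb) hcc one_ne_zero F₀.one_mem
  have hab₂ := k2 a₁ (hsym0 o1) (hsym0 (k1 c hac hbc).1)
  set l := f c₂ c₂
  have hl : l ≠ 0 := by
    rw [e2', e1', mul_one, mul_one]
    exact mul_ne_zero (mul_ne_zero haa hbb) hcc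
  obtain ⟨a₃, b₃, ha₃, hb₃, e3, o3, e3', k3⟩ := hrot ha₁ hb₂ (hsym0 hab₂.1) (e1.trans_ne one_ne_zero)
    (e2.trans_ne one_ne_zero) hl (hmem hc₂ hc₂)
  have hk := k3 c₂ (hsym0 hab₂.2) o2
  refine ⟨![a₃, b₃, c₂], l, hl, hmem hc₂ hc₂, fun i => by fin_cases i <;> [exact ha₃; exact hb₃; exact hc₂], ?_⟩
  intro i j
  fin_cases i <;> fin_cases j <;> first
    | exact e3 | exact o3 | exact hk.1 | exact hk.2 | exact hsym0 o3 | exact hsym0 hk.1 | exact hsym0 hk.2
    | exact e3'.trans (by rw [e1, e2, one_mul, one_mul]; rfl) | rfl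

/-- After a change to a rational orthonormal basis the subgroup is made of scalar multiples of real
orthogonal codes. -/
theorem exists_orth_image (hT : T = tbl9 ∨ T = tbl25) (hcard : Fintype.card F = Nat.card F₀ ^ 2)
    (hrat : IsFormRationalStructure (Cfsg.hermForm 3 F T.p) F₀ 1 P) :
    ∃ g : GL (Fin 3) F, g ∈ Cfsg.GU 3 F T.p ∧
      ∀ x ∈ subfieldSubgroup F₀ P ⊓ (Cfsg.GU 3 F T.p ⊓ specialLinear (Fin 3) F),
        ∃ (c : F) (O : Fin 3 → Fin 3 → ℕ), (g * x * g⁻¹).val = c • R.mat O ∧ (∀ r s, O r s < T.p) ∧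
          T.IsUnitaryCode O ∧ R.φ (T.det O) = 1 := by
  have hF := R.hcard
  have hp35 : T.p = 3 ∨ T.p = 5 := by rcases hT with rfl | rfl <;> simp [tbl9, tbl25]
  have : Fintype F₀ := Fintype.ofFinite _
  have hfix : ∀ x ∈ F₀, x ^ T.p = x := fun x hx => by
    have hq : Nat.card F₀ = T.p := Nat.pow_left_injective two_ne_zero (hcard.symm.trans hF)
    have h := FiniteField.pow_card (⟨x, hx⟩ : F₀)
    rw [← Nat.card_eq_fintype_card, hq] at h
    exact congrArg Subtype.val h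
  obtain ⟨v, l, hl, hlF, hv, hvo⟩ := exists_equal_frame R hT hfix hrat
  obtain ⟨s, hs⟩ := exists_norm_eq hF (a := l⁻¹) (by rw [inv_pow, hfix l hlF])
  have hu : ∀ i j, Cfsg.hermForm 3 F T.p (s • v i) (s • v j) = if i = j then 1 else 0 := by
    intro i j
    rw [herm_smul_left, herm_smul_right hF, ← mul_assoc, ← pow_succ', hs, hvo]
    split <;> simp [hl]
  obtain ⟨V, hVU, hV⟩ := exists_isometry_of_orthonormal hF _ hu
  refine ⟨V⁻¹, inv_mem hVU, fun x hx => ?_⟩
  obtain ⟨hxF, hxK⟩ := hx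
  obtain ⟨S, d, hSd⟩ := Aschbacher.mem_subfieldSubgroup_iff.1 hxF
  set y := V⁻¹ * x * V⁻¹⁻¹ with hy
  have hyK : y ∈ Cfsg.GU 3 F T.p ⊓ specialLinear (Fin 3) F := (conj_mem_SU_iff (inv_mem hVU) x).2 hxK
  set S' : Matrix (Fin 3) (Fin 3) F := (S : Matrix (Fin 3) (Fin 3) F₀).map F₀.subtype
  have hS' : (P⁻¹ * x * P).val = (d : F) • S' := by
    rw [hSd, Units.val_mul]
    show S' * Matrix.scalar (Fin 3) (d : F) = _
    ext i j
    simp [Matrix.diagonal, Matrix.mul_apply, Finset.sum_ite_eq', mul_comm]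
  -- entries are rational multiples of one scalar
  have hentry : ∀ r j, ∃ m ∈ F₀, y.val r j = (d : F) * m := by
    intro r j
    obtain ⟨u, hu', huv⟩ := hv j
    have hxv : ∃ w, InLat F₀ P w ∧ x.val *ᵥ v j = (d : F) • w := by
      refine ⟨P.val *ᵥ (S' *ᵥ u), ⟨_, fun i => ?_, rfl⟩, ?_⟩
      · show ∑ k, S' i k * u k ∈ F₀
        exact sum_mem fun k _ => F₀.mul_mem ((S : Matrix (Fin 3) (Fin 3) F₀) i k).2 (hu' k)
      · rw [← Matrix.mulVec_smul, ← Matrix.smul_mulVec, ← hS', Matrix.mulVec_mulVec, ← huv, Matrix.mulVec_mulVec,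
          ← Units.val_mul, ← Units.val_mul]
        congr 2
        group
    obtain ⟨w, ⟨u', hu'', hw⟩, hxw⟩ := hxv
    refine ⟨Cfsg.hermForm 3 F T.p w (v r) / l, F₀.div_mem ?_ hlF, ?_⟩
    · obtain ⟨ur, hur, hurv⟩ := hv r
      rw [← hw, ← hurv]
      simpa using hrat u' ur hu'' hur
    have e : y.val r j = Cfsg.hermForm 3 F T.p (x.val *ᵥ (s • v j)) (s • v r) := by
      have h1 : x.val *ᵥ (V.val *ᵥ Pi.single j 1) = V.val *ᵥ (y.val *ᵥ Pi.single j 1) := by
        rw [Matrix.mulVec_mulVec, Matrix.mulVec_mulVec, ← Units.val_mul, ← Units.val_mul]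
        congr 2
        simp only [y]; group
      rw [← hV j, ← hV r, h1, mem_GU.1 hVU]
      simp [Cfsg.hermForm, Pi.single_apply, apply_ite (fun z : F => z ^ T.p), R.hp.ne_zero]
    rw [e, Matrix.mulVec_smul, hxw, herm_smul_left, herm_smul_left, herm_smul_right hF, div_eq_mul_inv, ← hs,
      pow_succ]
    ring
  choose m hm hym using hentry
  set M : Matrix (Fin 3) (Fin 3) F := Matrix.of m
  have hyM : y.val = (d : F) • M := by ext r j; rw [hym]; rfl
  have hd0 : (d : F) ≠ 0 := d.ne_zero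
  have hcol : ∀ i j, ∑ r, M r i * M r j = if i = j then ((d : F) ^ (T.p + 1))⁻¹ else 0 := by
    intro i j
    have h := mem_GU.1 hyK.1 (Pi.single i 1) (Pi.single j 1)
    simp only [hyM, Matrix.smul_mulVec, Matrix.mulVec_single_one, show ∀ i, ((d : F) • M).col i = (d : F) • M.col i from fun _ => rfl,
      herm_smul_left, herm_smul_right hF] at h
    have hr : Cfsg.hermForm 3 F T.p (M.col i) (M.col j) = ∑ r, M r i * M r j := by
      simp only [Cfsg.hermForm]
      exact Finset.sum_congr rfl fun r _ => by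
        show M r i * M r j ^ T.p = _
        rw [show M r j ^ T.p = M r j from hfix _ (hm r j)]
    have he : Cfsg.hermForm 3 F T.p (Pi.single i 1) (Pi.single j 1) = if i = j then 1 else 0 := by
      simp [Cfsg.hermForm, Pi.single_apply, apply_ite (fun z : F => z ^ T.p), R.hp.ne_zero, eq_comm]
    rw [hr, he, ← mul_assoc, ← pow_succ] at h
    split at h
    · rw [if_pos ‹_›]; exact eq_inv_of_mul_eq_one_right h
    · rw [if_neg ‹_›]; exact (mul_eq_zero.1 h).resolve_left (pow_ne_zero _ hd0)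
  set μ := (d : F) ^ (T.p + 1) with hμ
  have hμ0 : μ ≠ 0 := pow_ne_zero _ hd0
  have hdet : (d : F) ^ 3 * M.det = 1 := by
    have h : y.val.det = 1 := congrArg Units.val (MonoidHom.mem_ker.1 hyK.2)
    rwa [hyM, Matrix.det_smul, Fintype.card_fin] at h
  have hdetF : M.det ∈ F₀ := by
    rw [Matrix.det_fin_three]
    exact F₀.sub_mem (F₀.add_mem (F₀.add_mem (F₀.sub_mem (F₀.sub_mem (F₀.mul_mem (F₀.mul_mem (hm _ _) (hm _ _)) (hm _ _))
      (F₀.mul_mem (F₀.mul_mem (hm _ _) (hm _ _)) (hm _ _))) (F₀.mul_mem (F₀.mul_mem (hm _ _) (hm _ _)) (hm _ _)))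
      (F₀.mul_mem (F₀.mul_mem (hm _ _) (hm _ _)) (hm _ _))) (F₀.mul_mem (F₀.mul_mem (hm _ _) (hm _ _)) (hm _ _)))
      (F₀.mul_mem (F₀.mul_mem (hm _ _) (hm _ _)) (hm _ _))
  have hμD : μ ^ 3 * (M.det * M.det) = 1 := by
    have h : ((d : F) ^ 3 * M.det) ^ T.p * ((d : F) ^ 3 * M.det) = 1 := by rw [hdet, one_pow, one_mul]
    rw [mul_pow, hfix _ hdetF] at h
    rw [hμ, ← h]; ring
  have hD0 : M.det ≠ 0 := fun h => by rw [h] at hμD; simp at hμD
  set t := μ * M.det with ht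
  have ht0 : t ≠ 0 := mul_ne_zero hμ0 hD0
  have htt : t * t * μ = 1 := by rw [ht]; linear_combination hμD
  have hμF : μ ∈ F₀ := by
    rw [eq_inv_of_mul_eq_one_right htt, ht]
    have h1 : μ⁻¹ ∈ F₀ := by
      have := hcol 0 0
      rw [if_pos rfl] at this
      rw [← this]
      exact F₀.toSubring.sum_mem fun r _ => F₀.mul_mem (hm _ _) (hm _ _)
    have h1' : μ ∈ F₀ := by simpa using F₀.inv_mem h1
    exact F₀.inv_mem (F₀.mul_mem (F₀.mul_mem h1' hdetF) (F₀.mul_mem h1' hdetF))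
  -- normalise the sign of the determinant
  obtain ⟨e, he, hes⟩ : ∃ e : F, (e = 1 ∨ e = -1) ∧ (e / t) ^ 3 * M.det = 1 := by
    have hsq : ((1 / t) ^ 3 * M.det) * ((1 / t) ^ 3 * M.det) = 1 := by
      rw [div_pow, one_pow]
      field_simp
      have e : t ^ 6 * μ ^ 3 = 1 := by rw [show t ^ 6 * μ ^ 3 = (t * t * μ) ^ 3 by ring, htt, one_pow]
      linear_combination (t ^ 6) * hμD - (M.det ^ 2) * e
    rcases mul_self_eq_one_iff.1 hsq with h | h
    · exact ⟨1, Or.inl rfl, h⟩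
    · exact ⟨-1, Or.inr rfl, by linear_combination -h⟩
  have hee : e * e = 1 := by rcases he with rfl | rfl <;> ring
  have heF : e ∈ F₀ := by rcases he with rfl | rfl <;> [exact F₀.one_mem; exact F₀.neg_mem F₀.one_mem]
  have htF : t ∈ F₀ := F₀.mul_mem hμF hdetF
  choose O hO hOm using fun r j => code_of_fixed R hp35 hT (hfix _ (F₀.mul_mem (F₀.div_mem heF htF) (hm r j)))
  have hφ : ∀ r j, R.φ (O r j) = (O r j : F) := fun r j => by
    simp [QTable.Rep.φ, Nat.mod_eq_of_lt (hO r j), Nat.div_eq_of_lt (hO r j)]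
  have hmat : R.mat O = (e / t) • M := by ext r j; simp [hφ, hOm, M]
  have hp0 := R.hp.pos
  refine ⟨(d : F) * (t / e), O, ?_, hO, fun i j => ?_, ?_⟩
  · rw [hyM, hmat, smul_smul]
    congr 1
    have : e ≠ 0 := by rcases he with rfl | rfl <;> simp
    field_simp
  · refine R.φ_injective (lsum_lt hp0 _) ?_ ?_
    · split
      · exact Nat.one_lt_pow two_ne_zero R.hp.one_lt
      · exact pow_pos hp0 2
    rw [R.φ_herm, apply_ite R.φ, R.φ_one, R.φ_zero]
    calc Cfsg.hermForm 3 F T.p (R.vec fun r => O r i) (R.vec fun r => O r j)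
        = ∑ r, ((e / t) * M r i) * ((e / t) * M r j) := by
          simp only [Cfsg.hermForm, QTable.Rep.vec, hφ, hOm]
          exact Finset.sum_congr rfl fun r _ => by
            show _ * ((e / t) * m r j) ^ T.p = _
            rw [hfix _ (F₀.mul_mem (F₀.div_mem heF htF) (hm r j))]
            rfl
      _ = (e / t) * (e / t) * ∑ r, M r i * M r j := by
          rw [Finset.mul_sum]; exact Finset.sum_congr rfl fun r _ => by ring
      _ = _ := by
          rw [hcol]
          split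
          · field_simp
            linear_combination hee - htt
          · rw [mul_zero]
  · rw [← R.det_mat, hmat, Matrix.det_smul, Fintype.card_fin]
    exact hes

lemma orth3_mono : ∀ a b c : Fin 3, tbl9.herm ![a.val, b.val, c.val] ![a.val, b.val, c.val] = 1 →
    (a ≠ 0 ∧ b = 0 ∧ c = 0) ∨ (a = 0 ∧ b ≠ 0 ∧ c = 0) ∨ (a = 0 ∧ b = 0 ∧ c ≠ 0) := by decide

/-- Over nine elements a subgroup realised over three elements preserves a frame. -/
theorem subfield_le_frame (hF : Fintype.card F = 3 ^ 2) (hcard : Fintype.card F = Nat.card F₀ ^ 2)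
    (hrat : IsFormRationalStructure (Cfsg.hermForm 3 F 3) F₀ 1 P) {H : Subgroup (GL (Fin 3) F)}
    (hH : IsMaximalIn (Cfsg.GU 3 F 3 ⊓ specialLinear (Fin 3) F) H)
    (hHP : H = subfieldSubgroup F₀ P ⊓ (Cfsg.GU 3 F 3 ⊓ specialLinear (Fin 3) F)) :
    ∃ D : Fin 3 → Submodule F (Fin 3 → F), IsNondegenerateMDecomposition (Cfsg.hermForm 3 F 3) 1 D ∧
      H = decompositionStabilizer D ⊓ (Cfsg.GU 3 F 3 ⊓ specialLinear (Fin 3) F) := by
  obtain ⟨R⟩ := exists_rep9 hF
  obtain ⟨g, hg, himg⟩ := exists_orth_image R (Or.inl rfl) hcard hrat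
  set u : Fin 3 → Fin 3 → F := fun i => (g⁻¹ : GL (Fin 3) F).val *ᵥ Pi.single i 1
  have hu : ∀ i j, Cfsg.hermForm 3 F 3 (u i) (u j) = if i = j then 1 else 0 := by
    intro i j
    rw [show Cfsg.hermForm 3 F 3 (u i) (u j) = Cfsg.hermForm 3 F 3 (Pi.single i 1) (Pi.single j 1) from
      mem_GU.1 (inv_mem hg) _ _]
    simp [Cfsg.hermForm, Pi.single_apply, apply_ite (fun z : F => z ^ 3), eq_comm]
  have hu0 : ∀ i, u i ≠ 0 := fun i h => by
    have := hu i i
    rw [h, herm_zero_left, if_pos rfl] at this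
    exact zero_ne_one this
  set D : Fin 3 → Submodule F (Fin 3 → F) := fun i => Submodule.span F {u i}
  have hli : LinearIndependent F u := by
    rw [Fintype.linearIndependent_iff]
    intro c hc i
    have h : Cfsg.hermForm 3 F 3 (∑ j, c j • u j) (u i) = 0 := by rw [hc, herm_zero_left]
    rw [← hermDual_apply, map_sum] at h
    simpa [hu] using h
  have hD : IsNondegenerateMDecomposition (Cfsg.hermForm 3 F 3) 1 D := by
    refine ⟨⟨by norm_num, one_pos, fun i => finrank_span_singleton (hu0 i), hli.iSupIndep_span_singleton, ?_⟩, ?_, ?_⟩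
    · show ⨆ i, Submodule.span F {u i} = ⊤
      rw [← Submodule.span_range_eq_iSup, hli.span_eq_top_of_card_eq_finrank (by simp)]
    · intro i w hw hw0
      obtain ⟨a, rfl⟩ := Submodule.mem_span_singleton.1 hw
      have ha : a ≠ 0 := fun h => hw0 (by rw [h, zero_smul])
      exact ⟨⟨u i, Submodule.mem_span_singleton_self _, by
          rw [herm_smul_right hF, hu, if_pos rfl, mul_one]; exact pow_ne_zero _ ha⟩,
        u i, Submodule.mem_span_singleton_self _, by rwa [herm_smul_left, hu, if_pos rfl, mul_one]⟩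
    · intro i j hij a ha b hb
      obtain ⟨a, rfl⟩ := Submodule.mem_span_singleton.1 ha
      obtain ⟨b, rfl⟩ := Submodule.mem_span_singleton.1 hb
      rw [herm_smul_left, herm_smul_right hF, hu, if_neg hij, mul_zero, mul_zero]
  refine ⟨D, hD, eq_inf_of_isMaximalIn hH (fun x hx => ?_)
    (not_le_decompositionStabilizer hF hD le_rfl (Or.inl le_rfl))⟩
  obtain ⟨c, O, hy, hlt, hO, -⟩ := himg x (hHP ▸ hx)
  have hcol : ∀ j, ∃ (r : Fin 3) (b : F), x.val *ᵥ u j = b • u r := by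
    intro j
    have hsupp : ∃ r : Fin 3, ∀ s, s ≠ r → O s j = 0 := by
      have h : tbl9.herm ![O 0 j, O 1 j, O 2 j] ![O 0 j, O 1 j, O 2 j] = 1 := by
        have e : (fun l => O l j) = ![O 0 j, O 1 j, O 2 j] := by funext l; fin_cases l <;> rfl
        rw [← e, hO j j, if_pos rfl]
      rcases orth3_mono ⟨_, hlt 0 j⟩ ⟨_, hlt 1 j⟩ ⟨_, hlt 2 j⟩ h with ⟨-, h1, h2⟩ | ⟨h1, -, h2⟩ | ⟨h1, h2, -⟩
      · refine ⟨0, fun s hs => ?_⟩
        fin_cases s <;> first | exact absurd rfl hs | exact congrArg Fin.val h1 | exact congrArg Fin.val h2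
      · refine ⟨1, fun s hs => ?_⟩
        fin_cases s <;> first | exact absurd rfl hs | exact congrArg Fin.val h1 | exact congrArg Fin.val h2
      · refine ⟨2, fun s hs => ?_⟩
        fin_cases s <;> first | exact absurd rfl hs | exact congrArg Fin.val h1 | exact congrArg Fin.val h2
    obtain ⟨r, hr⟩ := hsupp
    refine ⟨r, c * R.φ (O r j), ?_⟩
    have e : x.val = (g⁻¹ : GL (Fin 3) F).val * (g * x * g⁻¹).val * g.val := by
      rw [← Units.val_mul, ← Units.val_mul]; congr 1; group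
    rw [e, hy]
    show _ *ᵥ ((g⁻¹ : GL (Fin 3) F).val *ᵥ Pi.single j 1) = _
    rw [Matrix.mulVec_mulVec, Matrix.mul_assoc, ← Units.val_mul, mul_inv_cancel, Units.val_one, Matrix.mul_one,
      ← Matrix.mulVec_mulVec, show u r = (g⁻¹ : GL (Fin 3) F).val *ᵥ Pi.single r 1 from rfl, ← Matrix.mulVec_smul]
    congr 1
    rw [Matrix.mulVec_single_one]
    funext s
    rcases eq_or_ne s r with rfl | hs
    · simp
    · simp [hs, hr s hs]
  choose π b hb using hcol
  have hb0 : ∀ j, b j ≠ 0 := fun j h => by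
    have e := hb j
    rw [h, zero_smul] at e
    have e' := congrArg ((x⁻¹ : GL (Fin 3) F).val *ᵥ ·) e
    simp only [Matrix.mulVec_mulVec, ← Units.val_mul, inv_mul_cancel, Units.val_one, Matrix.one_mulVec,
      Matrix.mulVec_zero] at e'
    exact hu0 j e'
  have hπ : Function.Injective π := by
    intro i j hij
    by_contra hne
    have h1 := mem_GU.1 (hH.1.le hx).1 (u i) (u j)
    rw [hu, if_neg hne, hb, hb, herm_smul_left, herm_smul_right hF, hij, hu, if_pos rfl, mul_one] at h1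
    exact mul_ne_zero (hb0 i) (pow_ne_zero _ (hb0 j)) h1
  refine ⟨Equiv.ofBijective π hπ.bijective_of_finite, fun j => ?_⟩
  show Submodule.map _ (Submodule.span F {u j}) = Submodule.span F {u (π j)}
  rw [Submodule.map_span, Set.image_singleton, Matrix.toLin'_apply, hb,
    Submodule.span_singleton_smul_eq (hb0 j).isUnit]

lemma soRot_code : ∀ k, tbl25.IsUnitaryCode (soRot k) ∧ tbl25.det (soRot k) = 1 ∧
    ∀ l i, tbl25.mv (soRot k) (soPts l) i = tbl25.mul (soRotScal k l) (soPts (soRotPerm k l) i) := by decide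

lemma soUnit_cover : ∀ a b c : Fin 5, tbl25.herm ![a.val, b.val, c.val] ![a.val, b.val, c.val] = 1 →
    ∃ k, soUnit k 0 = a.val ∧ soUnit k 1 = b.val ∧ soUnit k 2 = c.val := by decide

lemma soW_code : tbl25.IsUnitaryCode soW ∧ tbl25.det soW = 1 ∧
    (∀ l i, tbl25.mv soW (soPts l) i = tbl25.mul (soWScal l) (soPts (soWPerm l) i)) ∧
    5 ≤ tbl25.mul (soW soRealW.1.1 soRealW.1.2) (tbl25.conj (soW soRealW.2.1 soRealW.2.2)) ∧
    tbl25.mul (soW soRealW.1.1 soRealW.1.2) (tbl25.conj (soW soRealW.2.1 soRealW.2.2)) < 25 := by decide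

lemma soT_code : tbl25.IsUnitaryCode soT ∧ tbl25.det soT = 1 ∧
    (∀ x, x ∈ List.ofFn (tbl25.mv soT (soPts soTIdx)) → x < 25) ∧
    ∀ l, ∀ c < 25, ∃ i,
      tbl25.mv soT (soPts soTIdx) i ≠ tbl25.mul c (soPts l i) ∧ tbl25.mul c (soPts l i) < 25 := by decide

lemma det_lt : ∀ n, ∀ A : Fin (n + 1) → Fin (n + 1) → ℕ, tbl25.det A < 25 :=
  fun n A => lsum_lt (T := tbl25) (by norm_num [tbl25]) _

/-- Over twenty-five elements a subgroup realised over five elements is not maximal. -/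
theorem subfield_not_maximal (hF : Fintype.card F = 5 ^ 2) (hcard : Fintype.card F = Nat.card F₀ ^ 2)
    (hrat : IsFormRationalStructure (Cfsg.hermForm 3 F 5) F₀ 1 P) {H : Subgroup (GL (Fin 3) F)}
    (hH : IsMaximalIn (Cfsg.GU 3 F 5 ⊓ specialLinear (Fin 3) F) H)
    (hHP : H = subfieldSubgroup F₀ P ⊓ (Cfsg.GU 3 F 5 ⊓ specialLinear (Fin 3) F)) : False := by
  obtain ⟨R⟩ := exists_rep25 hF
  obtain ⟨g, hg, himg⟩ := exists_orth_image R (Or.inr rfl) hcard hrat
  have hgK := conj_mem_SU_iff (q := 5) hg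
  obtain ⟨w, hw, hwK, hwM⟩ := exists_mem R _ _ soW_code.1 soW_code.2.1 soW_code.2.2.1
  obtain ⟨t, ht, htK⟩ := R.exists_SU_of_code soT_code.1 soT_code.2.1
  refine not_maximal_of_overgroup hH hgK (M := lineStab fun l => R.vec (soPts l)) (fun x hx => ?_) hwK hwM ?_ htK
    (R.not_mem_lineStab_of_code ht soTIdx soT_code.2.2.1 soT_code.2.2.2)
  · obtain ⟨c, O, hy, hlt, hO, hdet⟩ := himg x (hHP ▸ hx)
    have hd : tbl25.det O = 1 := R.φ_injective (det_lt 2 O) (by norm_num [tbl25]) (by rw [hdet, R.φ_one])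
    have e : ∀ j, (fun l => O l j) = ![O 0 j, O 1 j, O 2 j] := fun j => by funext l; fin_cases l <;> rfl
    have h00 : tbl25.herm ![O 0 0, O 1 0, O 2 0] ![O 0 0, O 1 0, O 2 0] = 1 := by rw [← e, hO, if_pos rfl]
    obtain ⟨k, k0, k1, k2⟩ := soUnit_cover ⟨_, hlt 0 0⟩ ⟨_, hlt 1 0⟩ ⟨_, hlt 2 0⟩ h00
    have hk : soUnit k = fun l => O l 0 := by funext l; fin_cases l <;> assumption
    obtain ⟨l, hl⟩ := soProd_cover k ⟨_, hlt 0 1⟩ ⟨_, hlt 1 1⟩ ⟨_, hlt 2 1⟩
      (by rw [← e, hO, if_pos rfl]) (by rw [hk, ← e, hO]; rfl)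
      ⟨_, hlt 0 2⟩ ⟨_, hlt 1 2⟩ ⟨_, hlt 2 2⟩ (by rw [← e, hO, if_pos rfl]) (by rw [hk, ← e, hO]; rfl)
      (by
        rw [hk]
        convert hd using 2
        funext r s
        fin_cases r <;> fin_cases s <;> rfl)
    obtain ⟨hu₁, hd₁, ha₁⟩ := soRot_code ⟨k, by omega⟩
    obtain ⟨hu₂, hd₂, ha₂⟩ := soRot_code ⟨30 + l, by omega⟩
    obtain ⟨A, hA, -, hAM⟩ := exists_mem R _ _ hu₁ hd₁ ha₁
    obtain ⟨B, hB, -, hBM⟩ := exists_mem R _ _ hu₂ hd₂ ha₂
    refine lineStab_smul (mul_mem hAM hBM) (c := c) ?_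
    rw [hy, Units.val_mul, hA, hB, ← R.mat_mm]
    congr 1
    ext r s
    show R.φ (O r s) = R.φ (soProd k l r s)
    obtain ⟨h0, h1, h2⟩ := hl r
    fin_cases s
    · show R.φ (O r 0) = R.φ (soProd k l r 0)
      rw [h0, hk]
    · show R.φ (O r 1) = R.φ (soProd k l r 1)
      rw [h1]; fin_cases r <;> rfl
    · show R.φ (O r 2) = R.φ (soProd k l r 2)
      rw [h2]; fin_cases r <;> rfl
  · intro hwH
    obtain ⟨c, O, hy, hlt, -, -⟩ := himg _ (hHP ▸ hwH)
    rw [show g * (g⁻¹ * w * g) * g⁻¹ = w by group, hw] at hy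
    set a := tbl25.mul (soW soRealW.1.1 soRealW.1.2) (tbl25.conj (soW soRealW.2.1 soRealW.2.2))
    have he : ∀ r s, R.φ (soW r s) = c * R.φ (O r s) := fun r s => congrFun (congrFun hy r) s
    have hfixO : ∀ r s, R.φ (O r s) ^ 5 = R.φ (O r s) := fun r s => by
      have h := R.φ_conj (O r s)
      have e : tbl25.conj (O r s) = O r s := by
        have hd : ∀ t < 5, tbl25.conj t = t := by decide
        exact hd _ (hlt r s)
      rw [e] at h
      exact h.symm
    have hfixa : R.φ a ^ 5 = R.φ a := by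
      simp only [a, R.φ_mul, R.φ_conj, he]
      show (c * R.φ _ * (c * R.φ _) ^ 5) ^ 5 = c * R.φ _ * (c * R.φ _) ^ 5
      simp only [mul_pow, hfixO]
      have hc : (c ^ 5) ^ 5 = c := q_pow_pow hF c
      rw [hc]; ring
    have hlt25 : ∀ t, t < 25 → tbl25.conj t < 25 ∧ (tbl25.conj t = t → t < 5) := by decide
    have hc := hlt25 a soW_code.2.2.2.2
    exact absurd (hc.2 (R.φ_injective hc.1 soW_code.2.2.2.2 (by rw [R.φ_conj]; exact hfixa))) (not_lt.2 soW_code.2.2.2.1)

end CfsgLib.AschPrime.Three
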