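import Cfsg.Agent.AschPrime.UnitaryCases
import Cfsg.Agent.Aschbacher.PrimeCore

/-! The geometric cases of a maximal subgroup of the special unitary group in odd prime dimension. -/

set_option autoImplicit false
set_option linter.unusedSectionVars false

namespace CfsgLib.AschPrime

open Cfsg.Geo Module
open scoped Matrix MatrixGroups

variable {F : Type*} [Field F] [Fintype F] {q n : ℕ}

omit [Fintype F] in
/-- A Heisenberg group commutes modulo scalars. -/
lemma heisenberg_comm_scalar (hn : n.Prime) {R : Subgroup (GL (Fin n) F)} [Finite R]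
    (hirr : ActsAbsolutelyIrreducibly (matrixSet R)) (hR : Nat.card R = n ^ 3)
    (hZ : Nat.card (Subgroup.center R) = n) :
    ∀ x ∈ R, ∀ y ∈ R, x * y * x⁻¹ * y⁻¹ ∈ scalars (Fin n) F := by
  intro x hx y hy
  have := Fact.mk hn
  have : Nonempty (Fin n) := ⟨⟨0, hn.pos⟩⟩
  have hq : Nat.card (R ⧸ Subgroup.center R) = n ^ 2 := by
    have h := Subgroup.card_eq_card_quotient_mul_card_subgroup (Subgroup.center R)
    rw [hR, hZ, pow_succ] at h
    exact (Nat.eq_of_mul_eq_mul_right hn.pos h).symm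
  have hcomm : IsMulCommutative (R ⧸ Subgroup.center R) := IsPGroup.isMulCommutative_of_card_eq_prime_sq hq
  have hmem : (⟨x, hx⟩ * ⟨y, hy⟩ * ⟨x, hx⟩⁻¹ * ⟨y, hy⟩⁻¹ : R) ∈ Subgroup.center R := by
    rw [← QuotientGroup.eq_one_iff]
    simp only [QuotientGroup.mk_mul, QuotientGroup.mk_inv]
    rw [hcomm.is_comm.comm (QuotientGroup.mk (⟨x, hx⟩ : R)) (QuotientGroup.mk ⟨y, hy⟩)]
    group
  refine Aschbacher.mem_scalars_of_commute hirr fun g hg => ?_
  exact (congrArg Subtype.val (Subgroup.mem_center_iff.1 hmem ⟨g, hg⟩)).symm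

variable (hF : Fintype.card F = q ^ 2)
include hF

/-- The centre of a Heisenberg group of isometries gives a norm-one root of unity of order `n`. -/
lemma exists_root_of_center (hn : n.Prime) {R : Subgroup (GL (Fin n) F)}
    (hirr : ActsAbsolutelyIrreducibly (matrixSet R)) (hRU : R ≤ Cfsg.GU n F q)
    (hZ : Nat.card (Subgroup.center R) = n) :
    ∃ ζ : F, IsPrimitiveRoot ζ n ∧ ζ ^ q = ζ⁻¹ := by
  have := Fact.mk hn
  have : Nonempty (Fin n) := ⟨⟨0, hn.pos⟩⟩
  have : Finite (Subgroup.center R) := Nat.finite_of_card_ne_zero (by rw [hZ]; exact hn.ne_zero)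
  obtain ⟨z, hz⟩ := exists_prime_orderOf_dvd_card' (G := Subgroup.center R) n (by rw [hZ])
  obtain ⟨c, hc⟩ := hirr.2 (z.1.1).val (by
    rintro _ ⟨x, hx, rfl⟩
    exact congrArg Units.val (congrArg Subtype.val (Subgroup.mem_center_iff.1 z.2 ⟨x, hx⟩)).symm)
  have hpow : ∀ m, (z.1.1).val ^ m = c ^ m • (1 : Matrix (Fin n) (Fin n) F) := fun m => by
    rw [hc, smul_pow, one_pow]
  have hiff : ∀ m, c ^ m = 1 ↔ z ^ m = 1 := by
    intro m
    have he : ((z ^ m).1.1).val = (z.1.1).val ^ m := rfl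
    constructor
    · intro h
      exact Subtype.ext (Subtype.ext (Units.ext (by rw [he, hpow, h, one_smul]; rfl)))
    · intro h
      have h1 : (z.1.1).val ^ m = 1 := by rw [← he, h]; rfl
      rw [hpow] at h1
      simpa using congrFun (congrFun h1 ⟨0, hn.pos⟩) ⟨0, hn.pos⟩
  have hprim : IsPrimitiveRoot c n := by
    refine ⟨(hiff n).2 ?_, fun m hm => ?_⟩
    · have h := pow_orderOf_eq_one z
      rwa [hz] at h
    · have h := orderOf_dvd_of_pow_eq_one ((hiff m).1 hm)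
      rwa [hz] at h
  refine ⟨c, hprim, ?_⟩
  obtain ⟨v, x, hvx⟩ := Aschbacher.IsNondegenerateForm.exists_ne (by simpa using hn.pos) (herm_isNondegenerateForm (n := n) hF)
  have hb := mem_GU.1 (hRU z.1.2) v x
  simp only [hc, Matrix.smul_mulVec, Matrix.one_mulVec, herm_smul_left, herm_smul_right hF] at hb
  rw [← mul_assoc] at hb
  exact eq_inv_of_mul_eq_one_left ((mul_eq_right₀ hvx).1 hb)

/-- Every case, with no condition yet on the small fields. -/
theorem prime_cases (hn : n.Prime) (hodd : Odd n) (hn3 : 3 ≤ n) (hq : 3 ≤ q ∨ 4 ≤ n) {H : Subgroup (GL (Fin n) F)}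
    (hH : IsMaximalIn (Cfsg.GU n F q ⊓ specialLinear (Fin n) F) H) :
    (∃ W : Submodule F (Fin n → F), W ≠ ⊥ ∧ IsTotallySingularFor (Cfsg.hermForm n F q) W ∧
      H = subspaceStabilizer W ⊓ (Cfsg.GU n F q ⊓ specialLinear (Fin n) F)) ∨
    (∃ W : Submodule F (Fin n → F), W ≠ ⊥ ∧ IsNondegenerateOn (Cfsg.hermForm n F q) W ∧
      2 * finrank F W < n ∧ H = subspaceStabilizer W ⊓ (Cfsg.GU n F q ⊓ specialLinear (Fin n) F)) ∨
    (∃ D : Fin n → Submodule F (Fin n → F), IsNondegenerateMDecomposition (Cfsg.hermForm n F q) 1 D ∧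
      H = decompositionStabilizer D ⊓ (Cfsg.GU n F q ⊓ specialLinear (Fin n) F)) ∨
    (∃ K : Subalgebra F (Matrix (Fin n) (Fin n) F), IsFieldSubalgebra n K ∧
      IsAdjointClosedFor (Cfsg.hermForm n F q) K ∧
      H = subalgebraNormalizer K ⊓ (Cfsg.GU n F q ⊓ specialLinear (Fin n) F)) ∨
    (∃ (F₀ : Subfield F) (r : ℕ) (P : GL (Fin n) F), r.Prime ∧ Odd r ∧
        Fintype.card F = Nat.card F₀ ^ r ∧ IsFormRationalStructure (Cfsg.hermForm n F q) F₀ 1 P ∧
        H = subfieldSubgroup F₀ P ⊓ (Cfsg.GU n F q ⊓ specialLinear (Fin n) F)) ∨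
    (Odd q ∧ ∃ (F₀ : Subfield F) (P : GL (Fin n) F), Fintype.card F = Nat.card F₀ ^ 2 ∧
        IsFormRationalStructure (Cfsg.hermForm n F q) F₀ 1 P ∧
        H = subfieldSubgroup F₀ P ⊓ (Cfsg.GU n F q ⊓ specialLinear (Fin n) F)) ∨
    (∃ (p k : ℕ) (R : Subgroup (GL (Fin n) F)), p.Prime ∧ CharP F p ∧ q = p ^ k ∧ 0 < k ∧ p ^ k % n = n - 1 ∧
      (∀ e, 0 < e → e < 2 * k → p ^ e % n ≠ 1) ∧ IsSymplecticTypeGroup n R ∧
      ActsAbsolutelyIrreducibly (matrixSet R) ∧ R ≤ Cfsg.GU n F q ∧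
      R ≤ similarityGroup (Cfsg.hermForm n F q) ∧ Nat.card R = n ^ 3 ∧ Nat.card (Subgroup.center R) = n ∧
      H ≤ subgroupNormalizer R ∧ ((5 ≤ n ∨ 9 < p) → H = subgroupNormalizer R ⊓ (Cfsg.GU n F q ⊓ specialLinear (Fin n) F))) ∨
    InUnitaryResidualClass H := by
  have : Nonempty (Fin n) := ⟨⟨0, hn.pos⟩⟩
  have hcard : Fintype.card (Fin n) = n := Fintype.card_fin n
  by_cases hirr : ActsIrreducibly (matrixSet H)
  swap
  · obtain ⟨W, hW, h0, htop⟩ : ∃ W : Submodule F (Fin n → F), Aschbacher.IsInvariantUnder H W ∧ W ≠ ⊥ ∧ W ≠ ⊤ := by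
      by_contra h
      push Not at h
      exact hirr (Aschbacher.actsIrreducibly_of_forall fun W hW => or_iff_not_imp_left.2 (h W hW))
    rcases maximal_reducible hF hodd hH h0 htop
      (fun g hg v => ⟨fun hv => hW g hg v hv, fun hv => by simpa [Matrix.mulVec_mulVec] using hW g⁻¹ (inv_mem hg) _ hv⟩)
      with h | h
    exacts [Or.inl h, Or.inr (Or.inl h)]
  rcases Aschbacher.prime_dim_structure (hcard.symm ▸ hn) (hcard.symm ▸ hodd) (hH.1.le.trans inf_le_right) hirr with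
    ⟨A, b, hA, -, -, hm, he, hs⟩ | ⟨A, hA, -, hK, hnorm, -⟩ | ⟨R, hR, hnorm, hHei⟩ | ⟨P, hP⟩
  · exact Or.inr (Or.inr (Or.inl (frame_case hF hodd hn3 hq hH hA hirr b hm he hs)))
  · rw [hcard] at hK
    exact Or.inr (Or.inr (Or.inr (Or.inl (field_case hF hn3 hH hA hK hnorm))))
  · obtain ⟨hsym, habs, hRc, hZc, -, b, hb⟩ := hHei
    rw [hcard] at hsym hRc hZc
    have hRU : R ≤ Cfsg.GU n F q := hR.trans (hH.1.le.trans inf_le_left)
    obtain ⟨ζ, hζ, hζq⟩ := exists_root_of_center hF hn habs hRU hZc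
    by_cases hsmall : ∃ F₀ : Subfield F, ζ ∈ F₀ ∧ F₀ ≠ ⊤
    · obtain ⟨F₀, hζF, h0⟩ := hsmall
      have hreal : RealisableOver F₀ (matrixSet R) := by
        refine Aschbacher.realisableOver_of_monomial b ?_
        rintro _ ⟨g, hg, rfl⟩
        obtain ⟨σ, c, hc, hgb⟩ := hb g hg
        refine ⟨σ, c, fun i => ?_, hgb⟩
        have hci := hc i
        rw [hcard] at hci
        have := NeZero.mk hn.ne_zero
        obtain ⟨j, -, hj⟩ := hζ.eq_pow_of_pow_eq_one hci
        exact hj ▸ pow_mem hζF j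
      rcases subfield_case hF hodd hn3 hH hR hnorm habs h0 hreal with h | h
      exacts [Or.inr (Or.inr (Or.inr (Or.inr (Or.inl h)))), Or.inr (Or.inr (Or.inr (Or.inr (Or.inr (Or.inl h)))))]
    push Not at hsmall
    obtain ⟨p, k, hp, hchar, rfl⟩ := exists_char_pow hF
    have hk : 0 < k := Nat.pos_of_ne_zero fun h => by
      have := one_lt_q hF
      simp [h] at this
    obtain ⟨hmod, hmin⟩ := minimal_field_arith hn hp hF hζ (by omega) hζq hsmall
    refine Or.inr (Or.inr (Or.inr (Or.inr (Or.inr (Or.inr (Or.inl ⟨p, k, R, hp, hchar, rfl, hk, hmod, hmin, hsym,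
      habs, hRU, fun g hg => ⟨1, fun u v => ?_⟩, hRc, hZc, Aschbacher.le_normalizer_of_forall_conj hnorm,
      fun hsize => ?_⟩))))))
    · rw [Units.val_one, one_mul]
      exact mem_GU.1 (hRU hg) u v
    · have : Finite R := Nat.finite_of_card_ne_zero (by rw [hRc]; exact pow_ne_zero 3 hn.ne_zero)
      refine eq_inf_of_isMaximalIn hH (Aschbacher.le_normalizer_of_forall_conj hnorm)
        (not_le_subgroupNormalizer hF hn3 habs (heisenberg_comm_scalar hn habs hRc hZc) ?_)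
      rcases le_or_gt 5 n with h5 | h5
      · exact Or.inl h5
      · obtain rfl : n = 3 := by interval_cases n <;> first | rfl | norm_num at hn
        refine hsize.imp_right fun h9 => ?_
        rw [ringChar.eq F p]
        have hidx := Subgroup.index_mul_card (Subgroup.center R)
        rw [hRc, hZc] at hidx
        omega
  · rcases core_case hF hodd hn3 hH hP.le hP.normal hP.perfect hP.simple hP.nonabelian hP.centralizer_scalar
      hP.absIrred with h | h | h
    exacts [Or.inr (Or.inr (Or.inr (Or.inr (Or.inl h)))), Or.inr (Or.inr (Or.inr (Or.inr (Or.inr (Or.inl h))))),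
      Or.inr (Or.inr (Or.inr (Or.inr (Or.inr (Or.inr (Or.inr h))))))]

end CfsgLib.AschPrime
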