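import Cfsg.Agent.AschPrime.ThreeTools
import Cfsg.Agent.AschPrime.ThreeFrame
import Cfsg.Agent.AschPrime.UnitaryPrime

/-! Over twenty-five elements the normaliser of an extraspecial group of order twenty-seven is not maximal
in the three-dimensional special unitary group. -/

set_option autoImplicit false
set_option linter.unusedSectionVars false
set_option maxRecDepth 100000
set_option maxHeartbeats 1000000

namespace CfsgLib.AschPrime.Three

open Cfsg.Geo ThreeData
open scoped Matrix MatrixGroups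

/-- Codes of the zeroth, first and second power. -/
def pow3 (A : Fin 3 → Fin 3 → ℕ) (i : Fin 3) : Fin 3 → Fin 3 → ℕ :=
  if i = 0 then heR 0 else if i = 1 then A else tbl25.mm A A

lemma heR_code : ∀ k i j : Fin 3, ∀ r c,
    heR ⟨9 * k + 3 * i + j, by omega⟩ r c =
      tbl25.mul (tpow tbl25 5 k) (tbl25.mm (pow3 (heR 3) i) (pow3 (heR 1) j) r c) := by decide

lemma heR_scalar : ∀ k : Fin 3, ∀ r c,
    heR ⟨9 * k, by omega⟩ r c = tbl25.mul (tpow tbl25 5 k) (heR 0 r c) := by decide

lemma heR_lt : ∀ a r c, heR a r c < 25 := by decide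

lemma heR_distinct : ∀ a b, (∀ r c, heR a r c = heR b r c) → a = b := by decide

lemma heR_one : (∀ r c, heR 0 r c = if r = c then 1 else 0) ∧
    ∀ r c, heR 3 r c = if r = c then tpow tbl25 5 r else 0 := by decide

lemma heR_cycle : ∀ r c : Fin 3, heR 1 r c = if r = c + 1 then 1 else 0 := by decide

lemma heU_code : ∀ i, tbl25.IsUnitaryCode (heU i) ∧ tbl25.det (heU i) = 1 ∧
    (∀ l s, tbl25.mv (heU i) (hePts l) s = tbl25.mul (heUScal i l) (hePts (heUPerm i l) s)) ∧
    (∀ r c, tbl25.mm (heU i) (heR 3) r c = tbl25.mm (heR (heUX i)) (heU i) r c) ∧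
    ∀ r c, tbl25.mm (heU i) (heR 1) r c = tbl25.mm (heR (heUY i)) (heU i) r c := by decide

lemma heU_cover : ∀ a, (∃ i, heUX i = a) ∨
    (∀ r c, r ≠ c → heR a r c = 0) ∧ heR a 0 0 = heR a 1 1 := by decide

lemma heD_cover : ∀ a b : Fin 6,
    let d : Fin 3 → ℕ := ![tpow tbl25 frZeta a, tpow tbl25 frZeta b, tpow tbl25 frZeta (5 * (a.val + b.val))]
    let D : Fin 3 → Fin 3 → ℕ := fun r c => if r = c then d r else 0
    ∀ e : Fin 27, (∀ r c, tbl25.mm D (heR 1) r c = tbl25.mm (heR e) D r c) →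
      ∃ i, ∃ s < 25, ∀ r c, D r c = tbl25.mul s (heU i r c) := by decide

lemma heW_code : tbl25.IsUnitaryCode heW ∧ tbl25.det heW = 1 ∧
    (∀ l s, tbl25.mv heW (hePts l) s = tbl25.mul (heWScal l) (hePts (heWPerm l) s)) ∧
    (∀ r c, tbl25.mm heW (heR 3) r c = tbl25.mm heWC heW r c) ∧
    (∀ r c, heWC r c < 25) ∧ ∀ a, ∃ r c, heWC r c ≠ heR a r c := by decide

lemma heT_code : tbl25.IsUnitaryCode heT ∧ tbl25.det heT = 1 ∧
    (∀ x, x ∈ List.ofFn (tbl25.mv heT (hePts heTIdx)) → x < 25) ∧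
    ∀ l, ∀ c < 25, ∃ i,
      tbl25.mv heT (hePts heTIdx) i ≠ tbl25.mul c (hePts l i) ∧ tbl25.mul c (hePts l i) < 25 := by decide

variable {F : Type*} [Field F] [Fintype F]

lemma mulVec_eq_zero_imp {g : GL (Fin 3) F} {v : Fin 3 → F} (h : g.val *ᵥ v = 0) : v = 0 := by
  have := congrArg ((g⁻¹ : GL (Fin 3) F).val *ᵥ ·) h
  simpa [Matrix.mulVec_mulVec] using this

/-- An extraspecial group of isometries is carried to the standard one. -/
lemma exists_standard (R : tbl25.Rep F) {P : Subgroup (GL (Fin 3) F)} (hsym : IsSymplecticTypeGroup 3 P)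
    (habs : ActsAbsolutelyIrreducibly (matrixSet P)) (hPU : P ≤ Cfsg.GU 3 F 5) (hcard : Nat.card P = 27)
    (hcen : Nat.card (Subgroup.center P) = 3) :
    ∃ g : GL (Fin 3) F, g ∈ Cfsg.GU 3 F 5 ∧
      (∀ a, ∃ r ∈ P, (g * r * g⁻¹).val = R.mat (heR a)) ∧ ∀ r ∈ P, ∃ a, (g * r * g⁻¹).val = R.mat (heR a) := by
  classical
  have hF : Fintype.card F = 5 ^ 2 := R.hcard
  have hfin : Finite P := Nat.finite_of_card_ne_zero (by rw [hcard]; norm_num)
  have hexp : ∀ x ∈ P, x ^ 3 = 1 := by
    intro x hx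
    have h := Monoid.pow_exponent_eq_one (⟨x, hx⟩ : P)
    rw [hsym.exponent_eq] at h
    exact congrArg Subtype.val h
  have hcl2 := heisenberg_comm_scalar (n := 3) Nat.prime_three habs (by rw [hcard]; norm_num) hcen
  obtain ⟨x₀, hx₀, y, hy, hne⟩ := Aschbacher.exists_not_commute (by simp) habs
  set ω : F := R.φ 5
  have hω : ω = R.ω := by simp [ω, QTable.Rep.φ, tbl25]
  have hω1 : ω ≠ 1 := fun h => absurd (R.φ_injective (by norm_num [tbl25]) (by norm_num [tbl25]) (h.trans R.φ_one.symm)) (by norm_num)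
  have hω3 : ω ^ 3 = 1 := by
    have h : tpow tbl25 5 3 = 1 := by decide
    rw [show ω ^ 3 = R.φ (tpow tbl25 5 3) from (φ_tpow R 5 3).symm, h, R.φ_one]
  have hω2 : ω ^ 2 + ω + 1 = 0 :=
    (mul_eq_zero.1 (show (ω - 1) * (ω ^ 2 + ω + 1) = 0 by linear_combination hω3)).resolve_left (sub_ne_zero.2 hω1)
  have hω5 : ω ^ 5 = ω ^ 2 := by linear_combination ω ^ 2 * hω3
  -- a generator with commutator value the square of the chosen root
  obtain ⟨x, hx, hxy⟩ : ∃ x ∈ P, y.val * x.val = ω ^ 2 • (x.val * y.val) := by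
    obtain ⟨c, hc⟩ := (mem_scalars_iff _).1 (hcl2 y hy x₀ hx₀)
    have hrel : y.val * x₀.val = (c : F) • (x₀.val * y.val) := by
      have e : y * x₀ = y * x₀ * y⁻¹ * x₀⁻¹ * (x₀ * y) := by group
      have e' := congrArg Units.val e
      rw [Units.val_mul, Units.val_mul (y * x₀ * y⁻¹ * x₀⁻¹), hc, Units.val_mul, Matrix.smul_mul, Matrix.one_mul] at e'
      exact e'
    have hc1 : (c : F) ≠ 1 := fun h => hne (Units.ext (by
      rw [Units.val_mul, Units.val_mul, hrel, h, one_smul]))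
    have hconj : y.val * x₀.val * (y⁻¹ : GL (Fin 3) F).val = (c : F) • x₀.val := by
      rw [hrel, Matrix.smul_mul, Matrix.mul_assoc, ← Units.val_mul, mul_inv_cancel, Units.val_one, Matrix.mul_one]
    have hc3 : (c : F) ^ 3 = 1 := by
      have h := congrArg (· ^ 3) hconj
      have e : y.val * x₀.val * (y⁻¹ : GL (Fin 3) F).val = (y * x₀ * y⁻¹ : GL (Fin 3) F).val := by
        rw [Units.val_mul, Units.val_mul]
      simp only [e, smul_pow, ← Units.val_pow_eq_pow_val, conj_pow, hexp x₀ hx₀, mul_one, mul_inv_cancel,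
        Units.val_one] at h
      simpa using (congrFun (congrFun h 0) 0).symm
    have hroots : (c : F) = ω ∨ (c : F) = ω ^ 2 := by
      have h : ((c : F) - 1) * (((c : F) - ω) * ((c : F) - ω ^ 2)) = 0 := by
        linear_combination hc3 + (-(c : F) ^ 2 + (c : F)) * hω2 + ((c : F) - 1) * hω3
      rcases mul_eq_zero.1 h with h | h
      · exact absurd (sub_eq_zero.1 h) hc1
      · exact (mul_eq_zero.1 h).imp sub_eq_zero.1 sub_eq_zero.1
    rcases hroots with h | h
    · refine ⟨x₀ * x₀, mul_mem hx₀ hx₀, ?_⟩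
      rw [Units.val_mul, ← Matrix.mul_assoc, hrel, Matrix.smul_mul, Matrix.mul_assoc, hrel, Matrix.mul_smul,
        smul_smul, ← Matrix.mul_assoc, h, sq]
    · exact ⟨x₀, hx₀, by rw [← h]; exact hrel⟩
  have hx3 : x.val * (x.val * x.val) = 1 := by
    have h := congrArg Units.val (hexp x hx)
    rw [Units.val_pow_eq_pow_val, Units.val_one, pow_succ', pow_two] at h
    exact h
  -- `y` moves an eigenvector to the next eigenspace
  have hmove : ∀ {v : Fin 3 → F} {l : F}, x.val *ᵥ v = l • v → x.val *ᵥ (y.val *ᵥ v) = (ω * l) • (y.val *ᵥ v) := by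
    intro v l h
    have e : x.val * y.val = ω • (y.val * x.val) := by
      rw [hxy, smul_smul, ← pow_succ', hω3, one_smul]
    rw [Matrix.mulVec_mulVec, e, Matrix.smul_mulVec, ← Matrix.mulVec_mulVec, h, Matrix.mulVec_smul, smul_smul]
  -- a fixed vector
  obtain ⟨v₀, hv₀, hfix⟩ : ∃ v₀ : Fin 3 → F, v₀ ≠ 0 ∧ x.val *ᵥ v₀ = v₀ := by
    set v : Fin 3 → F := Pi.single 0 1
    have hv : v ≠ 0 := fun h => one_ne_zero (α := F) (by simpa [v] using congrFun h 0)
    set E : F → (Fin 3 → F) := fun a => v + a • (x.val *ᵥ v) + a ^ 2 • (x.val *ᵥ (x.val *ᵥ v)) with hE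
    have hx3v : x.val *ᵥ (x.val *ᵥ (x.val *ᵥ v)) = v := by
      rw [Matrix.mulVec_mulVec, Matrix.mulVec_mulVec, Matrix.mul_assoc, hx3, Matrix.one_mulVec]
    have heig : ∀ a : F, a ^ 3 = 1 → x.val *ᵥ E a = a ^ 2 • E a := by
      intro a ha
      simp only [hE, Matrix.mulVec_add, Matrix.mulVec_smul, hx3v]
      match_scalars <;> grind
    have hshift : ∀ {u : Fin 3 → F} {l : F}, u ≠ 0 → x.val *ᵥ u = l • u → l = 1 ∨ l = ω ∨ l = ω ^ 2 →
        ∃ v₀ : Fin 3 → F, v₀ ≠ 0 ∧ x.val *ᵥ v₀ = v₀ := by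
      intro u l hu hl h
      have hyu : y.val *ᵥ u ≠ 0 := fun h0 => hu (mulVec_eq_zero_imp h0)
      have h1 := hmove hl
      have h2 := hmove h1
      rcases h with rfl | rfl | rfl
      · exact ⟨u, hu, by rw [hl, one_smul]⟩
      · exact ⟨y.val *ᵥ (y.val *ᵥ u), fun h0 => hyu (mulVec_eq_zero_imp h0), by
          rw [h2, show ω * (ω * ω) = 1 by linear_combination hω3, one_smul]⟩
      · exact ⟨y.val *ᵥ u, hyu, by rw [h1, show ω * ω ^ 2 = 1 by linear_combination hω3, one_smul]⟩
    have hsum : E 1 + E ω + E (ω ^ 2) = (3 : F) • v := by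
      simp only [hE]
      match_scalars <;> grind
    have h3 : (3 : F) ≠ 0 := fun h => by
      have hd := (@CharP.cast_eq_zero_iff F _ 5 R.hchar 3).1 (by exact_mod_cast h)
      norm_num at hd
    by_cases h0 : E 1 = 0
    · by_cases h1 : E ω = 0
      · have h2 : E (ω ^ 2) ≠ 0 := fun h2 => hv (by
          rw [h0, h1, h2, add_zero, add_zero] at hsum
          exact (smul_eq_zero.1 hsum.symm).resolve_left h3)
        exact hshift h2 (heig _ (by linear_combination (ω ^ 3 + 1) * hω3)) (Or.inr (Or.inl (by linear_combination ω * hω3)))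
      · exact hshift h1 (heig _ hω3) (Or.inr (Or.inr rfl))
    · exact hshift h0 (heig _ (one_pow 3)) (Or.inl (one_pow 2))
  set v : Fin 3 → (Fin 3 → F) := fun j => (y.val ^ (j : ℕ)) *ᵥ v₀
  have hvx : ∀ j, x.val *ᵥ v j = ω ^ (j : ℕ) • v j := by
    intro j
    have h : ∀ k : ℕ, x.val *ᵥ (y.val ^ k *ᵥ v₀) = ω ^ k • (y.val ^ k *ᵥ v₀) := by
      intro k
      induction k with
      | zero => simp [hfix]
      | succ k ih =>
        rw [pow_succ' y.val, ← Matrix.mulVec_mulVec, hmove ih, ← pow_succ']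
    exact h j
  have horth : ∀ i j : Fin 3, i ≠ j → Cfsg.hermForm 3 F 5 (v i) (v j) = 0 := by
    intro i j hij
    have h := mem_GU.1 (hPU hx) (v i) (v j)
    rw [hvx, hvx, herm_smul_left, herm_smul_right hF, ← mul_assoc] at h
    refine (mul_eq_zero.1 (show (ω ^ (i : ℕ) * (ω ^ (j : ℕ)) ^ 5 - 1) * Cfsg.hermForm 3 F 5 (v i) (v j) = 0 by
      linear_combination h)).resolve_left (sub_ne_zero.2 fun he => ?_)
    rw [← pow_mul, mul_comm (j : ℕ), pow_mul, hω5, ← pow_mul, ← pow_add] at he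
    have hω2' : ω ^ 2 ≠ 1 := fun h2 => hω1 (by linear_combination hω3 - ω * h2)
    rw [← Nat.mod_add_div ((i : ℕ) + 2 * (j : ℕ)) 3, pow_add, pow_mul, hω3, one_pow, mul_one] at he
    have hcases : ((i : ℕ) + 2 * (j : ℕ)) % 3 = 1 ∨ ((i : ℕ) + 2 * (j : ℕ)) % 3 = 2 := by
      have := Fin.val_ne_of_ne hij
      omega
    rcases hcases with h' | h' <;> rw [h'] at he
    · exact hω1 (by simpa using he)
    · exact hω2' he
  have hlen : ∀ i, Cfsg.hermForm 3 F 5 (v i) (v i) = Cfsg.hermForm 3 F 5 v₀ v₀ := fun i => by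
    show Cfsg.hermForm 3 F 5 ((y.val ^ (i : ℕ)) *ᵥ v₀) _ = _
    rw [← Units.val_pow_eq_pow_val]
    exact mem_GU.1 (pow_mem (hPU hy) _) v₀ v₀
  have hvne : ∀ i, v i ≠ 0 := fun i h => hv₀ (mulVec_eq_zero_imp (g := y ^ (i : ℕ)) (by rwa [Units.val_pow_eq_pow_val]))
  have hli : LinearIndependent F v := by
    rw [Fintype.linearIndependent_iff]
    intro c hc
    have e0 := hc
    have e1 := congrArg (x.val *ᵥ ·) hc
    simp only [Matrix.mulVec_sum, Matrix.mulVec_smul, hvx, Matrix.mulVec_zero] at e1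
    have e2 := congrArg (x.val *ᵥ ·) e1
    simp only [Matrix.mulVec_sum, Matrix.mulVec_smul, hvx, Matrix.mulVec_zero] at e2
    simp only [Fin.sum_univ_three, Fin.val_zero, Fin.val_one, Fin.val_two, pow_zero, pow_one, one_smul,
      smul_smul] at e0 e1 e2
    have h3 : (3 : F) ≠ 0 := fun h => by
      have hd := (@CharP.cast_eq_zero_iff F _ 5 R.hchar 3).1 (by exact_mod_cast h)
      norm_num at hd
    have key : ∀ i, ((3 : F) * c i) • v i = 0 := by
      intro i
      fin_cases i <;> simp only [Fin.zero_eta, Fin.mk_one, Fin.reduceFinMk]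
      · linear_combination (norm := (match_scalars <;> grind)) e0 + e1 + e2
      · linear_combination (norm := (match_scalars <;> grind)) e0 + (ω ^ 2) • e1 + ω • e2
      · linear_combination (norm := (match_scalars <;> grind)) e0 + ω • e1 + (ω ^ 2) • e2
    intro i
    exact (mul_eq_zero.1 ((smul_eq_zero.1 (key i)).resolve_right (hvne i))).resolve_left h3
  have hnd : Cfsg.hermForm 3 F 5 v₀ v₀ ≠ 0 := by
    intro h
    refine hv₀ (herm_nondeg hF fun z => ?_)
    have hz : z ∈ Submodule.span F (Set.range v) := by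
      rw [hli.span_eq_top_of_card_eq_finrank (by simp)]; trivial
    obtain ⟨co, rfl⟩ := (Submodule.mem_span_range_iff_exists_fun F).1 hz
    rw [herm_sum_right hF]
    refine Finset.sum_eq_zero fun i _ => ?_
    rw [herm_smul_right hF]
    rcases eq_or_ne i 0 with rfl | hi
    · rw [show v 0 = v₀ by simp [v], h, mul_zero]
    · have := horth 0 i hi.symm
      rw [show v 0 = v₀ by simp [v]] at this
      rw [this, mul_zero]
  obtain ⟨s, hs⟩ := exists_norm_eq hF (a := (Cfsg.hermForm 3 F 5 v₀ v₀)⁻¹) (by rw [inv_pow, herm_self_fixed hF])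
  have hu : ∀ i j, Cfsg.hermForm 3 F 5 (s • v i) (s • v j) = if i = j then 1 else 0 := by
    intro i j
    rw [herm_smul_left, herm_smul_right hF, ← mul_assoc, ← pow_succ', hs]
    split
    next h => rw [h, hlen, inv_mul_cancel₀ hnd]
    next h => rw [horth i j h, mul_zero]
  obtain ⟨V, hVU, hV⟩ := exists_isometry_of_orthonormal hF _ hu
  -- images of the generators
  have hX : (V⁻¹ * x * V⁻¹⁻¹).val = R.mat (heR 3) := by
    refine Matrix.ext_of_mulVec_single fun j => ?_
    rw [inv_inv, Units.val_mul, Units.val_mul, ← Matrix.mulVec_mulVec, hV, ← Matrix.mulVec_mulVec,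
      Matrix.mulVec_smul, hvx, smul_comm, ← hV, ← Matrix.mulVec_smul, Matrix.mulVec_mulVec, ← Units.val_mul,
      inv_mul_cancel, Units.val_one, Matrix.one_mulVec, Matrix.mulVec_single_one]
    funext r
    rcases eq_or_ne r j with rfl | hr
    · simp [heR_one.2, φ_tpow, ω]
    · simp [heR_one.2, hr]
  have hY : (V⁻¹ * y * V⁻¹⁻¹).val = R.mat (heR 1) := by
    have hcyc : ∀ j, y.val *ᵥ v j = v (j + 1) := by
      intro j
      show y.val *ᵥ (y.val ^ (j : ℕ) *ᵥ v₀) = y.val ^ (((j + 1 : Fin 3)) : ℕ) *ᵥ v₀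
      rw [Matrix.mulVec_mulVec, ← pow_succ']
      fin_cases j <;> simp
      rw [← Units.val_pow_eq_pow_val, hexp y hy, Units.val_one, Matrix.one_mulVec]
    refine Matrix.ext_of_mulVec_single fun j => ?_
    rw [inv_inv, Units.val_mul, Units.val_mul, ← Matrix.mulVec_mulVec, hV, ← Matrix.mulVec_mulVec,
      Matrix.mulVec_smul, hcyc, ← hV, Matrix.mulVec_mulVec, ← Units.val_mul,
      inv_mul_cancel, Units.val_one, Matrix.one_mulVec, Matrix.mulVec_single_one]
    funext r
    rcases eq_or_ne r (j + 1) with rfl | hr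
    · simp [heR_cycle]
    · simp [heR_cycle, hr]
  set g := V⁻¹
  let conjg : GL (Fin 3) F →* GL (Fin 3) F := (MulAut.conj g).toMonoidHom
  have hZ : (y * x * y⁻¹ * x⁻¹).val = ω ^ 2 • (1 : Matrix (Fin 3) (Fin 3) F) := by
    rw [show y * x * y⁻¹ * x⁻¹ = (y * x) * (x * y)⁻¹ by group, Units.val_mul, Units.val_mul, hxy, Matrix.smul_mul,
      ← Units.val_mul x y, ← Units.val_mul, mul_inv_cancel, Units.val_one]
  have hzP : y * x * y⁻¹ * x⁻¹ ∈ P := mul_mem (mul_mem (mul_mem hy hx) (inv_mem hy)) (inv_mem hx)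
  have hcover : ∀ a, ∃ r ∈ P, (g * r * g⁻¹).val = R.mat (heR a) := by
    intro a
    obtain ⟨k, i, j, rfl⟩ : ∃ k i j : Fin 3, a = ⟨9 * k + 3 * i + j, by omega⟩ :=
      ⟨⟨a.val / 9, by omega⟩, ⟨a.val / 3 % 3, by omega⟩, ⟨a.val % 3, by omega⟩, Fin.ext (show a.val = _ by simp; omega)⟩
    refine ⟨(y * x * y⁻¹ * x⁻¹) ^ (2 * (k : ℕ)) * (x ^ (i : ℕ) * y ^ (j : ℕ)),
      mul_mem (pow_mem hzP _) (mul_mem (pow_mem hx _) (pow_mem hy _)), ?_⟩
    have hone : R.mat (heR 0) = 1 := by
      ext r c; simp [heR_one.1, Matrix.one_apply, apply_ite R.φ]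
    have hpow3 : ∀ (z : GL (Fin 3) F) (A : Fin 3 → Fin 3 → ℕ), (g * z * g⁻¹).val = R.mat A →
        ∀ i : Fin 3, (g * z ^ (i : ℕ) * g⁻¹).val = R.mat (pow3 A i) := by
      intro z A hz i
      fin_cases i
      · simp [pow3, hone]
      · simpa [pow3] using hz
      · show (g * z ^ 2 * g⁻¹).val = R.mat (tbl25.mm A A)
        rw [R.mat_mm, ← hz, ← Units.val_mul]
        congr 1
        rw [pow_two]; group
    show (conjg _).val = _
    rw [map_mul, map_mul, map_pow conjg (y * x * y⁻¹ * x⁻¹), Units.val_mul, Units.val_mul, Units.val_pow_eq_pow_val]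
    rw [show (conjg (x ^ (i : ℕ))).val = _ from hpow3 x _ hX i, show (conjg (y ^ (j : ℕ))).val = _ from hpow3 y _ hY j]
    have hZ' : (conjg (y * x * y⁻¹ * x⁻¹)).val = ω ^ 2 • (1 : Matrix (Fin 3) (Fin 3) F) := by
      show (g * (y * x * y⁻¹ * x⁻¹) * g⁻¹).val = _
      rw [Units.val_mul, Units.val_mul g, hZ, Matrix.mul_smul, Matrix.mul_one, Matrix.smul_mul, ← Units.val_mul,
        mul_inv_cancel, Units.val_one]
    rw [hZ', smul_pow, one_pow, Matrix.smul_mul, Matrix.one_mul, ← R.mat_mm]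
    ext r c
    show _ * R.φ _ = R.φ _
    rw [heR_code, R.φ_mul, φ_tpow]
    congr 1
    rw [← pow_mul, show 2 * (2 * (k : ℕ)) = 3 * (k : ℕ) + (k : ℕ) by ring, pow_add, pow_mul, hω3, one_pow, one_mul]
  refine ⟨g, inv_mem hVU, hcover, ?_⟩
  choose r hr hrv using hcover
  have hinj : Function.Injective fun a => (⟨r a, hr a⟩ : P) := by
    intro a b hab
    refine heR_distinct a b fun i j => R.φ_injective (heR_lt _ _ _) (heR_lt _ _ _) ?_
    have e : r a = r b := congrArg Subtype.val hab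
    exact congrFun (congrFun ((hrv a).symm.trans ((by rw [e]) : (g * r a * g⁻¹).val = (g * r b * g⁻¹).val) |>.trans (hrv b)) i) j
  have hbij := (Nat.bijective_iff_injective_and_card _).2 ⟨hinj, by rw [Nat.card_fin, hcard]⟩
  intro z hz
  obtain ⟨a, ha⟩ := hbij.2 ⟨z, hz⟩
  have e : r a = z := congrArg Subtype.val ha
  exact ⟨a, e ▸ hrv a⟩

/-- Over twenty-five elements the normaliser of an extraspecial group is not maximal. -/
theorem six_not_maximal (hF : Fintype.card F = 5 ^ 2) {H P : Subgroup (GL (Fin 3) F)}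
    (hH : IsMaximalIn (Cfsg.GU 3 F 5 ⊓ specialLinear (Fin 3) F) H)
    (hsym : IsSymplecticTypeGroup 3 P) (habs : ActsAbsolutelyIrreducibly (matrixSet P))
    (hPU : P ≤ Cfsg.GU 3 F 5) (hcard : Nat.card P = 27) (hcen : Nat.card (Subgroup.center P) = 3)
    (hHN : H ≤ subgroupNormalizer P) : False := by
  obtain ⟨R⟩ := exists_rep25 hF
  obtain ⟨g, hg, hto, hfrom⟩ := exists_standard R hsym habs hPU hcard hcen
  have hgK := conj_mem_SU_iff (q := 5) hg
  set InR : GL (Fin 3) F → Prop := fun u => ∃ a, u.val = R.mat (heR a)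
  have hnorm : ∀ x ∈ H, ∀ u, InR u → InR (g * x * g⁻¹ * u * (g * x * g⁻¹)⁻¹) := by
    rintro x hx u ⟨a, ha⟩
    obtain ⟨r, hr, hrv⟩ := hto a
    have e : u = g * r * g⁻¹ := Units.ext (ha.trans hrv.symm)
    obtain ⟨b, hb⟩ := hfrom (x * r * x⁻¹) ((Subgroup.mem_normalizer_iff.1 (hHN hx) r).1 hr)
    refine ⟨b, ?_⟩
    rw [← hb, e]
    congr 1
    group
  obtain ⟨w, hw, hwK, hwM⟩ := exists_mem R _ _ heW_code.1 heW_code.2.1 heW_code.2.2.1
  obtain ⟨t, ht, htK⟩ := R.exists_SU_of_code heT_code.1 heT_code.2.1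
  obtain ⟨rX, -, hrX⟩ := hto 3
  set X := g * rX * g⁻¹
  obtain ⟨rY, hrYP, hrY⟩ := hto 1
  set Y := g * rY * g⁻¹
  refine not_maximal_of_overgroup hH hgK (M := lineStab fun l => R.vec (hePts l)) (fun x hx => ?_) hwK hwM ?_ htK
    (R.not_mem_lineStab_of_code ht heTIdx heT_code.2.2.1 heT_code.2.2.2)
  · set y := g * x * g⁻¹
    have hyK : y ∈ Cfsg.GU 3 F 5 ⊓ specialLinear (Fin 3) F := (hgK x).2 (hH.1.le hx)
    obtain ⟨a, ha⟩ := hnorm x hx X ⟨3, hrX⟩
    have hne : ¬ ((∀ r c, r ≠ c → heR a r c = 0) ∧ heR a 0 0 = heR a 1 1) := by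
      rintro ⟨hoff, hdiag⟩
      -- a conjugate of `X` has distinct eigenvalues
      have htr : ∀ c : F, X.val ≠ c • 1 := fun c h => by
        rw [hrX] at h
        have h0 := congrFun (congrFun h 0) 0
        have h1 := congrFun (congrFun h 1) 1
        simp only [QTable.Rep.mat_apply, heR_one.2, if_true, Matrix.smul_apply, Matrix.one_apply_eq] at h0 h1
        exact absurd (R.φ_injective (by decide) (by decide) (h0.trans h1.symm)) (by decide)
      have h22 : ∀ a, (∀ r c, r ≠ c → heR a r c = 0) → heR a 0 0 = heR a 1 1 → heR a 2 2 = heR a 0 0 := by decide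
      have hs : (y * X * y⁻¹).val = R.φ (heR a 0 0) • (1 : Matrix (Fin 3) (Fin 3) F) := by
        rw [ha]
        ext r c
        rcases eq_or_ne r c with rfl | hrc
        · fin_cases r
          · simp
          · simpa using congrArg R.φ hdiag.symm
          · simpa using congrArg R.φ (h22 a hoff hdiag)
        · simp [hoff r c hrc, hrc]
      refine htr (R.φ (heR a 0 0)) ?_
      have e : X = y⁻¹ * (y * X * y⁻¹) * y := by group
      rw [e, Units.val_mul, Units.val_mul, hs, Matrix.mul_smul, Matrix.mul_one, Matrix.smul_mul, ← Units.val_mul,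
        inv_mul_cancel, Units.val_one]
    obtain ⟨i, rfl⟩ := (heU_cover a).resolve_right hne
    obtain ⟨hu, hd, hact, hUX, hUY⟩ := heU_code i
    obtain ⟨U, hU, hUK, hUM⟩ := exists_mem R _ _ hu hd hact
    set z := U⁻¹ * y
    have hzK : z ∈ Cfsg.GU 3 F 5 ⊓ specialLinear (Fin 3) F := mul_mem (inv_mem hUK) hyK
    have hzX : z * X = X * z := by
      have e : y * X * y⁻¹ = U * X * U⁻¹ := Units.ext (by
        rw [ha, eq_comm, Units.val_mul, Units.val_mul, hU, hrX, ← R.mat_mm,
          show tbl25.mm (heU i) (heR 3) = tbl25.mm (heR (heUX i)) (heU i) from funext fun r => funext (hUX r),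
          R.mat_mm, Matrix.mul_assoc, ← hU, ← Units.val_mul, mul_inv_cancel, Units.val_one, Matrix.mul_one])
      calc z * X = U⁻¹ * (y * X * y⁻¹) * y := by simp only [z]; group
        _ = U⁻¹ * (U * X * U⁻¹) * y := by rw [e]
        _ = X * z := by simp only [z]; group
    -- so it is diagonal
    have hoff : ∀ r c, r ≠ c → z.val r c = 0 := by
      intro r c hrc
      have hl : ∀ r c : Fin 3, r ≠ c → heR 3 r r ≠ heR 3 c c := by decide
      have h0 : (z * X).val = (X * z).val := congrArg Units.val hzX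
      have h := congrFun (congrFun h0 r) c
      rw [Units.val_mul z X, Units.val_mul X z, hrX,
        show R.mat (heR 3) = (Matrix.diagonal fun r : Fin 3 => R.φ (heR 3 r r) : Matrix (Fin 3) (Fin 3) F) from by
          ext i j; rcases eq_or_ne i j with rfl | h <;> simp [heR_one.2, *],
        Matrix.mul_diagonal, Matrix.diagonal_mul] at h
      have hne' : R.φ (heR 3 c c) - R.φ (heR 3 r r) ≠ 0 := sub_ne_zero.2 fun e =>
        hl r c hrc (R.φ_injective (heR_lt _ _ _) (heR_lt _ _ _) e).symm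
      exact (mul_eq_zero.1 (show z.val r c * (R.φ (heR 3 c c) - R.φ (heR 3 r r)) = 0 by linear_combination h)).resolve_right hne'
    set d : Fin 3 → F := fun r => z.val r r
    have hzd : z.val = Matrix.diagonal d := by
      ext r c
      rcases eq_or_ne r c with rfl | hrc <;> simp [d, *]
    have hnormd : ∀ j, d j ^ 6 = 1 := by
      intro j
      have h := mem_GU.1 hzK.1 (Pi.single j 1) (Pi.single j 1)
      simp only [hzd, Matrix.diagonal_mulVec_single, mul_one] at h
      simpa [Cfsg.hermForm, Pi.single_apply, ← pow_succ'] using h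
    have hprod : d 0 * d 1 * d 2 = 1 := by
      have h : z.val.det = 1 := congrArg Units.val (MonoidHom.mem_ker.1 hzK.2)
      rw [hzd, Matrix.det_diagonal, Fin.prod_univ_three] at h
      exact h
    have hprim := zeta_primitive R
    obtain ⟨a, ha6, ha0⟩ := hprim.eq_pow_of_pow_eq_one (hnormd 0)
    obtain ⟨b, hb6, hb1⟩ := hprim.eq_pow_of_pow_eq_one (hnormd 1)
    set D : Fin 3 → Fin 3 → ℕ := fun r c => if r = c then
      ![tpow tbl25 frZeta a, tpow tbl25 frZeta b, tpow tbl25 frZeta (5 * (a + b))] r else 0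
    have hzD : z.val = R.mat D := by
      rw [hzd]
      ext r c
      rcases eq_or_ne r c with rfl | hrc
      · simp only [Matrix.diagonal_apply_eq, QTable.Rep.mat_apply, D, if_true]
        fin_cases r
        · simpa [φ_tpow] using ha0.symm
        · simpa [φ_tpow] using hb1.symm
        · show d 2 = R.φ (tpow tbl25 frZeta (5 * (a + b)))
          rw [φ_tpow, pow_mul', pow_add, ha0, hb1]
          calc d 2 = d 2 * (d 0 ^ 6 * d 1 ^ 6) := by rw [hnormd, hnormd]; ring
            _ = (d 0 * d 1 * d 2) * (d 0 * d 1) ^ 5 := by ring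
            _ = _ := by rw [hprod, one_mul]
      · simp [D, hrc]
    -- the image of `Y` is in the group
    obtain ⟨e, he⟩ : InR (z * Y * z⁻¹) := by
      have hYU : InR (y * Y * y⁻¹) := hnorm x hx Y ⟨1, hrY⟩
      -- `U` normalises the standard group
      have hUn : ∀ u, InR u → InR (U⁻¹ * u * U) := by
        let φ : GL (Fin 3) F → GL (Fin 3) F := fun u => U * u * U⁻¹
        have hUgen : ∀ (A : Fin 27) (B : Fin 27) (u : GL (Fin 3) F), u.val = R.mat (heR A) →
            (∀ r c, tbl25.mm (heU i) (heR A) r c = tbl25.mm (heR B) (heU i) r c) → (φ u).val = R.mat (heR B) := by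
          intro A B u hu h
          show (U * u * U⁻¹).val = _
          rw [Units.val_mul, Units.val_mul, hU, hu, ← R.mat_mm,
            show tbl25.mm (heU i) (heR A) = tbl25.mm (heR B) (heU i) from funext fun r => funext (h r),
            R.mat_mm, Matrix.mul_assoc, ← hU, ← Units.val_mul, mul_inv_cancel, Units.val_one, Matrix.mul_one]
        let Q : Subgroup (GL (Fin 3) F) := P.map (MulAut.conj g).toMonoidHom
        have hQ : ∀ u, InR u ↔ u ∈ Q := fun u => by
          constructor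
          · rintro ⟨a, ha⟩
            obtain ⟨r, hr, hrv⟩ := hto a
            exact ⟨r, hr, Units.ext (hrv.trans ha.symm)⟩
          · rintro ⟨r, hr, rfl⟩
            exact hfrom r hr
        have hXq : X ∈ Q := (hQ _).1 ⟨3, hrX⟩
        have hYq : Y ∈ Q := (hQ _).1 ⟨1, hrY⟩
        have hsc : ∀ u, InR u → InR (φ u) := by
          rintro u ⟨A, hA⟩
          obtain ⟨k, i', j, rfl⟩ : ∃ k i j : Fin 3, A = ⟨9 * k + 3 * i + j, by omega⟩ :=
            ⟨⟨A.val / 9, by omega⟩, ⟨A.val / 3 % 3, by omega⟩, ⟨A.val % 3, by omega⟩, Fin.ext (show A.val = _ by simp; omega)⟩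
          obtain ⟨rZ, hrZP, hrZ⟩ := hto ⟨9 * k, by omega⟩
          set Z := g * rZ * g⁻¹
          have hone : R.mat (heR 0) = 1 := by
            ext r c; simp [heR_one.1, Matrix.one_apply, apply_ite R.φ]
          have hZs : Z.val = R.φ (tpow tbl25 5 k) • (1 : Matrix (Fin 3) (Fin 3) F) := by
            rw [hrZ]
            have h := heR_scalar
            ext r c
            rw [QTable.Rep.mat_apply, h, R.φ_mul, Matrix.smul_apply, smul_eq_mul, ← hone]
            rfl
          have hp : ∀ (u : GL (Fin 3) F) (A : Fin 3 → Fin 3 → ℕ), u.val = R.mat A → ∀ i : Fin 3,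
              (u ^ (i : ℕ)).val = R.mat (pow3 A i) := by
            intro u A hu i
            fin_cases i
            · simp [pow3, hone]
            · simpa [pow3] using hu
            · show (u ^ 2).val = R.mat (tbl25.mm A A)
              rw [R.mat_mm, ← hu, pow_two, Units.val_mul]
          have eu : u = Z * (X ^ (i' : ℕ) * Y ^ (j : ℕ)) := Units.ext (by
            rw [hA, Units.val_mul Z, Units.val_mul (X ^ (i' : ℕ)), hZs, hp X _ hrX, hp Y _ hrY, ← R.mat_mm, Matrix.smul_mul,
              Matrix.one_mul]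
            ext r c
            rw [Matrix.smul_apply, QTable.Rep.mat_apply, QTable.Rep.mat_apply, heR_code, R.φ_mul, smul_eq_mul])
          have hmap : φ (Z * (X ^ (i' : ℕ) * Y ^ (j : ℕ))) = φ Z * (φ X ^ (i' : ℕ) * φ Y ^ (j : ℕ)) := by
            show (MulAut.conj U) _ = (MulAut.conj U) _ * ((MulAut.conj U) _ ^ _ * (MulAut.conj U) _ ^ _)
            simp only [map_mul, map_pow]
          have hZ' : φ Z = Z := Units.ext (by
            show (U * Z * U⁻¹).val = _
            rw [Units.val_mul, Units.val_mul, hZs, Matrix.mul_smul, Matrix.mul_one, Matrix.smul_mul, ← Units.val_mul,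
              mul_inv_cancel, Units.val_one])
          rw [eu, hmap, hZ', hQ]
          exact mul_mem ((hQ _).1 ⟨_, hrZ⟩) (mul_mem (pow_mem ((hQ _).1 ⟨_, hUgen _ _ X hrX hUX⟩) _)
            (pow_mem ((hQ _).1 ⟨_, hUgen _ _ Y hrY hUY⟩) _))
        -- finiteness turns this into normalisation
        intro u hu
        have : Finite P := Nat.finite_of_card_ne_zero (by rw [hcard]; norm_num)
        have : Finite Q := Finite.of_equiv P (P.equivMapOfInjective _ (MulAut.conj g).injective).toEquiv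
        have hmapsto : ∀ v : Q, φ v ∈ Q := fun v => (hQ _).1 (hsc _ ((hQ _).2 v.2))
        have hinj : Function.Injective fun v : Q => (⟨φ v, hmapsto v⟩ : Q) := fun v v' h =>
          Subtype.ext (by simpa [φ] using congrArg Subtype.val h)
        obtain ⟨v, hv⟩ := (Finite.injective_iff_surjective.1 hinj) ⟨u, (hQ _).1 hu⟩
        have hv' : U * v.1 * U⁻¹ = u := congrArg Subtype.val hv
        rw [← hv', hQ]
        simp [mul_assoc]
      have e : z * Y * z⁻¹ = U⁻¹ * (y * Y * y⁻¹) * U := by simp only [z]; group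
      rw [e]
      exact hUn _ hYU
    have hDY : ∀ r c, tbl25.mm D (heR 1) r c = tbl25.mm (heR e) D r c := by
      intro r c
      refine R.φ_injective (lsum_lt_25 _) (lsum_lt_25 _) ?_
      have h : (z * Y).val = (z * Y * z⁻¹ * z).val := by congr 1; group
      rw [Units.val_mul, Units.val_mul (z * Y * z⁻¹), he, hrY, hzD, ← R.mat_mm, ← R.mat_mm] at h
      exact congrFun (congrFun h r) c
    obtain ⟨i', s, -, hs⟩ := heD_cover ⟨a, ha6⟩ ⟨b, hb6⟩ e hDY
    obtain ⟨hu', hd', hact', -, -⟩ := heU_code i'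
    obtain ⟨U', hU', -, hU'M⟩ := exists_mem R _ _ hu' hd' hact'
    have hzM : z ∈ lineStab fun l => R.vec (hePts l) := lineStab_smul hU'M (c := R.φ s) (by
      rw [hzD, hU']
      ext r c
      have h := congrArg R.φ (hs r c)
      rw [R.φ_mul] at h
      exact h)
    have : y = U * z := by simp [z]
    rw [this]
    exact mul_mem hUM hzM
  · intro hwH
    obtain ⟨a, ha⟩ := hnorm _ hwH X ⟨3, hrX⟩
    rw [show g * (g⁻¹ * w * g) * g⁻¹ = w by group] at ha
    have hwc : (w * X * w⁻¹).val = R.mat heWC := by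
      rw [Units.val_mul, Units.val_mul, hw, hrX, ← R.mat_mm,
        show tbl25.mm heW (heR 3) = tbl25.mm heWC heW from funext fun r => funext (heW_code.2.2.2.1 r),
        R.mat_mm, Matrix.mul_assoc, ← hw, ← Units.val_mul, mul_inv_cancel, Units.val_one, Matrix.mul_one]
    obtain ⟨r, c, hrc⟩ := heW_code.2.2.2.2.2 a
    exact hrc (R.φ_injective (heW_code.2.2.2.2.1 r c) (heR_lt _ _ _) (congrFun (congrFun (hwc.symm.trans ha) r) c))
where
  lsum_lt_25 (l : List ℕ) : tbl25.lsum l < tbl25.p ^ 2 := by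
    induction l with
    | nil => norm_num [QTable.lsum, tbl25]
    | cons a l ih =>
      show tbl25.add a (tbl25.lsum l) < _
      simp only [QTable.add, tbl25]
      omega

end CfsgLib.AschPrime.Three
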