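import Cfsg.Prelude.Def_GeometricClasses
import Cfsg.Agent.Eq.Def_GeometricClasses
import Cfsg.Agent.Classical.TransvGL

/-! The standard hermitian form `hermForm n F q` over the field with `q²` elements: field facts,
perpendicular spaces, isotropic vectors, unitary transvections. -/

set_option autoImplicit false
set_option linter.unusedSectionVars false

namespace CfsgLib.AschPrime

open Cfsg.Geo Module
open scoped Matrix MatrixGroups

variable {F : Type*} [Field F] [Fintype F] {q : ℕ}

section field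

variable (hF : Fintype.card F = q ^ 2)
include hF

lemma one_lt_q : 1 < q := by
  have h := Fintype.one_lt_card (α := F)
  rw [hF] at h
  by_contra h'
  interval_cases q <;> simp_all

lemma q_pos : 0 < q := (one_lt_q hF).le

lemma exists_char_pow : ∃ p k : ℕ, p.Prime ∧ CharP F p ∧ q = p ^ k := by
  obtain ⟨p, hp⟩ := CharP.exists F
  obtain ⟨e, hpp, hcard⟩ := FiniteField.card F p
  have hdvd : q ∣ p ^ (e : ℕ) := by rw [← hcard, hF]; exact dvd_pow_self q two_ne_zero
  obtain ⟨k, -, hk⟩ := (Nat.dvd_prime_pow hpp).1 hdvd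
  exact ⟨p, k, hpp, hp, hk⟩

lemma q_add_pow (x y : F) : (x + y) ^ q = x ^ q + y ^ q := by
  obtain ⟨p, k, hp, hc, rfl⟩ := exists_char_pow hF
  have := Fact.mk hp
  exact add_pow_char_pow x y p k

lemma q_pow_pow (x : F) : (x ^ q) ^ q = x := by
  rw [← pow_mul, ← pow_two, ← hF, FiniteField.pow_card]

lemma q_neg_pow (x : F) : (-x) ^ q = -x ^ q := by
  have h := q_add_pow hF x (-x)
  rw [add_neg_cancel, zero_pow (q_pos hF).ne'] at h
  linear_combination -h

lemma q_sub_pow (x y : F) : (x - y) ^ q = x ^ q - y ^ q := by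
  rw [sub_eq_add_neg, q_add_pow hF, q_neg_pow hF]; ring

lemma q_sum_pow {α : Type*} (s : Finset α) (g : α → F) : (∑ i ∈ s, g i) ^ q = ∑ i ∈ s, g i ^ q := by
  classical
  induction s using Finset.induction with
  | empty => simp [zero_pow (q_pos hF).ne']
  | insert a s ha ih => rw [Finset.sum_insert ha, Finset.sum_insert ha, q_add_pow hF, ih]

/-- The involutory automorphism `x ↦ x ^ q`. -/
def qFrob : F ≃+* F where
  toFun x := x ^ q
  invFun x := x ^ q
  left_inv x := q_pow_pow hF x
  right_inv x := q_pow_pow hF x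
  map_mul' x y := mul_pow x y q
  map_add' x y := q_add_pow hF x y

@[simp] lemma qFrob_apply (x : F) : qFrob hF x = x ^ q := rfl

lemma exists_pow_ne_self : ∃ t : F, t ^ q ≠ t := by
  classical
  by_contra h
  push Not at h
  open Polynomial in
  have hdeg : ((X : F[X]) ^ q - X).natDegree = q := FiniteField.X_pow_card_sub_X_natDegree_eq F (one_lt_q hF)
  have hne : (Polynomial.X ^ q - Polynomial.X : Polynomial F) ≠ 0 :=
    FiniteField.X_pow_card_sub_X_ne_zero F (one_lt_q hF)
  have hsub : (Finset.univ : Finset F) ⊆ (Polynomial.X ^ q - Polynomial.X : Polynomial F).roots.toFinset := by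
    intro x _
    simp [Multiset.mem_toFinset, Polynomial.mem_roots hne, h x]
  have h1 := (Finset.card_le_card hsub).trans ((Multiset.toFinset_card_le _).trans (Polynomial.card_roots' _))
  rw [hdeg, Finset.card_univ, hF] at h1
  have h2 := one_lt_q hF
  nlinarith

lemma exists_trace_zero : ∃ a : F, a ≠ 0 ∧ a + a ^ q = 0 := by
  obtain ⟨t, ht⟩ := exists_pow_ne_self hF
  refine ⟨t - t ^ q, sub_ne_zero.2 (Ne.symm ht), ?_⟩
  rw [q_sub_pow hF, q_pow_pow hF]; ring

lemma exists_trace_eq {a : F} (ha : a ^ q = a) : ∃ b : F, b + b ^ q = a := by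
  obtain ⟨t, ht⟩ : ∃ t : F, t + t ^ q ≠ 0 := by
    by_contra h
    push Not at h
    obtain ⟨t, ht⟩ := exists_pow_ne_self hF
    have h1 := h 1
    have h2 := h t
    rw [one_pow] at h1
    refine ht ?_
    linear_combination h2 - t * h1
  refine ⟨a * t / (t + t ^ q), ?_⟩
  have hs : (t + t ^ q) ^ q = t + t ^ q := by rw [q_add_pow hF, q_pow_pow hF]; ring
  rw [div_pow, mul_pow, ha, hs, ← add_div, ← mul_add, mul_div_assoc, div_self ht, mul_one]

/-- The norm onto the fixed field is surjective. -/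
lemma exists_norm_eq {a : F} (ha : a ^ q = a) : ∃ b : F, b ^ (q + 1) = a := by
  classical
  rcases eq_or_ne a 0 with rfl | h0
  · exact ⟨0, by simp⟩
  obtain ⟨g, hg⟩ := IsCyclic.exists_generator (α := Fˣ)
  have hord : orderOf g = q ^ 2 - 1 := by
    rw [orderOf_eq_card_of_forall_mem_zpowers hg, Nat.card_units, Nat.card_eq_fintype_card, hF]
  obtain ⟨i, hi⟩ : ∃ i : ℕ, g ^ i = Units.mk0 a h0 :=
    Submonoid.mem_powers_iff _ _ |>.1 (mem_powers_iff_mem_zpowers.2 (hg _))
  have hq := one_lt_q hF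
  have h1 : (Units.mk0 a h0) ^ (q - 1) = 1 := by
    refine Units.ext ?_
    have h2 : a ^ (q - 1) * a = 1 * a := by
      rw [← pow_succ, Nat.sub_add_cancel (by omega), one_mul, ha]
    simpa using mul_right_cancel₀ h0 h2
  rw [← hi, ← pow_mul, ← orderOf_dvd_iff_pow_eq_one, hord] at h1
  have h3 : q ^ 2 - 1 = (q + 1) * (q - 1) := by
    obtain ⟨m, rfl⟩ : ∃ m, q = m + 1 := ⟨q - 1, by omega⟩
    have : (m + 1) ^ 2 = (m + 1 + 1) * m + 1 := by ring
    simp [this]
  rw [h3] at h1
  obtain ⟨c, hc⟩ : q + 1 ∣ i := Nat.dvd_of_mul_dvd_mul_right (by omega) h1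
  refine ⟨((g ^ c : Fˣ) : F), ?_⟩
  have h4 := congrArg (fun u : Fˣ => (u : F)) hi
  rw [hc] at h4
  simp only [Units.val_pow_eq_pow_val, Units.val_mk0] at h4 ⊢
  rw [← h4, ← pow_mul, mul_comm]

/-- There are at least two non-trivial elements of norm one. -/
lemma exists_norm_one_pair : ∃ a b : F, a ≠ 1 ∧ b ≠ 1 ∧ a ≠ b ∧ a ^ (q + 1) = 1 ∧ b ^ (q + 1) = 1 := by
  classical
  obtain ⟨g, hg⟩ := IsCyclic.exists_generator (α := Fˣ)
  have hord : orderOf g = q ^ 2 - 1 := by
    rw [orderOf_eq_card_of_forall_mem_zpowers hg, Nat.card_units, Nat.card_eq_fintype_card, hF]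
  have hq := one_lt_q hF
  obtain ⟨m, rfl⟩ : ∃ m, q = m + 1 := ⟨q - 1, by omega⟩
  have hsq : (m + 1) ^ 2 - 1 = m * (m + 2) := by
    have : (m + 1) ^ 2 = m * (m + 2) + 1 := by ring
    simp [this]
  rw [hsq] at hord
  have key : ∀ j, 0 < j → j < m + 2 → ((g ^ (m * j) : Fˣ) : F) ≠ 1 := by
    intro j h1 h2 h
    have h' : g ^ (m * j) = 1 := Units.ext (by simpa using h)
    rw [← orderOf_dvd_iff_pow_eq_one, hord] at h'
    have := Nat.le_of_dvd h1 (Nat.dvd_of_mul_dvd_mul_left (by omega) h')
    omega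
  have hn : ∀ j, ((g ^ (m * j) : Fˣ) : F) ^ (m + 1 + 1) = 1 := by
    intro j
    rw [← Units.val_pow_eq_pow_val, ← pow_mul, show m * j * (m + 1 + 1) = m * (m + 2) * j by ring, pow_mul,
      ← hord, pow_orderOf_eq_one, one_pow, Units.val_one]
  refine ⟨_, _, key 1 (by omega) (by omega), key 2 (by omega) (by omega), ?_, hn 1, hn 2⟩
  intro h
  have h' : g ^ (m * 1) = g ^ (m * 2) := Units.ext h
  rw [pow_inj_mod, hord] at h'
  rw [Nat.mod_eq_of_lt (by nlinarith), Nat.mod_eq_of_lt (by nlinarith)] at h'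
  omega

end field

section form

variable (hF : Fintype.card F = q ^ 2) {n : ℕ}

lemma herm_add_left (x y v : Fin n → F) :
    Cfsg.hermForm n F q (x + y) v = Cfsg.hermForm n F q x v + Cfsg.hermForm n F q y v := by
  simp [Cfsg.hermForm, add_mul, Finset.sum_add_distrib]

lemma herm_smul_left (c : F) (x v : Fin n → F) :
    Cfsg.hermForm n F q (c • x) v = c * Cfsg.hermForm n F q x v := by
  simp [Cfsg.hermForm, Finset.mul_sum, mul_assoc]

lemma herm_zero_left (v : Fin n → F) : Cfsg.hermForm n F q 0 v = 0 := by simp [Cfsg.hermForm]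

include hF

lemma herm_symm (x y : Fin n → F) : Cfsg.hermForm n F q x y = Cfsg.hermForm n F q y x ^ q := by
  simp only [Cfsg.hermForm, q_sum_pow hF, mul_pow, q_pow_pow hF]
  exact Finset.sum_congr rfl fun i _ => mul_comm _ _

lemma herm_add_right (x y v : Fin n → F) :
    Cfsg.hermForm n F q v (x + y) = Cfsg.hermForm n F q v x + Cfsg.hermForm n F q v y := by
  simp [Cfsg.hermForm, q_add_pow hF, mul_add, Finset.sum_add_distrib]

lemma herm_smul_right (c : F) (x v : Fin n → F) :
    Cfsg.hermForm n F q v (c • x) = c ^ q * Cfsg.hermForm n F q v x := by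
  simp [Cfsg.hermForm, Finset.mul_sum, mul_pow, mul_left_comm]

lemma herm_zero_right (v : Fin n → F) : Cfsg.hermForm n F q v 0 = 0 := by
  simp [Cfsg.hermForm, zero_pow (q_pos hF).ne']

lemma herm_sum_right {α : Type*} (s : Finset α) (g : α → Fin n → F) (v : Fin n → F) :
    Cfsg.hermForm n F q v (∑ i ∈ s, g i) = ∑ i ∈ s, Cfsg.hermForm n F q v (g i) := by
  classical
  induction s using Finset.induction with
  | empty => simp [herm_zero_right hF]
  | insert a s ha ih => rw [Finset.sum_insert ha, Finset.sum_insert ha, herm_add_right hF, ih]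

lemma herm_self_fixed (x : Fin n → F) :
    Cfsg.hermForm n F q x x ^ q = Cfsg.hermForm n F q x x := (herm_symm hF x x).symm

lemma herm_nondeg {x : Fin n → F} (hx : ∀ y, Cfsg.hermForm n F q x y = 0) : x = 0 := by
  ext i
  have h := hx (Pi.single i 1)
  simpa [Cfsg.hermForm, Pi.single_apply, zero_pow (q_pos hF).ne', ite_pow] using h

lemma herm_nondeg' {x : Fin n → F} (hx : ∀ y, Cfsg.hermForm n F q y x = 0) : x = 0 :=
  herm_nondeg hF fun y => by rw [herm_symm hF, hx, zero_pow (q_pos hF).ne']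

/-- The functional `x ↦ f (x, w)`. -/
def hermDual (q : ℕ) (w : Fin n → F) : Module.Dual F (Fin n → F) where
  toFun x := Cfsg.hermForm n F q x w
  map_add' x y := herm_add_left x y w
  map_smul' c x := by simp [herm_smul_left]

omit hF in
@[simp] lemma hermDual_apply (w x : Fin n → F) : hermDual q w x = Cfsg.hermForm n F q x w := rfl

omit hF in
/-- The perpendicular space of a subspace for the standard hermitian form. -/
def hperp (q : ℕ) (W : Submodule F (Fin n → F)) : Submodule F (Fin n → F) :=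
  ⨅ w : W, LinearMap.ker (hermDual q (w : Fin n → F))

omit hF in
lemma mem_hperp {W : Submodule F (Fin n → F)} {x : Fin n → F} :
    x ∈ hperp q W ↔ ∀ w ∈ W, Cfsg.hermForm n F q x w = 0 := by
  simp [hperp, Submodule.mem_iInf, LinearMap.mem_ker]

lemma mem_hperp' {W : Submodule F (Fin n → F)} {x : Fin n → F} :
    x ∈ hperp q W ↔ ∀ w ∈ W, Cfsg.hermForm n F q w x = 0 := by
  rw [mem_hperp]
  refine forall₂_congr fun w _ => ⟨fun h => ?_, fun h => ?_⟩ <;>
    rw [herm_symm hF, h, zero_pow (q_pos hF).ne']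

lemma mem_hperp_span {v x : Fin n → F} :
    x ∈ hperp q (Submodule.span F {v}) ↔ Cfsg.hermForm n F q x v = 0 := by
  rw [mem_hperp]
  refine ⟨fun h => h v (Submodule.mem_span_singleton_self v), fun h w hw => ?_⟩
  obtain ⟨c, rfl⟩ := Submodule.mem_span_singleton.1 hw
  rw [herm_smul_right hF, h, mul_zero]

lemma finrank_hperp (W : Submodule F (Fin n → F)) :
    finrank F (hperp q W) + finrank F W = n := by
  classical
  set b := Module.finBasis F W with hb
  let Φ : (Fin n → F) →ₗ[F] (Fin (finrank F W) → F) := LinearMap.pi fun i => hermDual q (b i : Fin n → F)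
  have hker : LinearMap.ker Φ = hperp q W := by
    ext x
    rw [LinearMap.mem_ker, mem_hperp]
    refine ⟨fun h w hw => ?_, fun h => funext fun i => h _ (b i).2⟩
    have hr := congrArg (fun z : W => (z : Fin n → F)) (b.sum_repr ⟨w, hw⟩)
    simp only [Submodule.coe_sum, Submodule.coe_smul] at hr
    rw [← hr, herm_sum_right hF]
    refine Finset.sum_eq_zero fun i _ => ?_
    have hi := congrFun h i
    simp only [Φ, LinearMap.pi_apply, hermDual_apply, Pi.zero_apply] at hi
    rw [herm_smul_right hF, hi, mul_zero]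
  have hsurj : LinearMap.range Φ = ⊤ := by
    by_contra hne
    obtain ⟨g, hg0, hg⟩ := Submodule.exists_dual_map_eq_bot_of_lt_top (lt_top_iff_ne_top.2 hne) inferInstance
    refine hg0 (Module.Basis.ext (Pi.basisFun F _) fun i => ?_)
    set c : Fin (finrank F W) → F := fun j => g (Pi.single j 1) with hc
    have hgz : ∀ z, g z = ∑ j, z j * c j := by
      intro z
      conv_lhs => rw [pi_eq_sum_univ' z]
      simp [map_sum, hc, mul_comm]
    have hzero : (∑ j, (c j) ^ q • (b j : Fin n → F)) = 0 := by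
      refine herm_nondeg' hF fun x => ?_
      have hx : g (Φ x) = 0 := by
        have : g (Φ x) ∈ (LinearMap.range Φ).map g := Submodule.mem_map_of_mem ⟨x, rfl⟩
        rwa [hg, Submodule.mem_bot] at this
      rw [herm_sum_right hF, ← hx, hgz]
      refine Finset.sum_congr rfl fun j _ => ?_
      simp [Φ, herm_smul_right hF, q_pow_pow hF, mul_comm]
    have hz : ∑ j, (c j) ^ q • b j = 0 := Subtype.ext (by simpa using hzero)
    have h1 := Fintype.linearIndependent_iff.1 b.linearIndependent _ hz i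
    simpa [hc, Pi.basisFun_apply] using pow_eq_zero_iff (q_pos hF).ne' |>.1 h1
  have h := LinearMap.finrank_range_add_finrank_ker Φ
  rw [hker, hsurj, finrank_top, finrank_fin_fun, finrank_fin_fun] at h
  omega

lemma inf_hperp_of_nondeg {W : Submodule F (Fin n → F)}
    (hW : IsNondegenerateOn (Cfsg.hermForm n F q) W) : W ⊓ hperp q W = ⊥ := by
  rw [Submodule.eq_bot_iff]
  rintro w ⟨hw, hw'⟩
  by_contra h0
  obtain ⟨-, x, hx, hwx⟩ := hW w hw h0
  exact hwx (mem_hperp.1 hw' x hx)

lemma sup_hperp_of_nondeg {W : Submodule F (Fin n → F)}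
    (hW : IsNondegenerateOn (Cfsg.hermForm n F q) W) : W ⊔ hperp q W = ⊤ := by
  refine Submodule.eq_top_of_finrank_eq ?_
  have h1 := Submodule.finrank_sup_add_finrank_inf_eq W (hperp q W)
  rw [inf_hperp_of_nondeg hF hW, finrank_bot] at h1
  rw [finrank_fin_fun]
  have h2 := finrank_hperp hF W
  omega

lemma isNondegenerateOn_of_inf_eq_bot {W : Submodule F (Fin n → F)} (h : W ⊓ hperp q W = ⊥) :
    IsNondegenerateOn (Cfsg.hermForm n F q) W := by
  intro w hw h0
  have hnp : w ∉ hperp q W := fun hw' => h0 ((Submodule.eq_bot_iff _).1 h w ⟨hw, hw'⟩)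
  constructor
  · rw [mem_hperp' hF] at hnp; push Not at hnp; exact hnp
  · rw [mem_hperp] at hnp; push Not at hnp; exact hnp

lemma hperp_nondeg {W : Submodule F (Fin n → F)}
    (hW : IsNondegenerateOn (Cfsg.hermForm n F q) W) :
    IsNondegenerateOn (Cfsg.hermForm n F q) (hperp q W) := by
  refine isNondegenerateOn_of_inf_eq_bot hF ((Submodule.eq_bot_iff _).2 ?_)
  rintro x ⟨hx, hx'⟩
  refine herm_nondeg hF fun y => ?_
  have hy : y ∈ W ⊔ hperp q W := by rw [sup_hperp_of_nondeg hF hW]; trivial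
  obtain ⟨a, ha, b, hb, rfl⟩ := Submodule.mem_sup.1 hy
  rw [herm_add_right hF, mem_hperp.1 hx a ha, mem_hperp.1 hx' b hb, add_zero]

omit hF in
lemma mem_GU {g : GL (Fin n) F} : g ∈ Cfsg.GU n F q ↔ ∀ u v, Cfsg.hermForm n F q
    ((g : Matrix (Fin n) (Fin n) F) *ᵥ u) ((g : Matrix (Fin n) (Fin n) F) *ᵥ v) = Cfsg.hermForm n F q u v :=
  Iff.rfl

/-- Invariant subspaces have invariant perpendicular spaces. -/
lemma subspaceStabilizer_le_hperp {g : GL (Fin n) F} (hg : g ∈ Cfsg.GU n F q)
    {W : Submodule F (Fin n → F)} (hW : g ∈ subspaceStabilizer W) : g ∈ subspaceStabilizer (hperp q W) := by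
  intro v
  simp only [SetLike.mem_coe, mem_hperp]
  refine ⟨fun h w hw => ?_, fun h w hw => ?_⟩
  · obtain ⟨w', rfl⟩ : ∃ w', (g : Matrix (Fin n) (Fin n) F) *ᵥ w' = w :=
      ⟨((g⁻¹ : GL (Fin n) F) : Matrix (Fin n) (Fin n) F) *ᵥ w, by
        simp [Matrix.mulVec_mulVec]⟩
    rw [show Cfsg.hermForm n F q ((Units.coeHom _) g *ᵥ v) _ = _ from mem_GU.1 hg v w']
    exact h _ ((hW w').2 hw)
  · rw [← mem_GU.1 hg v w]
    exact h _ ((hW w).1 hw)

variable {v : Fin n → F} {c : F}

omit hF in
lemma transDual_self (hv : Cfsg.hermForm n F q v v = 0) : (c • hermDual q v) v = 0 := by simp [hv]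

/-- The unitary transvection `x ↦ x + c f(x, v) v`. -/
noncomputable def utransv (hv : Cfsg.hermForm n F q v v = 0) (c : F) : GL (Fin n) F :=
  TransvGL.transv (transDual_self (c := c) hv)

omit hF in
lemma utransv_mulVec (hv : Cfsg.hermForm n F q v v = 0) (c : F) (x : Fin n → F) :
    (utransv hv c : Matrix (Fin n) (Fin n) F) *ᵥ x = x + (c * Cfsg.hermForm n F q x v) • v := by
  simp [utransv, TransvGL.transv_mulVec]

lemma utransv_mem (hv : Cfsg.hermForm n F q v v = 0) (hc : c + c ^ q = 0) :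
    utransv hv c ∈ Cfsg.GU n F q ⊓ specialLinear (Fin n) F := by
  refine ⟨mem_GU.2 fun x y => ?_, TransvGL.transv_mem_specialLinear _⟩
  rw [utransv_mulVec, utransv_mulVec]
  simp only [herm_add_left, herm_add_right hF, herm_smul_left, herm_smul_right hF, mul_pow, hv]
  rw [← herm_symm hF v y]
  linear_combination Cfsg.hermForm n F q x v * Cfsg.hermForm n F q v y * hc

/-- Two linearly independent vectors span an isotropic vector meeting both. -/
lemma exists_isotropic_combination {a b : Fin n → F} (hab : Cfsg.hermForm n F q a b = 0)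
    (ha : Cfsg.hermForm n F q a a ≠ 0) (hb : Cfsg.hermForm n F q b b ≠ 0) :
    ∃ t : F, t ≠ 0 ∧ Cfsg.hermForm n F q (a + t • b) (a + t • b) = 0 := by
  obtain ⟨t, ht⟩ := exists_norm_eq hF (a := -Cfsg.hermForm n F q a a / Cfsg.hermForm n F q b b)
    (by rw [div_pow, q_neg_pow hF, herm_self_fixed hF, herm_self_fixed hF])
  have hba : Cfsg.hermForm n F q b a = 0 := by rw [herm_symm hF, hab, zero_pow (q_pos hF).ne']
  refine ⟨t, fun h0 => ?_, ?_⟩
  · rw [h0, zero_pow (by omega), eq_comm, div_eq_zero_iff, neg_eq_zero] at ht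
    tauto
  · simp only [herm_add_left, herm_add_right hF, herm_smul_left, herm_smul_right hF, hab, hba]
    rw [pow_succ] at ht
    field_simp at ht
    linear_combination ht

/-- A non-zero non-degenerate subspace contains an anisotropic vector. -/
lemma exists_anisotropic {W : Submodule F (Fin n → F)}
    (hW : IsNondegenerateOn (Cfsg.hermForm n F q) W) (h0 : W ≠ ⊥) :
    ∃ w ∈ W, Cfsg.hermForm n F q w w ≠ 0 := by
  obtain ⟨w, hw, hw0⟩ := Submodule.exists_mem_ne_zero_of_ne_bot h0
  by_contra h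
  push Not at h
  obtain ⟨x, hx, hxw⟩ := (hW w hw hw0).1
  obtain ⟨t, ht⟩ := exists_pow_ne_self hF
  have hsym : Cfsg.hermForm n F q w x = Cfsg.hermForm n F q x w ^ q := herm_symm hF w x
  -- all self-pairings of `s • x + w` vanish, for every scalar `s`
  have key : ∀ s : F, s * Cfsg.hermForm n F q x w + (s * Cfsg.hermForm n F q x w) ^ q = 0 := by
    intro s
    have h1 := h (s • x + w) (W.add_mem (W.smul_mem s hx) hw)
    simp only [herm_add_left, herm_add_right hF, herm_smul_left, herm_smul_right hF, h x hx, h w hw, hsym]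
      at h1
    rw [mul_pow]
    linear_combination h1
  have k1 := key (Cfsg.hermForm n F q x w)⁻¹
  have k2 := key (t * (Cfsg.hermForm n F q x w)⁻¹)
  rw [inv_mul_cancel₀ hxw, one_pow] at k1
  rw [mul_assoc, inv_mul_cancel₀ hxw, mul_one] at k2
  exact ht (by linear_combination k2 - t * k1)

end form

end CfsgLib.AschPrime
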