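import Cfsg.Agent.AschPrime.UnitaryRational
import Cfsg.Agent.AschPrime.UnitaryNormalizer
import Cfsg.Agent.Aschbacher.Clifford

/-! Each case of the structure theorem in odd prime dimension, read inside the special unitary group. -/

set_option autoImplicit false
set_option linter.unusedSectionVars false

namespace CfsgLib.AschPrime

open Cfsg.Geo Module
open scoped Matrix MatrixGroups

variable {F : Type*} [Field F] [Fintype F] {q n : ℕ}
variable (hF : Fintype.card F = q ^ 2)
include hF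

/-- Monomial case. -/
theorem frame_case (hn : Odd n) (hn3 : 3 ≤ n) (hq : 3 ≤ q ∨ 4 ≤ n) {H A : Subgroup (GL (Fin n) F)}
    (hH : IsMaximalIn (Cfsg.GU n F q ⊓ specialLinear (Fin n) F) H) (hA : A ≤ H)
    (hirr : ActsIrreducibly (matrixSet H)) (b : Basis (Fin n) F (Fin n → F))
    (hm : Aschbacher.IsMonomial H b) (he : ∀ i, Aschbacher.IsCommonEigen A (b i))
    (hs : Aschbacher.Separates A b) :
    ∃ D : Fin n → Submodule F (Fin n → F), IsNondegenerateMDecomposition (Cfsg.hermForm n F q) 1 D ∧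
      H = decompositionStabilizer D ⊓ (Cfsg.GU n F q ⊓ specialLinear (Fin n) F) := by
  classical
  set D : Fin n → Submodule F (Fin n → F) := fun i => Submodule.span F {b i} with hDdef
  have hD : IsMDecomposition 1 D := by
    refine ⟨by omega, one_pos, fun i => finrank_span_singleton (b.ne_zero i), ?_, ?_⟩
    · exact b.linearIndependent.iSupIndep_span_singleton
    · rw [hDdef, ← Submodule.span_range_eq_iSup, b.span_eq]
  have hperm : H ≤ decompositionStabilizer D := by
    intro h hh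
    obtain ⟨σ, c, hc⟩ := hm h hh
    refine ⟨σ, fun i => ?_⟩
    have hc0 : c i ≠ 0 := fun h0 => by
      have := hc i
      rw [h0, zero_smul] at this
      exact b.ne_zero i (Aschbacher.mulVec_inj h (this.trans (Matrix.mulVec_zero _).symm))
    simp only [hDdef, Submodule.map_span, Set.image_singleton, Matrix.toLin'_apply, hc i]
    exact Submodule.span_singleton_smul_eq hc0.isUnit _
  choose χ hχ using fun (i : Fin n) (a : A) => he i a.1 a.2
  let χ' : Fin n → GL (Fin n) F → F := fun i g => if hg : g ∈ A then χ i ⟨g, hg⟩ else 0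
  have hχ' : ∀ i, ∀ a ∈ A, ∀ x ∈ D i, (a : Matrix (Fin n) (Fin n) F) *ᵥ x = χ' i a • x := by
    intro i a ha x hx
    obtain ⟨t, rfl⟩ := Submodule.mem_span_singleton.1 hx
    rw [Matrix.mulVec_smul, hχ i ⟨a, ha⟩, smul_comm]
    simp [χ', ha]
  have hdist : ∀ i j, (∀ a ∈ A, χ' i a = χ' j a) → i = j := by
    intro i j h
    refine hs i j fun a ha c hc => ?_
    have h1 := (hχ i ⟨a, ha⟩).symm.trans hc
    have h2 := smul_left_injective F (b.ne_zero i) h1
    have h3 : χ i ⟨a, ha⟩ = χ j ⟨a, ha⟩ := by simpa [χ', ha] using h a ha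
    rw [hχ j ⟨a, ha⟩, ← h3, show χ i ⟨a, ha⟩ = c from h2]
  have htrans : ∀ i j, ∃ h ∈ H, (D i).map (Matrix.toLin' (h : Matrix (Fin n) (Fin n) F)) = D j := by
    intro i j
    by_contra hcon
    push Not at hcon
    set S : Set (Fin n) := {k | ∃ h ∈ H, (D i).map (Matrix.toLin' (h : Matrix (Fin n) (Fin n) F)) = D k}
    have hinv : Aschbacher.IsInvariantUnder H (Submodule.span F (b '' S)) := by
      intro g hg v hv
      have hle : Submodule.map (Matrix.toLin' (g : Matrix (Fin n) (Fin n) F)) (Submodule.span F (b '' S)) ≤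
          Submodule.span F (b '' S) := by
        rw [Submodule.map_span, Submodule.span_le]
        rintro _ ⟨_, ⟨k, ⟨h, hh, hk⟩, rfl⟩, rfl⟩
        obtain ⟨σ, c, hc⟩ := hm g hg
        rw [Matrix.toLin'_apply, hc k]
        refine Submodule.smul_mem _ _ (Submodule.subset_span ⟨σ k, ⟨g * h, mul_mem hg hh, ?_⟩, rfl⟩)
        rw [Units.val_mul, Matrix.toLin'_mul, Submodule.map_comp, hk]
        have hc0 : c k ≠ 0 := fun h0 => by
          have := hc k
          rw [h0, zero_smul] at this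
          exact b.ne_zero k (Aschbacher.mulVec_inj g (this.trans (Matrix.mulVec_zero _).symm))
        simp only [hDdef, Submodule.map_span, Set.image_singleton, Matrix.toLin'_apply, hc k]
        exact Submodule.span_singleton_smul_eq hc0.isUnit _
      exact hle ⟨v, hv, by simp⟩
    rcases Aschbacher.eq_bot_or_top_of_invariant hirr hinv with h | h
    · refine b.ne_zero i ((Submodule.mem_bot F).1 (h ▸ Submodule.subset_span ⟨i, ⟨1, one_mem H, ?_⟩, rfl⟩))
      simp
    · have hj : b j ∈ Submodule.span F (b '' S) := h ▸ Submodule.mem_top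
      rw [b.mem_span_image, b.repr_self, Finsupp.support_single_ne_zero _ one_ne_zero, Finset.coe_singleton,
        Set.singleton_subset_iff] at hj
      obtain ⟨g, hg, hgj⟩ := hj
      exact hcon g hg hgj
  have hHU : H ≤ Cfsg.GU n F q := hH.1.le.trans inf_le_left
  have hND := isNondegenerateMDecomposition_of_diag hF hn hHU (hA.trans hHU) hD χ' hχ' hdist hperm htrans
  exact ⟨D, hND, eq_inf_of_isMaximalIn hH hperm (not_le_decompositionStabilizer hF hND hn3 hq)⟩

/-- Extension-field case. -/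
theorem field_case (hn3 : 3 ≤ n) {H A : Subgroup (GL (Fin n) F)}
    (hH : IsMaximalIn (Cfsg.GU n F q ⊓ specialLinear (Fin n) F) H) (hA : A ≤ H)
    (hK : IsFieldSubalgebra n (Aschbacher.commutant A))
    (hnorm : H ≤ subalgebraNormalizer (Aschbacher.commutant A)) :
    ∃ K : Subalgebra F (Matrix (Fin n) (Fin n) F), IsFieldSubalgebra n K ∧
      IsAdjointClosedFor (Cfsg.hermForm n F q) K ∧
      H = subalgebraNormalizer K ⊓ (Cfsg.GU n F q ⊓ specialLinear (Fin n) F) := by
  refine ⟨_, hK, isAdjointClosed_commutant hF (hA.trans (hH.1.le.trans inf_le_left)) fun k => ?_,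
    eq_inf_of_isMaximalIn hH hnorm (not_le_subalgebraNormalizer hF hn3 hK)⟩
  rw [Aschbacher.mem_commutant]
  constructor
  · rintro h _ ⟨a, ha, rfl⟩
    exact (h a ha).symm
  · intro h a ha
    exact (h _ ⟨a, ha, rfl⟩).symm

/-- A normal absolutely irreducible subgroup realised over a proper subfield. -/
theorem subfield_case (hn : Odd n) (hn3 : 3 ≤ n) {H P : Subgroup (GL (Fin n) F)}
    (hH : IsMaximalIn (Cfsg.GU n F q ⊓ specialLinear (Fin n) F) H) (hP : P ≤ H)
    (hnorm : ∀ h ∈ H, ∀ x ∈ P, h * x * h⁻¹ ∈ P) (hirr : ActsAbsolutelyIrreducibly (matrixSet P))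
    {F₀ : Subfield F} (h0 : F₀ ≠ ⊤) (hreal : RealisableOver F₀ (matrixSet P)) :
    (∃ (F₀ : Subfield F) (r : ℕ) (P : GL (Fin n) F), r.Prime ∧ Odd r ∧
        Fintype.card F = Nat.card F₀ ^ r ∧ IsFormRationalStructure (Cfsg.hermForm n F q) F₀ 1 P ∧
        H = subfieldSubgroup F₀ P ⊓ (Cfsg.GU n F q ⊓ specialLinear (Fin n) F)) ∨
    (Odd q ∧ ∃ (F₀ : Subfield F) (P : GL (Fin n) F), Fintype.card F = Nat.card F₀ ^ 2 ∧
        IsFormRationalStructure (Cfsg.hermForm n F q) F₀ 1 P ∧
        H = subfieldSubgroup F₀ P ⊓ (Cfsg.GU n F q ⊓ specialLinear (Fin n) F)) := by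
  have : Nonempty (Fin n) := ⟨⟨0, by omega⟩⟩
  have hPU : P ≤ Cfsg.GU n F q := hP.trans (hH.1.le.trans inf_le_left)
  obtain ⟨B, hB⟩ := hreal
  obtain ⟨F₁, r, hle, hr, hcard, htop⟩ := Aschbacher.exists_subfield_prime_index h0
  have hB1 : ∀ s ∈ matrixSet P, ∀ i j, (B.val * s * (B⁻¹ : GL (Fin n) F).val) i j ∈ F₁ :=
    fun s hs i j => hle (hB s hs i j)
  have hsub := Aschbacher.le_subfieldSubgroup_of_realisable hirr hnorm hB1
  rcases hr.eq_two_or_odd' with rfl | hodd
  · right
    have hq : Nat.card F₁ = q := (Nat.pow_left_injective two_ne_zero (hcard.symm.trans hF))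
    have hfix : fixedField hF = F₁ := by
      classical
      have hle1 : F₁ ≤ fixedField hF := fun x hx => by
        have : Fintype F₁ := Fintype.ofFinite _
        have h1 := FiniteField.pow_card (⟨x, hx⟩ : F₁)
        rw [← Nat.card_eq_fintype_card, hq] at h1
        exact (mem_fixedField hF).2 (congrArg Subtype.val h1)
      refine SetLike.coe_injective ((Set.eq_of_subset_of_ncard_le hle1 ?_ (Set.toFinite _)).symm)
      show Nat.card (fixedField hF) ≤ Nat.card F₁
      rw [card_fixedField hF, hq]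
    obtain ⟨hoq, P', hrat, heq⟩ := exists_rational_fixed hF hn (by omega) hirr hPU (B := B) (hfix.symm ▸ hB1)
    refine ⟨hoq, fixedField hF, P', by rw [card_fixedField hF, hF], hrat,
      eq_inf_of_isMaximalIn hH (by rw [heq, hfix]; exact hsub)
        (not_le_subfieldSubgroup hF hn3 (fixedField_ne_top hF) _)⟩
  · left
    obtain ⟨P', hrat, heq⟩ := exists_rational_odd hF (by omega) hodd hcard hirr hPU (B := B) hB1
    exact ⟨F₁, r, P', hr, hodd, hcard, hrat,
      eq_inf_of_isMaximalIn hH (heq ▸ hsub) (not_le_subfieldSubgroup hF hn3 htop _)⟩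

/-- The socle case. -/
theorem core_case (hn : Odd n) (hn3 : 3 ≤ n) {H P : Subgroup (GL (Fin n) F)}
    (hH : IsMaximalIn (Cfsg.GU n F q ⊓ specialLinear (Fin n) F) H) (hP : P ≤ H)
    (hnorm : ∀ h ∈ H, ∀ x ∈ P, h * x * h⁻¹ ∈ P) (hperf : ⁅P, P⁆ = P)
    (hsimple : IsSimpleGroup (P ⧸ (scalars (Fin n) F).subgroupOf P))
    (hna : ¬ IsMulCommutative (P ⧸ (scalars (Fin n) F).subgroupOf P))
    (hcent : ∀ h ∈ H, (∀ x ∈ P, h * x * h⁻¹ * x⁻¹ ∈ scalars (Fin n) F) → h ∈ scalars (Fin n) F)
    (hirr : ActsAbsolutelyIrreducibly (matrixSet P)) :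
    (∃ (F₀ : Subfield F) (r : ℕ) (P : GL (Fin n) F), r.Prime ∧ Odd r ∧
        Fintype.card F = Nat.card F₀ ^ r ∧ IsFormRationalStructure (Cfsg.hermForm n F q) F₀ 1 P ∧
        H = subfieldSubgroup F₀ P ⊓ (Cfsg.GU n F q ⊓ specialLinear (Fin n) F)) ∨
    (Odd q ∧ ∃ (F₀ : Subfield F) (P : GL (Fin n) F), Fintype.card F = Nat.card F₀ ^ 2 ∧
        IsFormRationalStructure (Cfsg.hermForm n F q) F₀ 1 P ∧
        H = subfieldSubgroup F₀ P ⊓ (Cfsg.GU n F q ⊓ specialLinear (Fin n) F)) ∨
    InUnitaryResidualClass H := by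
  by_cases hreal : ∃ F₀ : Subfield F, F₀ ≠ ⊤ ∧ RealisableOver F₀ (matrixSet P)
  · obtain ⟨F₀, h0, hr⟩ := hreal
    rcases subfield_case hF hn hn3 hH hP hnorm hirr h0 hr with h | h
    exacts [Or.inl h, Or.inr (Or.inl h)]
  push Not at hreal
  refine Or.inr (Or.inr ⟨P, ⟨hP, hnorm, hperf, hsimple, hna, hcent, hirr, hreal⟩, ?_, ?_⟩)
  · rintro ⟨Q, hQ, hfix⟩
    exact hreal _ (fixedField_ne_top hF)
      (realisableOver_fixed_of_quad hF (by omega) hirr (hP.trans (hH.1.le.trans inf_le_left)) hQ hfix)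
  · rintro ⟨f, hf, -⟩
    exact Aschbacher.not_isSymplecticForm (by simpa using hn) f hf

omit hF in
/-- A field element of prime multiplicative order outside every proper subfield determines the degree. -/
lemma minimal_field_arith (_hn : n.Prime) {p k : ℕ} (hp : p.Prime) [CharP F p]
    (hF : Fintype.card F = (p ^ k) ^ 2) {ζ : F}
    (hζ : IsPrimitiveRoot ζ n) (hn2 : 2 < n) (hconj : ζ ^ (p ^ k) = ζ⁻¹)
    (hmin : ∀ F₀ : Subfield F, ζ ∈ F₀ → F₀ = ⊤) :
    p ^ k % n = n - 1 ∧ ∀ e, 0 < e → e < 2 * k → p ^ e % n ≠ 1 := by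
  have hζ0 : ζ ≠ 0 := hζ.ne_zero (by omega)
  constructor
  · have h1 : ζ ^ (p ^ k + 1) = 1 := by rw [pow_succ, hconj, inv_mul_cancel₀ hζ0]
    obtain ⟨c, hc⟩ := (hζ.pow_eq_one_iff_dvd _).1 h1
    rcases c with _ | c
    · simp at hc
    have : p ^ k = n * c + (n - 1) := by
      rw [Nat.mul_succ] at hc
      omega
    rw [this, Nat.mul_add_mod, Nat.mod_eq_of_lt (by omega)]
  · intro e he hlt hmod
    have := Fact.mk hp
    let L : Subfield F := RingHom.eqLocusField (iterateFrobenius F p e) (RingHom.id F)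
    have hL : ∀ x, x ∈ L ↔ x ^ (p ^ e) = x := fun x => by
      show iterateFrobenius F p e x = x ↔ _
      rw [iterateFrobenius_def]
    have hmem : ζ ∈ L := by
      rw [hL, ← Nat.mod_add_div (p ^ e) n, hmod, pow_add, pow_one, pow_mul, hζ.pow_eq_one, one_pow, mul_one]
    have htop := hmin L hmem
    have hgt : 1 < p ^ e := Nat.one_lt_pow he.ne' hp.one_lt
    classical
    have hsub : (Finset.univ : Finset F) ⊆ (Polynomial.X ^ (p ^ e) - Polynomial.X : Polynomial F).roots.toFinset := by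
      intro x _
      have hx : x ^ (p ^ e) = x := (hL x).1 (htop ▸ Subfield.mem_top x)
      simp [Multiset.mem_toFinset, Polynomial.mem_roots (FiniteField.X_pow_card_sub_X_ne_zero F hgt), hx]
    have h1 := (Finset.card_le_card hsub).trans ((Multiset.toFinset_card_le _).trans (Polynomial.card_roots' _))
    rw [FiniteField.X_pow_card_sub_X_natDegree_eq F hgt, Finset.card_univ, hF, ← pow_mul] at h1
    exact absurd h1 (not_le.2 (Nat.pow_lt_pow_right hp.one_lt (by omega)))

end CfsgLib.AschPrime
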