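import Cfsg.Agent.AschPrime.UnitarySubfield
import Cfsg.Agent.AschPrime.Rational
import Cfsg.Agent.AschPrime.Twist

/-! Subfield structures of absolutely irreducible unitary groups in odd dimension: the form can be made
rational, and a group that fixes also a quadratic form is realised over the fixed field. -/

set_option autoImplicit false
set_option linter.unusedSectionVars false

namespace CfsgLib.AschPrime

open Cfsg.Geo Module
open scoped Matrix MatrixGroups

variable {F : Type*} [Field F] [Fintype F] {q n : ℕ}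
variable (hF : Fintype.card F = q ^ 2)
include hF

lemma herm_sesqui : Aschbacher.IsSesquiForm (qFrob hF : F ≃+* F).toRingHom (Cfsg.hermForm n F q) :=
  ⟨herm_add_left, herm_smul_left, fun v x y => herm_add_right hF x y v, fun c v x => herm_smul_right hF c x v⟩

lemma herm_isNondegenerateForm : IsNondegenerateForm (Cfsg.hermForm n F q) := fun v hv =>
  ⟨by by_contra h; push Not at h; exact hv (herm_nondeg' hF h),
   by by_contra h; push Not at h; exact hv (herm_nondeg hF h)⟩

lemma herm_fixes {P : Subgroup (GL (Fin n) F)} (hP : P ≤ Cfsg.GU n F q) :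
    FixesForm (matrixSet P) (Cfsg.hermForm n F q) := by
  rintro _ ⟨x, hx, rfl⟩ u v
  exact hP hx u v

lemma fixedField_ne_top : fixedField hF ≠ ⊤ := fun h => by
  obtain ⟨t, ht⟩ := exists_pow_ne_self hF
  exact ht ((mem_fixedField hF).1 (h ▸ Subfield.mem_top t))

lemma card_fixedField : Nat.card (fixedField hF) = q := by
  classical
  obtain ⟨t, ht⟩ := exists_pow_ne_self hF
  have hd : t - t ^ q ≠ 0 := sub_ne_zero.2 (Ne.symm ht)
  let co : F → fixedField hF × fixedField hF := fun y =>
    have hb : ((y - y ^ q) / (t - t ^ q)) ^ q = (y - y ^ q) / (t - t ^ q) := by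
      rw [div_pow, q_sub_pow hF, q_sub_pow hF, q_pow_pow hF, q_pow_pow hF, ← neg_sub y, ← neg_sub t,
        neg_div_neg_eq]
    (⟨y - (y - y ^ q) / (t - t ^ q) * t, (mem_fixedField hF).2 (by
        rw [q_sub_pow hF, mul_pow, hb]
        linear_combination div_mul_cancel₀ (y - y ^ q) hd)⟩, ⟨_, (mem_fixedField hF).2 hb⟩)
  have hbij : Function.Bijective co := by
    refine ⟨fun x y h => ?_, fun ⟨a, b⟩ => ⟨a + b * t, ?_⟩⟩
    · simp only [co, Prod.mk.injEq, Subtype.mk.injEq] at h
      obtain ⟨h1, h2⟩ := h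
      rw [← h2] at h1
      exact sub_left_injective h1
    · have ha := (mem_fixedField hF).1 a.2
      have hb := (mem_fixedField hF).1 b.2
      have e : ((a : F) + b * t - ((a : F) + b * t) ^ q) / (t - t ^ q) = b := by
        rw [q_add_pow hF, mul_pow, ha, hb, div_eq_iff hd]; ring
      simp only [co, Prod.ext_iff, Subtype.ext_iff, e]
      exact ⟨by ring, trivial⟩
  have h := Nat.card_eq_of_bijective co hbij
  rw [Nat.card_prod, Nat.card_eq_fintype_card, hF, pow_two] at h
  exact (Nat.mul_self_inj.1 h).symm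

omit hF in
lemma q_pow_mem {F₀ : Subfield F} : ∀ x ∈ F₀, x ^ q ∈ F₀ := fun _ hx => pow_mem hx q

/-- A diagonal value of the form on a rational structure can be scaled to one. -/
lemma exists_rational_of_value (hn : 0 < n) {F₀ : Subfield F} {P : Subgroup (GL (Fin n) F)}
    (hP : ActsAbsolutelyIrreducibly (matrixSet P)) (hPU : P ≤ Cfsg.GU n F q) {B : GL (Fin n) F}
    (hB : ∀ s ∈ matrixSet P, ∀ i j, (B.val * s * (B⁻¹ : GL (Fin n) F).val) i j ∈ F₀)
    {u : Fin n → F} (hu : ∀ i, u i ∈ F₀)
    (hval : Cfsg.hermForm n F q ((B⁻¹ : GL (Fin n) F).val *ᵥ u) ((B⁻¹ : GL (Fin n) F).val *ᵥ u) ≠ 0) :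
    ∃ P' : GL (Fin n) F, IsFormRationalStructure (Cfsg.hermForm n F q) F₀ 1 P' ∧
      subfieldSubgroup F₀ P' = subfieldSubgroup F₀ B⁻¹ := by
  have : Nonempty (Fin n) := ⟨⟨0, hn⟩⟩
  set f := Cfsg.hermForm n F q with hf
  set e : Fin n → Fin n → F := fun a => (B⁻¹ : GL (Fin n) F).val *ᵥ Pi.single a 1
  have hexp : ∀ x y : Fin n → F, f ((B⁻¹ : GL (Fin n) F).val *ᵥ x) ((B⁻¹ : GL (Fin n) F).val *ᵥ y) =
      ∑ a, ∑ b, x a * (y b ^ q) * f (e a) (e b) := by
    intro x y
    have hd : ∀ z, (B⁻¹ : GL (Fin n) F).val *ᵥ z = ∑ a, z a • e a := fun z => by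
      conv_lhs => rw [pi_eq_sum_univ' z]
      simp [e, Matrix.mulVec_sum, Matrix.mulVec_smul]
    show Cfsg.hermForm n F q _ _ = _
    rw [hd, hd, (herm_sesqui hF).sum_left]
    refine Finset.sum_congr rfl fun a _ => ?_
    rw [herm_smul_left, (herm_sesqui hF).sum_right, Finset.mul_sum]
    refine Finset.sum_congr rfl fun b _ => ?_
    rw [herm_smul_right hF]; ring
  obtain ⟨i, j, hij⟩ : ∃ i j, f (e i) (e j) ≠ 0 := by
    by_contra h
    push Not at h
    exact hval (by rw [hexp]; simp [h])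
  have hratio : ∀ a b, f (e a) (e b) / f (e i) (e j) ∈ F₀ := fun a b =>
    gram_ratio_mem (σ := (qFrob hF : F ≃+* F).toRingHom) q_pow_mem hP (herm_sesqui hF)
      (herm_isNondegenerateForm hF) (herm_fixes hF hPU) hB hij a b
  set γ := f ((B⁻¹ : GL (Fin n) F).val *ᵥ u) ((B⁻¹ : GL (Fin n) F).val *ᵥ u) with hγ
  have hrat : ∀ x y : Fin n → F, (∀ i, x i ∈ F₀) → (∀ i, y i ∈ F₀) →
      f ((B⁻¹ : GL (Fin n) F).val *ᵥ x) ((B⁻¹ : GL (Fin n) F).val *ᵥ y) / f (e i) (e j) ∈ F₀ := by
    intro x y hx hy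
    rw [hexp, Finset.sum_div]
    refine sum_mem fun a _ => ?_
    rw [Finset.sum_div]
    refine sum_mem fun b _ => ?_
    rw [mul_div_assoc]
    exact mul_mem (mul_mem (hx a) (pow_mem (hy b) q)) (hratio a b)
  obtain ⟨l, hl⟩ := exists_norm_eq hF (a := γ⁻¹) (by rw [inv_pow, herm_self_fixed hF])
  have hl0 : l ≠ 0 := fun h => by
    rw [h, zero_pow (by omega)] at hl
    exact inv_ne_zero hval hl.symm
  let z : GL (Fin n) F := Units.map (Matrix.scalar (Fin n) : F →+* Matrix (Fin n) (Fin n) F).toMonoidHom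
    (Units.mk0 l hl0)
  refine ⟨B⁻¹ * z, fun x y hx hy => ?_, subfieldSubgroup_mul_scalar F₀ _ ⟨_, rfl⟩⟩
  have hz : ∀ w, (B⁻¹ * z : GL (Fin n) F).val *ᵥ w = l • ((B⁻¹ : GL (Fin n) F).val *ᵥ w) := fun w => by
    rw [Units.val_mul, ← Matrix.mulVec_mulVec, ← Matrix.mulVec_smul]
    congr 1
    ext k
    simp [z, Matrix.mulVec_diagonal]
  show 1 * Cfsg.hermForm n F q _ _ ∈ F₀
  rw [one_mul, hz, hz, herm_smul_left, herm_smul_right hF, ← mul_assoc, ← pow_succ', hl]
  have h := F₀.div_mem (hrat x y hx hy) (hrat u u hu hu)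
  rw [div_div_div_cancel_right₀ hij] at h
  rwa [inv_mul_eq_div]

/-- Subfield structures of odd prime index. -/
theorem exists_rational_odd (hn : 0 < n) {F₀ : Subfield F} {r : ℕ} (hr : Odd r)
    (hcard : Fintype.card F = Nat.card F₀ ^ r) {P : Subgroup (GL (Fin n) F)}
    (hP : ActsAbsolutelyIrreducibly (matrixSet P)) (hPU : P ≤ Cfsg.GU n F q) {B : GL (Fin n) F}
    (hB : ∀ s ∈ matrixSet P, ∀ i j, (B.val * s * (B⁻¹ : GL (Fin n) F).val) i j ∈ F₀) :
    ∃ P' : GL (Fin n) F, IsFormRationalStructure (Cfsg.hermForm n F q) F₀ 1 P' ∧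
      subfieldSubgroup F₀ P' = subfieldSubgroup F₀ B⁻¹ := by
  classical
  have : Nonempty (Fin n) := ⟨⟨0, hn⟩⟩
  obtain ⟨x, hx, hxq⟩ : ∃ x ∈ F₀, x ^ q ≠ x := by
    by_contra h
    push Not at h
    have hle : F₀ ≤ fixedField hF := fun x hx => h x hx
    letI := (Subfield.inclusion hle).toAlgebra
    have h1 := Module.natCard_eq_pow_finrank (K := F₀) (V := fixedField hF)
    rw [card_fixedField hF] at h1
    rw [hF, h1, ← pow_mul] at hcard
    have h2 : 1 < Nat.card F₀ := Finite.one_lt_card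
    have h3 := Nat.pow_right_injective h2 hcard
    rw [← h3] at hr
    exact Nat.not_odd_iff_even.2 (by simp) hr
  by_contra hcon
  have hzero : ∀ u : Fin n → F, (∀ i, u i ∈ F₀) →
      Cfsg.hermForm n F q ((B⁻¹ : GL (Fin n) F).val *ᵥ u) ((B⁻¹ : GL (Fin n) F).val *ᵥ u) = 0 :=
    fun u hu => by_contra fun h => hcon (exists_rational_of_value hF hn hP hPU hB hu h)
  have hs : ∀ (c : F) (a : Fin n), c ∈ F₀ → ∀ k, (Pi.single a c : Fin n → F) k ∈ F₀ := by
    intro c a hc k
    rcases eq_or_ne k a with rfl | h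
    · simpa
    · simp [h, F₀.zero_mem]
  have hall : ∀ a b, Cfsg.hermForm n F q ((B⁻¹ : GL (Fin n) F).val *ᵥ Pi.single a 1)
      ((B⁻¹ : GL (Fin n) F).val *ᵥ Pi.single b 1) = 0 := by
    intro a b
    have h0 := fun a => hzero (Pi.single a (1 : F)) (hs 1 a F₀.one_mem)
    have hc : ∀ c ∈ F₀, c ^ q * Cfsg.hermForm n F q ((B⁻¹ : GL (Fin n) F).val *ᵥ Pi.single a 1)
        ((B⁻¹ : GL (Fin n) F).val *ᵥ Pi.single b 1) + c * Cfsg.hermForm n F q
        ((B⁻¹ : GL (Fin n) F).val *ᵥ Pi.single b 1) ((B⁻¹ : GL (Fin n) F).val *ᵥ Pi.single a 1) = 0 := by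
      intro c hc
      have h := hzero (Pi.single a 1 + c • Pi.single b 1) fun k =>
        F₀.add_mem (hs 1 a F₀.one_mem k) (F₀.mul_mem hc (hs 1 b F₀.one_mem k))
      simp only [Matrix.mulVec_add, Matrix.mulVec_smul, herm_add_left, herm_add_right hF, herm_smul_left,
        herm_smul_right hF, h0] at h
      linear_combination h
    have h1 := hc 1 F₀.one_mem
    have h2 := hc x hx
    rw [one_pow] at h1
    by_contra hne
    refine hxq (mul_right_cancel₀ hne ?_)
    linear_combination h2 - x * h1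
  obtain ⟨v, w, hvw⟩ := Aschbacher.IsNondegenerateForm.exists_ne (by simpa using hn)
    (herm_isNondegenerateForm (n := n) hF)
  refine hvw ?_
  have hv : ∀ v : Fin n → F, v = ∑ a, (B.val *ᵥ v) a • ((B⁻¹ : GL (Fin n) F).val *ᵥ Pi.single a 1) := fun v => by
    simp only [← Matrix.mulVec_smul, ← Matrix.mulVec_sum, ← pi_eq_sum_univ', Matrix.mulVec_mulVec,
      Units.inv_mul, Matrix.one_mulVec]
  rw [hv v, hv w, (herm_sesqui hF).sum_left]
  refine Finset.sum_eq_zero fun a _ => ?_
  rw [herm_smul_left, (herm_sesqui hF).sum_right]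
  refine mul_eq_zero_of_right _ (Finset.sum_eq_zero fun b _ => ?_)
  rw [herm_smul_right hF, hall, mul_zero]

/-- Subfield structures over the fixed field force odd characteristic in odd dimension. -/
theorem exists_rational_fixed (hn : Odd n) (hn3 : 2 ≤ n) {P : Subgroup (GL (Fin n) F)}
    (hP : ActsAbsolutelyIrreducibly (matrixSet P)) (hPU : P ≤ Cfsg.GU n F q) {B : GL (Fin n) F}
    (hB : ∀ s ∈ matrixSet P, ∀ i j, (B.val * s * (B⁻¹ : GL (Fin n) F).val) i j ∈ fixedField hF) :
    Odd q ∧ ∃ P' : GL (Fin n) F, IsFormRationalStructure (Cfsg.hermForm n F q) (fixedField hF) 1 P' ∧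
      subfieldSubgroup (fixedField hF) P' = subfieldSubgroup (fixedField hF) B⁻¹ := by
  classical
  have : Nonempty (Fin n) := ⟨⟨0, by omega⟩⟩
  set F₀ := fixedField hF with hF₀
  set f := Cfsg.hermForm n F q with hf
  set e : Fin n → Fin n → F := fun a => (B⁻¹ : GL (Fin n) F).val *ᵥ Pi.single a 1
  set G : Matrix (Fin n) (Fin n) F := fun a b => f (e a) (e b) with hG
  have hGherm : ∀ a b, G b a = G a b ^ q := fun a b => herm_symm hF _ _
  have hgram : Cfsg.Geo.gramMatrix (fun u v => f ((B⁻¹ : GL (Fin n) F).val *ᵥ u)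
      ((B⁻¹ : GL (Fin n) F).val *ᵥ v)) = G := rfl
  have hdet : G.det ≠ 0 := by
    rw [← hgram]
    refine Aschbacher.det_gramMatrix_ne_zero (σ := (qFrob hF : F ≃+* F).toRingHom)
      ⟨fun x y v => by simp [f, Matrix.mulVec_add, herm_add_left],
       fun c x v => by simp [f, Matrix.mulVec_smul, herm_smul_left],
       fun v x y => by simp [f, Matrix.mulVec_add, herm_add_right hF],
       fun c v x => by simp [f, Matrix.mulVec_smul, herm_smul_right hF]⟩ fun v hv => ?_
    have hv' : (B⁻¹ : GL (Fin n) F).val *ᵥ v ≠ 0 := fun h => hv (by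
      simpa [Matrix.mulVec_mulVec] using congrArg (B.val *ᵥ ·) h)
    obtain ⟨⟨x, hx⟩, y, hy⟩ := herm_isNondegenerateForm hF _ hv'
    exact ⟨⟨B.val *ᵥ x, by simpa [Matrix.mulVec_mulVec] using hx⟩,
      B.val *ᵥ y, by simpa [Matrix.mulVec_mulVec] using hy⟩
  obtain ⟨i, j, hij⟩ : ∃ i j, G i j ≠ 0 := by
    by_contra h
    push Not at h
    exact hdet (by rw [show G = 0 from Matrix.ext h, Matrix.det_zero])
  have hratio : ∀ a b, (G a b / G i j) ^ q = G a b / G i j := fun a b =>
    gram_ratio_mem (σ := (qFrob hF : F ≃+* F).toRingHom) q_pow_mem hP (herm_sesqui hF)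
      (herm_isNondegenerateForm hF) (herm_fixes hF hPU) hB hij a b
  set c := G i j ^ q / G i j with hc
  have hswap : ∀ a b, G b a = c * G a b := by
    intro a b
    have h := hratio a b
    rw [div_pow, ← hGherm a b, div_eq_iff (pow_ne_zero _ hij)] at h
    rw [h, hc]; field_simp
  have hcc : c * c = 1 := by
    refine mul_right_cancel₀ hij ?_
    rw [one_mul, mul_assoc, ← hswap i j, ← hswap j i]
  have hdiag : (∀ a, G a a = 0) → c = 1 ∧ (2 : F) ≠ 0 := by
    intro hd
    have hskew : c = -1 → False := fun h => hdet (Aschbacher.det_eq_zero_of_alternating (by simpa using hn)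
      (fun a b => by rw [hswap b a, h, neg_one_mul]) hd)
    rcases mul_self_eq_one_iff.1 hcc with h | h
    · refine ⟨h, fun h2 => hskew ?_⟩
      rw [h, eq_neg_iff_add_eq_zero, one_add_one_eq_two, h2]
    · exact (hskew h).elim
  have h2 : (2 : F) ≠ 0 := by
    intro h2
    by_cases hd : ∀ a, G a a = 0
    · exact (hdiag hd).2 h2
    push Not at hd
    obtain ⟨a₀, ha₀⟩ := hd
    -- in characteristic two the diagonal gives a fixed functional
    have : CharP F 2 := (CharP.charP_iff_prime_eq_zero Nat.prime_two).2 (by exact_mod_cast h2)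
    have hsurj : Function.Surjective (frobenius F 2) :=
      (frobenius_inj F 2).bijective_of_finite.2
    choose s hs using fun a => hsurj (G a a / G i j)
    simp only [frobenius_def] at hs
    let ℓ : (Fin n → F) →ₗ[F] F :=
      { toFun := fun v => ∑ a, s a * (B.val *ᵥ v) a
        map_add' := fun x y => by simp [Matrix.mulVec_add, mul_add, Finset.sum_add_distrib]
        map_smul' := fun c x => by simp [Matrix.mulVec_smul, Finset.mul_sum, mul_left_comm] }
    have hℓ : ∀ u : Fin n → F, (∀ k, u k ∈ F₀) →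
        (ℓ ((B⁻¹ : GL (Fin n) F).val *ᵥ u)) ^ 2 =
          f ((B⁻¹ : GL (Fin n) F).val *ᵥ u) ((B⁻¹ : GL (Fin n) F).val *ᵥ u) / G i j := by
      intro u hu
      have hd' : (B⁻¹ : GL (Fin n) F).val *ᵥ u = ∑ a, u a • e a := by
        conv_lhs => rw [pi_eq_sum_univ' u]
        simp [e, Matrix.mulVec_sum, Matrix.mulVec_smul]
      have hexp : ∀ S : Finset (Fin n), f (∑ a ∈ S, u a • e a) (∑ a ∈ S, u a • e a) =
          ∑ a ∈ S, u a ^ 2 * G a a := by
        intro S
        induction S using Finset.induction with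
        | empty => simp [f, herm_zero_left]
        | insert a S ha ih =>
          rw [Finset.sum_insert ha, Finset.sum_insert ha]
          simp only [f] at ih ⊢
          rw [herm_add_left, herm_add_right hF, herm_add_right hF, ih]
          have hsym : Cfsg.hermForm n F q (∑ x ∈ S, u x • e x) (u a • e a) =
              Cfsg.hermForm n F q (u a • e a) (∑ x ∈ S, u x • e x) := by
            rw [(herm_sesqui hF).sum_left, herm_sum_right hF]
            refine Finset.sum_congr rfl fun b _ => ?_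
            simp only [herm_smul_left, herm_smul_right hF, (mem_fixedField hF).1 (hu a),
              (mem_fixedField hF).1 (hu b)]
            have hab := hswap a b
            rcases mul_self_eq_one_iff.1 hcc with h | h
            · rw [h, one_mul] at hab; simp only [G, f] at hab; rw [hab]; ring
            · rw [h, neg_one_mul] at hab; simp only [G, f] at hab; rw [hab, CharTwo.neg_eq]; ring
          rw [hsym]
          simp only [herm_smul_left, herm_smul_right hF, (mem_fixedField hF).1 (hu a)]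
          simp only [G, f]
          linear_combination (u a * Cfsg.hermForm n F q (e a) (∑ x ∈ S, u x • e x)) * h2
      rw [hd', hexp, Finset.sum_div, ← hd']
      simp only [ℓ, LinearMap.coe_mk, AddHom.coe_mk, Matrix.mulVec_mulVec, Units.mul_inv, Matrix.one_mulVec]
      rw [sum_pow_char 2]
      refine Finset.sum_congr rfl fun a _ => ?_
      rw [mul_pow, hs]; ring
    have hinv : Aschbacher.IsInvariantUnder P (LinearMap.ker ℓ) := by
      intro g hg v hv
      have key : ∀ k, ℓ (g.val *ᵥ e k) = ℓ (e k) := by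
        intro k
        refine frobenius_inj F 2 ?_
        simp only [frobenius_def]
        have hsing : ∀ k l, (Pi.single k (1 : F) : Fin n → F) l ∈ F₀ := fun k l => by
          rcases eq_or_ne l k with rfl | h <;> simp [*, F₀.one_mem, F₀.zero_mem]
        set S := B.val * g.val * (B⁻¹ : GL (Fin n) F).val with hSdef
        have hSk : ∀ l, (S *ᵥ Pi.single k 1) l ∈ F₀ := fun l => by
          rw [Matrix.mulVec_single_one]
          exact hB _ ⟨g, hg, rfl⟩ l k
        have he : g.val *ᵥ e k = (B⁻¹ : GL (Fin n) F).val *ᵥ (S *ᵥ Pi.single k 1) := by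
          simp only [hSdef, e, Matrix.mulVec_mulVec, ← mul_assoc, Units.inv_mul, one_mul]
        rw [he, hℓ _ hSk, show e k = (B⁻¹ : GL (Fin n) F).val *ᵥ Pi.single k 1 from rfl, hℓ _ (hsing k), ← he]
        simp only [f]
        rw [mem_GU.1 (hPU hg)]
      have hd' : ∀ z, z = ∑ a, (B.val *ᵥ z) a • e a := fun z => by
        simp only [e, ← Matrix.mulVec_smul, ← Matrix.mulVec_sum, ← pi_eq_sum_univ', Matrix.mulVec_mulVec,
          Units.inv_mul, Matrix.one_mulVec]
      rw [LinearMap.mem_ker] at hv ⊢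
      calc ℓ (g.val *ᵥ v) = ℓ (g.val *ᵥ ∑ a, (B.val *ᵥ v) a • e a) := by rw [← hd' v]
        _ = ∑ a, (B.val *ᵥ v) a • ℓ (g.val *ᵥ e a) := by
          simp only [Matrix.mulVec_sum, Matrix.mulVec_smul, map_sum, map_smul]
        _ = ℓ (∑ a, (B.val *ᵥ v) a • e a) := by simp only [key, map_sum, map_smul]
        _ = 0 := by rw [← hd' v, hv]
    rcases Aschbacher.eq_bot_or_top_of_invariant hP.1 hinv with h | h
    · have h1 := LinearMap.finrank_range_add_finrank_ker ℓ
      have h2' := Submodule.finrank_le (LinearMap.range ℓ)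
      rw [h, finrank_bot, finrank_fin_fun] at h1
      rw [Module.finrank_self] at h2'
      omega
    · have h1 := hℓ (Pi.single a₀ 1) fun k => by
        rcases eq_or_ne k a₀ with rfl | h <;> simp [*, F₀.one_mem, F₀.zero_mem]
      rw [LinearMap.ker_eq_top.1 h, LinearMap.zero_apply, zero_pow two_ne_zero] at h1
      exact ha₀ ((div_eq_zero_iff.1 h1.symm).resolve_right hij)
  refine ⟨?_, ?_⟩
  · have ho := Aschbacher.odd_card_of_two_ne_zero h2
    rw [hF, pow_two] at ho
    exact Nat.Odd.of_mul_left ho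
  have hs : ∀ (a k : Fin n), (Pi.single a (1 : F) : Fin n → F) k ∈ F₀ := fun a k => by
    rcases eq_or_ne k a with rfl | h <;> simp [*, F₀.one_mem, F₀.zero_mem]
  by_cases hd : ∀ a, G a a = 0
  · have hji : G j i = G i j := by rw [hswap i j, (hdiag hd).1, one_mul]
    refine exists_rational_of_value hF (by omega) hP hPU hB (u := Pi.single i 1 + Pi.single j 1)
      (fun k => F₀.add_mem (hs i k) (hs j k)) ?_
    simp only [Matrix.mulVec_add, herm_add_left, herm_add_right hF]
    show G i i + G j i + (G i j + G j j) ≠ 0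
    rw [hd i, hd j, hji, zero_add, add_zero, ← two_mul]
    exact mul_ne_zero h2 hij
  · push Not at hd
    obtain ⟨a, ha⟩ := hd
    exact exists_rational_of_value hF (by omega) hP hPU hB (hs a) ha

/-- An absolutely irreducible unitary group fixing a non-degenerate quadratic form is realised over
the fixed field. -/
theorem realisableOver_fixed_of_quad (hn : 0 < n) {P : Subgroup (GL (Fin n) F)}
    (hP : ActsAbsolutelyIrreducibly (matrixSet P)) (hPU : P ≤ Cfsg.GU n F q) {Q : (Fin n → F) → F}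
    (hQ : IsNondegenerateQuadraticForm Q) (hfix : FixesQuadForm (matrixSet P) Q) :
    RealisableOver (fixedField hF) (matrixSet P) := by
  classical
  have : Nonempty (Fin n) := ⟨⟨0, hn⟩⟩
  set σ := (qFrob hF : F ≃+* F).toRingHom with hσdef
  set f₂ := QuadraticMap.polar Q
  set M := gramMatrix f₂ with hM
  have hMdet : M.det ≠ 0 := Aschbacher.det_gramMatrix_ne_zero (.of_bilinear hQ.polar_bilinear) hQ.nondegenerate
  have hMu : IsUnit M.det := isUnit_iff_ne_zero.2 hMdet
  have hG : gramMatrix (Cfsg.hermForm n F q) = 1 := by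
    ext a b
    simp [gramMatrix, Cfsg.hermForm, Pi.single_apply, zero_pow (q_pos hF).ne', ite_pow, Matrix.one_apply, eq_comm]
  -- conjugating by the Gram matrix gives the Galois twist
  have htwist : ∀ s ∈ matrixSet P, M⁻¹ * s.map σ = s * M⁻¹ := by
    intro s hs
    have h1 := Aschbacher.gramMatrix_of_fixes (herm_sesqui hF) (herm_fixes hF hPU s hs)
    rw [hG, Matrix.one_mul] at h1
    have h2 := Aschbacher.gramMatrix_of_fixes (.of_bilinear hQ.polar_bilinear) (Aschbacher.polar_fixes hfix s hs)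
    rw [RingHom.coe_id, Matrix.map_id, ← hM] at h2
    have h1' : s.map σ * sᵀ = 1 := mul_eq_one_comm.1 h1
    have h3 : M * s = s.map σ * M := by
      calc M * s = (s.map σ * sᵀ) * (M * s) := by rw [h1', Matrix.one_mul]
        _ = s.map σ * M := by rw [Matrix.mul_assoc, h2]
    calc M⁻¹ * s.map σ = M⁻¹ * (s.map σ * M) * M⁻¹ := by
          rw [Matrix.mul_assoc, Matrix.mul_assoc, Matrix.mul_nonsing_inv M hMu, Matrix.mul_one]
      _ = s * M⁻¹ := by rw [← h3, ← Matrix.mul_assoc M⁻¹, Matrix.nonsing_inv_mul M hMu, Matrix.one_mul]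
  exact realisableOver_fixed_of_twist hF hP M⁻¹ (Matrix.isUnit_nonsing_inv_det _ hMu) htwist

end CfsgLib.AschPrime
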