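import Cfsg.Agent.AschPrime.UnitaryFrameField
import Cfsg.Agent.Aschbacher.Proper

/-! The special unitary group is not realised over a proper subfield. -/

set_option autoImplicit false
set_option linter.unusedSectionVars false

namespace CfsgLib.AschPrime

open Cfsg.Geo Module
open scoped Matrix MatrixGroups

variable {F : Type*} [Field F] [Fintype F] {q n : ℕ}

/-- A unipotent element of a subfield group has entries in the subfield after the change of basis. -/
lemma rational_of_sq_zero {F₀ : Subfield F} {P g : GL (Fin n) F} (hn : 0 < n)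
    (hg : g ∈ subfieldSubgroup F₀ P)
    (hsq : ((g : Matrix (Fin n) (Fin n) F) - 1) * ((g : Matrix (Fin n) (Fin n) F) - 1) = 0) :
    ∀ i j, (P⁻¹ * g * P : GL (Fin n) F).val i j ∈ F₀ := by
  obtain ⟨s, d, hsd⟩ := Aschbacher.mem_subfieldSubgroup_iff.1 hg
  have : Nonempty (Fin n) := ⟨⟨0, hn⟩⟩
  obtain ⟨p, hp⟩ := CharP.exists F
  obtain ⟨e, hpp, -⟩ := FiniteField.card F p
  have := Fact.mk hpp
  set M := (P⁻¹ * g * P : GL (Fin n) F).val with hM
  set S : Matrix (Fin n) (Fin n) F := (s : Matrix (Fin n) (Fin n) F₀).map F₀.subtype with hS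
  have hMS : M = (d : F) • S := by
    rw [hM, hsd, Units.val_mul]
    show S * Matrix.scalar (Fin n) (d : F) = _
    ext i j
    simp [Matrix.diagonal, Matrix.mul_apply, Finset.sum_ite_eq', mul_comm]
  have hMp : M ^ p = 1 := by
    have hNp : ((g : Matrix (Fin n) (Fin n) F) - 1) ^ p = 0 := by
      obtain ⟨m, hm⟩ : ∃ m, p = 2 + m := ⟨p - 2, by have := hpp.two_le; omega⟩
      rw [hm, pow_add, sq, hsq, zero_mul]
    have hgp : (g : Matrix (Fin n) (Fin n) F) ^ p = 1 := by
      have h := add_pow_char_of_commute (R := Matrix (Fin n) (Fin n) F) (p := p)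
        (Commute.one_right ((g : Matrix (Fin n) (Fin n) F) - 1))
      rw [sub_add_cancel, hNp, one_pow, zero_add] at h
      exact h
    have h' : g ^ p = 1 := Units.ext (by simpa using hgp)
    have hconj : (P⁻¹ * g * P) ^ p = 1 := by
      have := conj_pow (i := p) (a := P⁻¹) (b := g)
      rw [inv_inv, h'] at this
      simpa using this
    rw [hM, ← Units.val_pow_eq_pow_val, hconj, Units.val_one]
  have hSp : S ^ p = ((s : Matrix (Fin n) (Fin n) F₀) ^ p).map F₀.subtype := by
    rw [hS]
    exact (map_pow F₀.subtype.mapMatrix _ p).symm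
  have hdp : (d : F) ^ p ∈ F₀ := by
    rw [hMS, smul_pow, hSp] at hMp
    obtain ⟨i⟩ := ‹Nonempty (Fin n)›
    have h := congrFun (congrFun hMp i) i
    rw [Matrix.smul_apply, Matrix.one_apply_eq, smul_eq_mul, Matrix.map_apply] at h
    rw [eq_inv_of_mul_eq_one_left h]
    exact F₀.inv_mem (SetLike.coe_mem _)
  have hd : (d : F) ∈ F₀ := by
    have hinj : Function.Injective (frobenius F₀ p) := frobenius_inj F₀ p
    obtain ⟨x, hx⟩ := hinj.bijective_of_finite.2 ⟨_, hdp⟩
    have hx' : ((x : F₀) : F) ^ p = (d : F) ^ p := by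
      simpa [frobenius_def] using congrArg Subtype.val hx
    rw [← frobenius_inj F p hx']
    exact x.2
  intro i j
  rw [hMS, Matrix.smul_apply, smul_eq_mul]
  exact F₀.mul_mem hd ((s : Matrix (Fin n) (Fin n) F₀) i j).2

variable (hF : Fintype.card F = q ^ 2)
include hF

/-- A proper subfield containing the fixed field of the involution is that fixed field. -/
lemma eq_fixed_of_le {F₀ : Subfield F} (h0 : F₀ ≠ ⊤) (hle : ∀ x : F, x ^ q = x → x ∈ F₀)
    {z : F} (hz : z ∈ F₀) : z ^ q = z := by
  by_contra hne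
  refine h0 (eq_top_iff.2 fun y _ => ?_)
  have hd : z - z ^ q ≠ 0 := sub_ne_zero.2 (Ne.symm hne)
  have hb : ((y - y ^ q) / (z - z ^ q)) ^ q = (y - y ^ q) / (z - z ^ q) := by
    rw [div_pow, q_sub_pow hF, q_sub_pow hF, q_pow_pow hF, q_pow_pow hF, ← neg_sub y, ← neg_sub z, neg_div_neg_eq]
  set b := (y - y ^ q) / (z - z ^ q) with hbdef
  have ha : (y - b * z) ^ q = y - b * z := by
    rw [q_sub_pow hF, mul_pow, hb]
    have : b * (z - z ^ q) = y - y ^ q := div_mul_cancel₀ _ hd
    linear_combination this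
  have : y = (y - b * z) + b * z := by ring
  rw [this]
  exact F₀.add_mem (hle _ ha) (F₀.mul_mem (hle _ hb) hz)

/-- The special unitary group lies in no subfield group of a proper subfield. -/
theorem not_le_subfieldSubgroup (hn : 3 ≤ n) {F₀ : Subfield F} (h0 : F₀ ≠ ⊤) (P : GL (Fin n) F) :
    ¬ Cfsg.GU n F q ⊓ specialLinear (Fin n) F ≤ subfieldSubgroup F₀ P := by
  intro hle
  obtain ⟨α, hα0, hα⟩ := exists_trace_zero hF
  -- images of isotropic vectors: entries of the conjugated transvection
  let r : (Fin n → F) → (Fin n → F) := fun x => (P⁻¹ : GL (Fin n) F).val *ᵥ x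
  let b : (Fin n → F) → (Fin n → F) := fun v => fun j => Cfsg.hermForm n F q (P.val *ᵥ Pi.single j 1) v
  have hent : ∀ v, Cfsg.hermForm n F q v v = 0 → ∀ x : F, x ^ q = x → ∀ i j,
      α * x * r v i * b v j ∈ F₀ := by
    intro v hv x hx i j
    have hc : α * x + (α * x) ^ q = 0 := by
      rw [mul_pow, hx]; linear_combination x * hα
    have hsq : ((utransv hv (α * x) : Matrix (Fin n) (Fin n) F) - 1) *
        ((utransv hv (α * x) : Matrix (Fin n) (Fin n) F) - 1) = 0 := by
      refine Matrix.ext_of_mulVec_single fun k => ?_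
      have h : ∀ z, ((utransv hv (α * x) : Matrix (Fin n) (Fin n) F) - 1) *ᵥ z =
          (α * x * Cfsg.hermForm n F q z v) • v := fun z => by
        rw [Matrix.sub_mulVec, utransv_mulVec, Matrix.one_mulVec, add_sub_cancel_left]
      rw [← Matrix.mulVec_mulVec, h, h, herm_smul_left, hv, mul_zero, mul_zero, zero_smul,
        Matrix.zero_mulVec]
    have h := rational_of_sq_zero (by omega) (hle (utransv_mem hF hv hc)) hsq i j
    have hentry : (P⁻¹ * utransv hv (α * x) * P : GL (Fin n) F).val i j =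
        (1 : Matrix (Fin n) (Fin n) F) i j + α * x * r v i * b v j := by
      have hcol : (P⁻¹ * utransv hv (α * x) * P : GL (Fin n) F).val *ᵥ Pi.single j 1 =
          Pi.single j 1 + (α * x * b v j) • r v := by
        simp only [Units.val_mul, ← Matrix.mulVec_mulVec, utransv_mulVec, Matrix.mulVec_add,
          Matrix.mulVec_smul]
        congr 1
        rw [Matrix.mulVec_mulVec, ← Units.val_mul, inv_mul_cancel, Units.val_one, Matrix.one_mulVec]
      have := congrFun hcol i
      rw [Matrix.mulVec_single_one] at this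
      simp only [Matrix.col_apply, Pi.add_apply, Pi.smul_apply, smul_eq_mul] at this
      rw [this, Matrix.one_apply, Pi.single_apply]
      ring
    rw [hentry] at h
    have h1 : (1 : Matrix (Fin n) (Fin n) F) i j ∈ F₀ := by
      rw [Matrix.one_apply]; split_ifs
      exacts [F₀.one_mem, F₀.zero_mem]
    simpa using F₀.sub_mem h h1
  have hb0 : ∀ v, v ≠ 0 → ∃ j, b v j ≠ 0 := by
    intro v hv
    by_contra h
    push Not at h
    refine hv (herm_nondeg' hF fun y => ?_)
    have hy : y = P.val *ᵥ ∑ j, (r y) j • Pi.single j (1 : F) := by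
      rw [← pi_eq_sum_univ' (r y)]
      simp [r, Matrix.mulVec_mulVec]
    rw [hy, Matrix.mulVec_sum]
    simp only [Matrix.mulVec_smul]
    have hh : ∀ s : Finset (Fin n), Cfsg.hermForm n F q
        (∑ j ∈ s, (r y) j • (P.val *ᵥ Pi.single j 1)) v = 0 := by
      intro s
      classical
      induction s using Finset.induction with
      | empty => simp [herm_zero_left]
      | insert a s ha ih =>
        rw [Finset.sum_insert ha, herm_add_left, herm_smul_left, show Cfsg.hermForm n F q _ v = 0 from h a,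
          mul_zero, zero_add, ih]
    exact hh _
  have hr0 : ∀ v, v ≠ 0 → ∃ i, r v i ≠ 0 := fun v hv => by
    by_contra h
    push Not at h
    refine hv ?_
    have := congrArg (P.val *ᵥ ·) (funext h : r v = 0)
    simpa [r, Matrix.mulVec_mulVec] using this
  -- a hyperbolic pair and an anisotropic vector orthogonal to it
  set i₀ : Fin n := ⟨0, by omega⟩
  set i₁ : Fin n := ⟨1, by omega⟩
  set i₂ : Fin n := ⟨2, by omega⟩
  have h01 : i₀ ≠ i₁ := by simp [i₀, i₁]
  have h02 : i₀ ≠ i₂ := by simp [i₀, i₂]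
  have h12 : i₁ ≠ i₂ := by simp [i₁, i₂]
  have hstd : ∀ i j : Fin n, Cfsg.hermForm n F q (Pi.single i (1 : F)) (Pi.single j 1) = if i = j then 1 else 0 := by
    intro i j
    simp [Cfsg.hermForm, Pi.single_apply, zero_pow (q_pos hF).ne', ite_pow, eq_comm]
  obtain ⟨t, -, hu⟩ := exists_isotropic_combination hF (a := Pi.single i₀ (1 : F)) (b := Pi.single i₁ (1 : F))
    (by rw [hstd, if_neg h01]) (by simp [hstd]) (by simp [hstd])
  set u : Fin n → F := Pi.single i₀ 1 + t • Pi.single i₁ 1 with hudef
  obtain ⟨β, hβ⟩ := exists_trace_eq hF (a := (-1 : F)) (by rw [q_neg_pow hF, one_pow])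
  have hue : Cfsg.hermForm n F q u (Pi.single i₀ 1) = 1 := by
    simp [hudef, herm_add_left, herm_smul_left, hstd, h01.symm]
  have heu : Cfsg.hermForm n F q (Pi.single i₀ 1) u = 1 := by rw [herm_symm hF, hue, one_pow]
  have hwu : Cfsg.hermForm n F q (Pi.single i₂ 1) u = 0 := by
    simp [hudef, herm_add_right hF, herm_smul_right hF, hstd, h02.symm, h12.symm]
  have huw : Cfsg.hermForm n F q u (Pi.single i₂ 1) = 0 := by
    rw [herm_symm hF, hwu, zero_pow (q_pos hF).ne']
  set u' : Fin n → F := Pi.single i₀ 1 + β • u with hu'def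
  have hu'u : Cfsg.hermForm n F q u' u = 1 := by
    rw [hu'def, herm_add_left, herm_smul_left, hu, heu, mul_zero, add_zero]
  have huu' : Cfsg.hermForm n F q u u' = 1 := by rw [herm_symm hF, hu'u, one_pow]
  have hu' : Cfsg.hermForm n F q u' u' = 0 := by
    simp only [hu'def, herm_add_left, herm_add_right hF, herm_smul_left, herm_smul_right hF, hu, heu, hue,
      hstd, if_true]
    linear_combination hβ
  set w : Fin n → F := Pi.single i₂ 1 with hwdef
  have hww : Cfsg.hermForm n F q w w = 1 := by simp [hwdef, hstd]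
  have hu'w : Cfsg.hermForm n F q u' w = 0 := by
    rw [hu'def, herm_add_left, herm_smul_left, hstd, if_neg h02, huw, mul_zero, add_zero]
  have hwu' : Cfsg.hermForm n F q w u' = 0 := by rw [herm_symm hF, hu'w, zero_pow (q_pos hF).ne']
  have hu0 : u ≠ 0 := fun h => one_ne_zero (α := F) (by rw [← heu, h, herm_zero_right hF])
  -- the fixed field lies in the subfield
  have hfix : ∀ x : F, x ^ q = x → x ∈ F₀ := by
    intro x hx
    obtain ⟨i, hi⟩ := hr0 u hu0
    obtain ⟨j, hj⟩ := hb0 u hu0
    have h1 := hent u hu 1 (one_pow q) i j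
    have h2 := hent u hu x hx i j
    have h3 : x = α * x * r u i * b u j / (α * 1 * r u i * b u j) := by field_simp
    rw [h3]
    exact F₀.div_mem h2 h1
  have hF0 : ∀ z ∈ F₀, z ^ q = z := fun z hz => eq_fixed_of_le hF h0 hfix hz
  have hrat : ∀ v, v ≠ 0 → Cfsg.hermForm n F q v v = 0 → ∃ μ : F, μ ≠ 0 ∧ ∀ i, (μ * r v i) ^ q = μ * r v i := by
    intro v hv0 hv
    obtain ⟨j, hj⟩ := hb0 v hv0
    refine ⟨α * 1 * b v j, by simp [hα0, hj], fun i => hF0 _ ?_⟩
    convert hent v hv 1 (one_pow q) i j using 1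
    ring
  obtain ⟨μ₂, hμ₂, hR₂⟩ := hrat u hu0 hu
  -- all isotropic vectors pairing with `u` to one are rational with one common factor
  have key : ∀ V, Cfsg.hermForm n F q V V = 0 → Cfsg.hermForm n F q V u = 1 →
      ∀ i, (μ₂ / α * r V i) ^ q = μ₂ / α * r V i := by
    intro V hV hVu
    have huV : Cfsg.hermForm n F q u V = 1 := by rw [herm_symm hF, hVu, one_pow]
    have hV0 : V ≠ 0 := fun h => one_ne_zero (α := F) (by rw [← hVu, h, herm_zero_left])
    set V' := V + α • u with hV'def
    have hV' : Cfsg.hermForm n F q V' V' = 0 := by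
      simp only [hV'def, herm_add_left, herm_add_right hF, herm_smul_left, herm_smul_right hF, hV, hu, hVu, huV]
      linear_combination hα
    have hV'0 : V' ≠ 0 := fun h => one_ne_zero (α := F) (by
      rw [← hVu, show V = V' - α • u by simp [hV'def], h, zero_sub, ← neg_one_smul F, smul_smul, herm_smul_left,
        hu, mul_zero])
    obtain ⟨μ, hμ, hR⟩ := hrat V hV0 hV
    obtain ⟨μ', hμ', hR'⟩ := hrat V' hV'0 hV'
    set x := μ' / μ with hxdef
    set y := μ' * α / μ₂ with hydef
    have hsum : ∀ i, μ' * r V' i = x * (μ * r V i) + y * (μ₂ * r u i) := by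
      intro i
      have : r V' i = r V i + α * r u i := by
        simp [r, hV'def, Matrix.mulVec_add, Matrix.mulVec_smul]
      rw [this, hxdef, hydef]
      field_simp
    have hdiff : ∀ i, (x ^ q - x) * (μ * r V i) + (y ^ q - y) * (μ₂ * r u i) = 0 := by
      intro i
      have h := hR' i
      rw [hsum i, q_add_pow hF, mul_pow x, mul_pow y, hR i, hR₂ i] at h
      linear_combination h
    have hvec : ((x ^ q - x) * μ) • V + ((y ^ q - y) * μ₂) • u = 0 := by
      have h : r (((x ^ q - x) * μ) • V + ((y ^ q - y) * μ₂) • u) = 0 := by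
        funext i
        simp only [r, Matrix.mulVec_add, Matrix.mulVec_smul, Pi.add_apply, Pi.smul_apply, smul_eq_mul,
          Pi.zero_apply]
        linear_combination hdiff i
      have := congrArg (P.val *ᵥ ·) h
      simpa [r, Matrix.mulVec_mulVec] using this
    have hx : x ^ q = x := by
      have h := congrArg (fun z => Cfsg.hermForm n F q z u) hvec
      simp only [herm_add_left, herm_smul_left, hVu, hu, herm_zero_left] at h
      simp [hμ] at h
      linear_combination h
    have hy : y ^ q = y := by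
      rw [hx, sub_self, zero_mul, zero_smul, zero_add, smul_eq_zero] at hvec
      rcases hvec with h | h
      · exact sub_eq_zero.1 ((mul_eq_zero.1 h).resolve_right hμ₂)
      · exact absurd h hu0
    intro i
    have hne : μ * α / μ₂ ≠ 0 := by simp [hμ, hα0, hμ₂]
    have hq' : (μ * α / μ₂) ^ q = μ * α / μ₂ := by
      have : μ * α / μ₂ = y / x := by rw [hxdef, hydef]; field_simp
      rw [this, div_pow, hx, hy]
    have : μ₂ / α * r V i = μ * r V i / (μ * α / μ₂) := by field_simp
    rw [this, div_pow, hq', hR i]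
  -- vectors differing by a multiple of `w`
  obtain ⟨γ, hγ⟩ := exists_trace_eq hF (a := (-1 : F)) (by rw [q_neg_pow hF, one_pow])
  have hiso : ∀ ζ : F, ζ ^ (q + 1) = 1 → Cfsg.hermForm n F q (u' + γ • u + ζ • w) (u' + γ • u + ζ • w) = 0 ∧
      Cfsg.hermForm n F q (u' + γ • u + ζ • w) u = 1 := by
    intro ζ hζ
    constructor
    · simp only [herm_add_left, herm_add_right hF, herm_smul_left, herm_smul_right hF, hu, hu', hu'u, huu',
        hu'w, hwu', huw, hwu, hww]
      rw [pow_succ] at hζ
      linear_combination hγ + hζ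
    · simp only [herm_add_left, herm_smul_left, hu, hu'u, hwu]; ring
  obtain ⟨a, c, ha1, hc1, hac, haN, hcN⟩ := exists_norm_one_pair hF
  have hz : ∀ ζ : F, ζ ^ (q + 1) = 1 → ∀ i, (μ₂ / α * (ζ - 1) * r w i) ^ q = μ₂ / α * (ζ - 1) * r w i := by
    intro ζ hζ i
    have h1 := key _ (hiso ζ hζ).1 (hiso ζ hζ).2 i
    have h2 := key _ (hiso 1 (one_pow _)).1 (hiso 1 (one_pow _)).2 i
    have e : μ₂ / α * (ζ - 1) * r w i =
        μ₂ / α * r (u' + γ • u + ζ • w) i - μ₂ / α * r (u' + γ • u + (1 : F) • w) i := by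
      simp [r, Matrix.mulVec_add, Matrix.mulVec_smul]
      ring
    rw [e, q_sub_pow hF, h1, h2]
  obtain ⟨i, hi⟩ := hr0 w (fun h => one_ne_zero (α := F) (by rw [← hww, h, herm_zero_left]))
  have h1 := hz a haN i
  have h2 := hz c hcN i
  have hane : μ₂ / α * r w i ≠ 0 := by simp [hμ₂, hα0, hi]
  rw [mul_right_comm, mul_pow] at h1 h2
  set K := (μ₂ / α * r w i) ^ q
  have hK0 : K ≠ 0 := pow_ne_zero _ hane
  rw [q_sub_pow hF, one_pow] at h1 h2
  rw [pow_succ] at haN hcN
  -- compare the two ratios
  have hcross : (a ^ q - 1) * (c - 1) = (c ^ q - 1) * (a - 1) := by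
    refine mul_left_cancel₀ hK0 (mul_left_cancel₀ hane ?_)
    linear_combination (μ₂ / α * r w i) * (c - 1) * h1 - (μ₂ / α * r w i) * (a - 1) * h2
  have hfin : (a - c) * ((a - 1) * (c - 1)) = 0 := by
    have e : (a ^ q - 1) * (c - 1) * (a * c) = (c ^ q - 1) * (a - 1) * (a * c) := by rw [hcross]
    linear_combination e - (c * (c - 1)) * haN + (a * (a - 1)) * hcN
  rcases mul_eq_zero.1 hfin with h | h
  · exact hac (sub_eq_zero.1 h)
  · rcases mul_eq_zero.1 h with h | h
    exacts [ha1 (sub_eq_zero.1 h), hc1 (sub_eq_zero.1 h)]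

end CfsgLib.AschPrime
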